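import Cfsg.Agent.H9.U4.Sub

/-! An irreducible subgroup of `SU_5(q)`, `q ≥ 3`, containing a full group of transvections is
everything. -/

set_option autoImplicit false
set_option linter.unusedSimpArgs false
set_option linter.unusedSectionVars false
set_option linter.unusedVariables false

namespace Cfsg.Agent.H6.U5

open Module Cfsg.Agent.H6 Cfsg.Agent.H5.U Cfsg.Agent.H5.U.HF

variable {F : Type*} {V : Type*} [Field F] [StarRing F] [AddCommGroup V] [Module F V]
  [NStar F] [Finite F] [FiniteDimensional F V] {h : H5.U.HF F V} {M : Subgroup (V ≃ₗ[F] V)}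
  {e f u w : V}

theorem sw_apply (ee : h e e = 0) (ff : h f f = 0) (ef : h e f = 1) {d : F} (d0 : d ≠ 0)
    (hd : d + star d = 0) (x : V) : (h.T e d * h.T f (-d⁻¹) * h.T e d) x =
      x - h x f • e - h x e • f + (d * h x e) • e - (d⁻¹ * h x f) • f := by
  have h1 : -d⁻¹ + star (-d⁻¹) = 0 := by simp [eq_neg_of_add_eq_zero_right hd]
  simp only [H5.U.mul_app, T_apply ee hd, T_apply ff h1, add_left, smul_left, ee, ef, symm1 ef, ff]
  match_scalars <;> field_simp <;> ring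

theorem sw_mem (Xe : h.XIn M e) (Xf : h.XIn M f) {d : F} (hd : d + star d = 0) :
    h.T e d * h.T f (-d⁻¹) * h.T e d ∈ M :=
  mul_mem (mul_mem (Xe _ hd) (Xf _ (by simp [eq_neg_of_add_eq_zero_right hd]))) (Xe _ hd)

theorem D_mem (ee : h e e = 0) (ff : h f f = 0) (ef : h e f = 1) (Xe : h.XIn M e)
    (Xf : h.XIn M f) {m : F} (m0 : m ≠ 0) (hm : star m = m) : h.D e f m ∈ M := by
  have hd := del_ne (F := F)
  have h1 : m * del F + star (m * del F) = 0 := by
    rw [star_mul', hm]; linear_combination m * del_tr (F := F)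
  refine (M.mul_mem_cancel_right (sw_mem Xe Xf del_tr)).1 ?_
  convert sw_mem Xe Xf h1 using 1
  ext x
  rw [H5.U.mul_app, sw_apply ee ff ef hd del_tr, sw_apply ee ff ef (mul_ne_zero m0 hd) h1,
    D_apply ee ff ef m0]
  simp only [add_left, sub_left, smul_left, ee, ef, symm1 ef, ff, hm]
  match_scalars <;> field_simp <;> ring

theorem conj_D {g : V ≃ₗ[F] V} (hg : g ∈ h.GU) (ee : h e e = 0) (ff : h f f = 0) (ef : h e f = 1)
    {m : F} (m0 : m ≠ 0) : g * h.D e f m * g⁻¹ = h.D (g e) (g f) m := by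
  ext x
  rw [H5.U.mul_app, H5.U.mul_app, D_apply ee ff ef m0,
    D_apply (by rw [hg, ee]) (by rw [hg, ff]) (by rw [hg, ef]) m0]
  simp only [map_add, map_smul, apply_inv_apply, GU_right hg]

/-- real multiples -/
theorem ME_real (hM : M ≤ h.SU) (ee : h e e = 0) (ff : h f f = 0) (ef : h e f = 1) (Xe : h.XIn M e)
    (Xf : h.XIn M f) (wf : h w f = 0) (hw : w ∈ h.ME M e ee) {t : F} (ht : star t = t) :
    t • w ∈ h.ME M e ee := by
  by_cases t0 : t = 0
  · simp [t0]
  have := ME_map_smul hM hw (D_mem ee ff ef Xe Xf t0 ht) (a := t)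
    (by simp [D_apply ee ff ef t0, ee, ef]; module)
  simpa [D_apply ee ff ef t0, ME_perp hw, wf, ht] using this

theorem ME_of_X (hM : M ≤ h.SU) (hq : ∃ t : F, star t = t ∧ t ≠ 0 ∧ t ≠ 1) (ee : h e e = 0)
    (ff : h f f = 0) (ef : h e f = 1) (Xe : h.XIn M e) (Xf : h.XIn M f) (we : h w e = 0)
    (wf : h w f = 0) {c : F} (hc : c + star c = h w w) (hX : h.XIn M (f + w - c • e)) :
    w ∈ h.ME M e ee := by
  obtain ⟨t, t1, t0, t2⟩ := hq
  have o : h.Ok e w c := ⟨ee, we, hc⟩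
  have hE := E_mem_GU (h := h) e w c
  have e1 : h.E e w c f = f + w - c • e := by simp [E_apply o, symm1 ef, symm0 wf]
  have h1 := D_mem ee (by rw [← e1, hE, ff]) (by rw [← e1]; nth_rw 1 [← E_self o]; rw [hE, ef]) Xe
    hX t0 t1
  have h2 := mul_mem h1 (inv_mem (D_mem ee ff ef Xe Xf t0 t1))
  have hD := D_mem_GU ee ff ef t0
  have o' : h.Ok e (star t • -w) (t * star t * star c) := by
    have := o.neg.smul_right (star t)
    rwa [star_star, mul_comm (star t)] at this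
  rw [← e1] at h2
  nth_rw 1 [← E_self o] at h2
  rw [← conj_D hE ee ff ef t0, show h.E e w c * h.D e f t * (h.E e w c)⁻¹ * (h.D e f t)⁻¹ =
    h.E e w c * (h.D e f t * (h.E e w c)⁻¹ * (h.D e f t)⁻¹) by group, E_inv o, conj_E hD o.neg,
    show h.D e f t e = t • e by simp [D_apply ee ff ef t0, ee, ef]; module,
    show h.D e f t (-w) = -w by simp [D_apply ee ff ef t0, we, wf], E_smul_left t o.neg,
    E_mul o o'] at h2
  have h3 : (1 - t) • w ∈ h.ME M e ee := by
    rw [show (1 - t) • w = w + star t • -w by rw [t1]; module]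
    exact ⟨_, o.add o', h2⟩
  have t3 : 1 - t ≠ 0 := sub_ne_zero.2 t2.symm
  simpa [smul_smul, t3] using ME_real hM ee ff ef Xe Xf (by simp [wf]) h3 (t := (1 - t)⁻¹)
    (by simp [t1])

theorem ME_all (hM : M ≤ h.SU) (hq : ∃ t : F, star t = t ∧ t ≠ 0 ∧ t ≠ 1) (ee : h e e = 0)
    (ff : h f f = 0) (ef : h e f = 1) (Xe : h.XIn M e) (Xf : h.XIn M f)
    (wf : h w f = 0) (hw : w ∈ h.ME M e ee) (ww : h w w ≠ 0) (l : F) : l • w ∈ h.ME M e ee := by
  obtain ⟨c, o, hc⟩ := id hw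
  have hd := del_ne (F := F)
  have hd' : star (del F) = -del F := eq_neg_of_add_eq_zero_right del_tr
  have c0 : c ≠ 0 := by rintro rfl; exact ww (by simpa using o.tr.symm)
  have c1 := star_ne_zero' c0
  have i1 : h (h.E e w c f) (h.E e w c f) = 0 := by rw [E_mem_GU, ff]
  have h1 := ((Xf.map hM ff hc).map hM i1 (sw_mem Xe Xf del_tr)).smul
    (by rw [(hM (sw_mem Xe Xf del_tr)).1, i1]) (del F / c)
  have h2 : (del F / c) • w ∈ h.ME M e ee := by
    refine ME_of_X hM hq ee ff ef Xe Xf (by simp [o.we]) (by simp [wf])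
      (c := -(del F * del F / c)) ?_ ?_
    · simp [hd', ← o.tr]; field_simp; ring
    · convert h1 using 1
      simp only [sw_apply ee ff ef hd del_tr, E_apply o, add_left, sub_left, smul_left, ee, ff, ef,
        symm1 ef, o.we, wf, symm0 wf]
      match_scalars <;> field_simp <;> ring
  obtain ⟨x, y, hx, hy, rfl⟩ := exists_coord (a := del F / c) (fun h0 => ww (by
    rw [star_div₀, hd'] at h0
    field_simp at h0
    rw [← o.tr]; linear_combination -h0)) l
  rw [add_smul, mul_smul]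
  exact add_mem (ME_real hM ee ff ef Xe Xf wf hw hx) (ME_real hM ee ff ef Xe Xf (by simp [wf]) h2 hy)

/-- the span of the centres of transvection groups in `M` not orthogonal to `e` -/
def UU (h : H5.U.HF F V) (M : Subgroup (V ≃ₗ[F] V)) (e : V) : Submodule F V :=
  Submodule.span F {u | h u u = 0 ∧ h.XIn M u ∧ h u e ≠ 0}

theorem mem_UU (uu : h u u = 0) (hX : h.XIn M u) (ue : h u e ≠ 0) : u ∈ UU h M e :=
  Submodule.subset_span ⟨uu, hX, ue⟩

theorem mem_UU_or (hM : M ≤ h.SU) (uu : h u u = 0) (hX : h.XIn M u) :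
    u ∈ UU h M e ∨ u ∈ h.perp (UU h M e) := by
  by_cases ue : h u e = 0
  swap; · exact Or.inl (mem_UU uu hX ue)
  refine or_iff_not_imp_right.2 fun hn => ?_
  obtain ⟨v, ⟨vv, Xv, ve⟩, uv⟩ : ∃ v ∈ {u | h u u = 0 ∧ h.XIn M u ∧ h u e ≠ 0}, h v u ≠ 0 := by
    by_contra! hc
    exact hn (mem_perp'.2 fun x hx => (Submodule.span_le (p := h.pv u)).2 hc hx)
  have h1 := mem_UU (e := e) (by rw [T_mem_GU, vv]) (Xv.map hM vv (hX _ del_tr))
    (by simpa [T_apply uu del_tr, ue] using ve)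
  rw [T_apply uu del_tr] at h1
  have h2 := Submodule.sub_mem _ h1 (mem_UU vv Xv ve)
  rwa [add_sub_cancel_left, Submodule.smul_mem_iff _ (mul_ne_zero del_ne uv)] at h2

theorem UU_le (hM : M ≤ h.SU) {W : Submodule F V} (hW : ∀ u, h u u = 0 → h.XIn M u →
    u ∈ W ∨ u ∈ h.perp W) (he : e ∈ W) : UU h M e ≤ W :=
  Submodule.span_le.2 fun u hu => (hW u hu.1 hu.2.1).resolve_right fun h0 => hu.2.2 (h0 e he)

theorem UU_map (hM : M ≤ h.SU) {g : V ≃ₗ[F] V} (hg : g ∈ M) {x : V} (hx : x ∈ UU h M e) :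
    g x ∈ UU h M (g e) :=
  (Submodule.span_le (p := (UU h M (g e)).comap (g : V →ₗ[F] V))).2 (fun u hu =>
    mem_UU (u := g u) (by rw [(hM hg).1, hu.1]) (hu.2.1.map hM hu.1 hg)
      (by rw [(hM hg).1]; exact hu.2.2)) hx

section
variable (hM : M ≤ h.SU) (sp : ∀ W : Submodule F V, (∀ u, h u u = 0 → h.XIn M u → u ∈ W) → W = ⊤)
include hM sp

theorem UU_nd : h.NdOn (UU h M e) := fun w hw h0 => by
  have := sp (h.pv w) fun u uu hX => (mem_UU_or (e := e) hM uu hX).elim (h0 u) fun h1 => h1 w hw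
  exact h.nd fun x => (this.ge trivial : x ∈ h.pv w)

theorem UU_two (e0 : e ≠ 0) (ee : h e e = 0) (hX : h.XIn M e) : 2 ≤ finrank F (UU h M e) := by
  obtain ⟨v, vv, Xv, ve⟩ : ∃ v, h v v = 0 ∧ h.XIn M v ∧ h v e ≠ 0 := by
    by_contra! hc
    exact e0 (h.nd fun x => ((sp (h.pv e) hc).ge trivial : x ∈ h.pv e))
  have hv := mem_UU vv Xv ve
  have he : e ∈ UU h M e := (mem_UU_or hM ee hX).resolve_right fun h0 => ve (symm0 (h0 v hv))
  have h1 := finrank_inf_pv_lt hv ve
  have h2 : UU h M e ⊓ h.pv e ≠ ⊥ := fun h0 => e0 ((Submodule.mem_bot F).1 (h0 ▸ ⟨he, ee⟩))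
  have := Submodule.finrank_eq_zero.not.2 h2
  omega

omit sp in
theorem exists_X_not {W : Submodule F V}
    (sp : ∀ W : Submodule F V, (∀ u, h u u = 0 → h.XIn M u → u ∈ W) → W = ⊤) (hW : W ≠ ⊤) :
    ∃ u, h u u = 0 ∧ h.XIn M u ∧ u ∉ W := by
  by_contra! hc
  exact hW (sp W hc)

theorem exists_UU_top (hV : finrank F V = 5)
    (irr : ∀ W : Submodule F V, (∀ g ∈ M, ∀ w ∈ W, g w ∈ W) → W = ⊥ ∨ W = ⊤) :
    ∃ e, e ≠ 0 ∧ h e e = 0 ∧ h.XIn M e ∧ UU h M e = ⊤ := by
  have key : ∀ e u, h u u = 0 → h.XIn M u → u ∈ h.perp (UU h M e) →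
      UU h M u ≤ h.perp (UU h M e) := fun e u uu Xu hu =>
    UU_le hM (fun v vv Xv => by rw [perp_perp]; exact (mem_UU_or hM vv Xv).symm) hu
  by_cases h3 : ∃ e, e ≠ 0 ∧ h e e = 0 ∧ h.XIn M e ∧ 3 ≤ finrank F (UU h M e)
  · obtain ⟨e, e0, ee, Xe, h3⟩ := h3
    refine ⟨e, e0, ee, Xe, (irr _ fun g hg w hw => ?_).resolve_left fun h0 => by
      rw [h0, finrank_bot] at h3; omega⟩
    have gg : h (g e) (g e) = 0 := by rw [(hM hg).1, ee]
    rcases mem_UU_or (e := e) hM gg (Xe.map hM ee hg) with h1 | h1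
    · exact UU_le hM (fun v vv Xv => mem_UU_or hM vv Xv) h1 (UU_map hM hg hw)
    have h2 := Submodule.finrank_mono ((Submodule.map_le_iff_le_comap.2
      fun x hx => UU_map hM hg hx : (UU h M e).map (g : V →ₗ[F] V) ≤ UU h M (g e)).trans
        (key e _ gg (Xe.map hM ee hg) h1))
    have := (UU_nd (e := e) hM sp).finrank_perp
    rw [LinearEquiv.finrank_map_eq] at h2
    omega
  exfalso
  push Not at h3
  have nt : ∀ W : Submodule F V, finrank F W ≤ 4 → W ≠ ⊤ := fun W hW h0 => by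
    rw [h0, finrank_top] at hW; omega
  obtain ⟨a, aa, Xa, a0⟩ := exists_X_not hM sp (nt ⊥ (by simp))
  have a1 := h3 a a0 aa Xa
  obtain ⟨b, bb, Xb, b0⟩ := exists_X_not hM sp (nt (UU h M a) (by omega))
  have b2 : b ≠ 0 := by rintro rfl; simp at b0
  have b1 := h3 b b2 bb Xb
  have h4 := Submodule.finrank_sup_add_finrank_inf_eq (UU h M a) (UU h M b)
  obtain ⟨c, cc, Xc, c0⟩ := exists_X_not hM sp (nt (UU h M a ⊔ UU h M b) (by omega))
  have c2 : c ≠ 0 := by rintro rfl; simp at c0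
  have k1 := key a b bb Xb ((mem_UU_or hM bb Xb).resolve_left b0)
  have k2 := key a c cc Xc ((mem_UU_or hM cc Xc).resolve_left fun h0 => c0 (Submodule.mem_sup_left h0))
  have k3 := key b c cc Xc ((mem_UU_or hM cc Xc).resolve_left fun h0 => c0 (Submodule.mem_sup_right h0))
  have h5 := Submodule.finrank_sup_add_finrank_inf_eq (UU h M b) (UU h M c)
  have h6 : UU h M b ⊓ UU h M c = ⊥ := eq_bot_iff.2 fun x hx => (UU_nd hM sp).eq_zero hx.1 (k3 hx.2)
  have h7 := Submodule.finrank_mono (sup_le k1 k2)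
  have := (UU_nd (e := a) hM sp).finrank_perp
  have := UU_two hM sp a0 aa Xa
  have := UU_two hM sp b2 bb Xb
  have := UU_two hM sp c2 cc Xc
  rw [h6, finrank_bot] at h5
  omega

end

/-- an additive subgroup closed under real multiples spanning a non-degenerate space of
dimension three contains a non-isotropic vector -/
theorem exists_nonIso {W : Submodule F V} (hW : h.NdOn W) (h3 : finrank F W = 3)
    (A : AddSubgroup V) (hA : ∀ a ∈ A, a ∈ W → ∀ t : F, star t = t → t • a ∈ A)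
    (sp : ∀ B : Submodule F V, (∀ a ∈ A, a ∈ W → a ∈ B) → W ≤ B) : ∃ a ∈ A, a ∈ W ∧ h a a ≠ 0 := by
  by_contra! hc
  have alt : ∀ a ∈ A, a ∈ W → ∀ b ∈ A, b ∈ W → h b a = -h a b := fun a ha ha' b hb hb' => by
    have := hc _ (add_mem ha hb) (add_mem ha' hb')
    simp only [add_left, add_right, hc a ha ha', hc b hb hb'] at this
    linear_combination this
  obtain ⟨a, ha, ha', a0⟩ : ∃ a ∈ A, a ∈ W ∧ a ≠ 0 := by
    by_contra! h0
    have := Submodule.finrank_mono (sp ⊥ h0)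
    rw [finrank_bot] at this; omega
  obtain ⟨b, hb, hb', ba⟩ : ∃ b ∈ A, b ∈ W ∧ h b a ≠ 0 := by
    by_contra! h0
    exact a0 (hW a ha' fun x hx => sp (h.pv a) h0 hx)
  have ab := symm_ne ba
  have ab' := star_ne_zero' ab
  have e1 : h a ((star (h a b))⁻¹ • b) = 1 := by simp [ab]
  have h1 := finrank_inf_hyp ha' (W.smul_mem (star (h a b))⁻¹ hb') (hc a ha ha') e1
  have h2 := hW.inf_pv₂ ha' (W.smul_mem (star (h a b))⁻¹ hb') (hc a ha ha')
    (by simp [hc b hb hb']) e1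
  have h4 := Submodule.finrank_mono (sp (Submodule.span F {a, b}) fun x hx hx' => ?_)
  · have := finrank_span_pair_le (F := F) a b
    omega
  have r1 : star (h x a / h b a) = h x a / h b a := by
    rw [star_div₀, conj, conj, alt a ha ha' x hx hx', alt a ha ha' b hb hb', neg_div_neg_eq]
  have r2 : star (h x b / h a b) = h x b / h a b := by
    rw [star_div₀, conj, conj, alt b hb hb' x hx hx', alt b hb hb' a ha ha', neg_div_neg_eq]
  have y1 := sub_mem (sub_mem hx (hA b hb hb' _ r1)) (hA a ha ha' _ r2)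
  have y2 := W.sub_mem (W.sub_mem hx' (W.smul_mem (h x a / h b a) hb')) (W.smul_mem (h x b / h a b) ha')
  have y3 : x - (h x a / h b a) • b - (h x b / h a b) • a ∈
      W ⊓ h.pv a ⊓ h.pv ((star (h a b))⁻¹ • b) :=
    ⟨⟨y2, by simp [hc a ha ha', ba]⟩, by simp [hc b hb hb', ab]⟩
  have y4 : x - (h x a / h b a) • b - (h x b / h a b) • a = 0 := by
    by_contra y0
    refine y0 (h2 _ y3 fun z hz => ?_)
    obtain ⟨c, rfl⟩ : ∃ c : F, c • (x - (h x a / h b a) • b - (h x b / h a b) • a) = z := by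
      rw [← Submodule.mem_span_singleton, Submodule.eq_of_le_of_finrank_eq
        ((Submodule.span_singleton_le_iff_mem _ _).2 y3) (by rw [finrank_span_singleton y0]; omega)]
      exact hz
    rw [smul_left, hc _ y1 y2, mul_zero]
  exact Submodule.mem_span_pair.2 ⟨h x b / h a b, h x a / h b a, by
    linear_combination (norm := module) (-1 : F) • y4⟩

theorem big5' (hV : finrank F V = 5) (hq : ∃ t : F, star t = t ∧ t ≠ 0 ∧ t ≠ 1) (hM : M ≤ h.SU)
    (irr : ∀ W : Submodule F V, (∀ g ∈ M, ∀ w ∈ W, g w ∈ W) → W = ⊥ ∨ W = ⊤) (e0 : e ≠ 0)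
    (ee : h e e = 0) (hX : h.XIn M e) : h.SU ≤ M := by
  have sp : ∀ W : Submodule F V, (∀ u, h u u = 0 → h.XIn M u → u ∈ W) → W = ⊤ := fun W hW => by
    refine top_le_iff.1 (((irr (Submodule.span F {u | h u u = 0 ∧ h.XIn M u}) fun g hg w hw => ?_).resolve_left
      fun h0 => e0 ?_).ge.trans (Submodule.span_le.2 fun u hu => hW u hu.1 hu.2))
    · exact (Submodule.span_le (p := (Submodule.span F {u | h u u = 0 ∧ h.XIn M u}).comap
        (g : V →ₗ[F] V))).2 (fun u hu => Submodule.subset_span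
          ⟨by rw [LinearEquiv.coe_coe, (hM hg).1, hu.1], hu.2.map hM hu.1 hg⟩) hw
    · exact (Submodule.mem_bot F).1 (h0 ▸ Submodule.subset_span ⟨ee, hX⟩)
  clear e0 ee hX
  obtain ⟨e, e0, ee, Xe, hU⟩ := exists_UU_top hM sp hV irr
  obtain ⟨u, uu, Xu, ue⟩ := exists_X_not hM sp (W := h.pv e) fun h0 =>
    e0 (h.nd fun x => (h0.ge trivial : x ∈ h.pv e))
  have ue' : h u e ≠ 0 := ue
  have eu := symm_ne ue'
  obtain ⟨f, ff, Xf, ef⟩ : ∃ f, h f f = 0 ∧ h.XIn M f ∧ h e f = 1 :=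
    ⟨(h u e)⁻¹ • u, by simp [uu], Xu.smul uu _, by simp [eu]⟩
  have fe := symm1 ef
  have h1 := finrank_inf_hyp (h := h) (W := ⊤) trivial trivial ee ef
  have h2 := (ndOn_top (h := h)).inf_pv₂ trivial trivial ee ff ef
  rw [finrank_top, hV] at h1
  have sp2 : ∀ B : Submodule F V, (∀ a ∈ h.ME M e ee, a ∈ ⊤ ⊓ h.pv e ⊓ h.pv f → a ∈ B) →
      ⊤ ⊓ h.pv e ⊓ h.pv f ≤ B := fun B hB x hx => by
    let π : V →ₗ[F] V := LinearMap.id - (h.lin f).smulRight e - (h.lin e).smulRight f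
    have hπ : ∀ x, π x = x - h x f • e - h x e • f := fun x => rfl
    have h3 : UU h M e ≤ B.comap π := Submodule.span_le.2 fun v ⟨vv, Xv, ve⟩ => by
      have ev := symm_ne ve
      have w1 : h ((h v e)⁻¹ • π v) e = 0 := by simp [hπ, ee, fe]
      have w2 : h ((h v e)⁻¹ • π v) f = 0 := by simp [hπ, ff, ef]
      have h4 := hB _ (ME_of_X hM hq ee ff ef Xe Xf w1 w2 (c := -(h v f / h v e)) ?_ ?_)
        ⟨⟨trivial, w1⟩, w2⟩
      · exact (B.smul_mem_iff (inv_ne_zero ve)).1 h4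
      · simp [hπ, ee, ff, ef, fe, vv]; field_simp; ring
      · convert Xv.smul vv (h v e)⁻¹ using 1
        rw [hπ]; match_scalars <;> field_simp <;> ring
    have := h3 (hU.ge (Submodule.mem_top : x ∈ ⊤))
    simpa [hπ, show h x e = 0 from hx.1.2, show h x f = 0 from hx.2] using this
  obtain ⟨a, ha, ha', aa⟩ := exists_nonIso h2 (by omega) (h.ME M e ee)
    (fun a ha ha' t ht => ME_real hM ee ff ef Xe Xf ha'.2 ha ht) sp2
  have h5 := sp2 (core F (h.ME M e ee)) fun x hx hx' l => by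
    by_cases xx : h x x = 0
    swap; · exact ME_all hM hq ee ff ef Xe Xf hx'.2 hx xx l
    obtain ⟨c, c0, hc⟩ := exists_tr_zero_mul (h a x)
    have h6 := ME_all hM hq ee ff ef Xe Xf ha'.2 ha aa
    have h7 := ME_all hM hq ee ff ef Xe Xf (w := x + c • a)
      (by simp [show h x f = 0 from hx'.2, show h a f = 0 from ha'.2]) (add_mem hx (h6 c)) (by
        simp only [add_left, add_right, smul_left, smul_right, xx, conj] at hc ⊢
        intro h0
        exact mul_ne_zero (norm_ne_zero c0) aa (by linear_combination h0 - hc)) l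
    simpa [smul_smul] using sub_mem h7 (h6 (l * c))
  refine SU_le_of_Q_X hM ee (qIn_of_ME ee Xe fun w _ we => ?_) ff (by simp [ef]) Xf
  have := add_mem (mem_of_mem_core (h5 (x := w - h w f • e) ⟨⟨trivial, by simp [we, ee]⟩,
    by simp [ef]⟩)) (smul_self_mem_ME ee Xe (h w f))
  simpa using this

theorem exists_real_ne {q : ℕ} (hq : Nat.card F = q ^ 2) (h3 : 3 ≤ q) :
    ∃ t : F, star t = t ∧ t ≠ 0 ∧ t ≠ 1 := by
  classical
  by_contra! h
  have h1 : Nat.card (F0 F) = q :=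
    Nat.pow_left_injective two_ne_zero ((H9.U4.card_sq F).symm.trans hq)
  have : Nat.card (F0 F) ≤ Nat.card ({0, 1} : Finset F) := Nat.card_le_card_of_injective
    (fun x : F0 F => ⟨x.1, by
      by_cases h0 : x.1 = 0
      · simp [h0]
      · simp [h x.1 x.2 h0]⟩) fun x y hxy => Subtype.ext (by simpa using hxy)
  rw [Nat.card_eq_fintype_card (α := ({0, 1} : Finset F)), Fintype.card_coe] at this
  have := Finset.card_le_two (a := (0 : F)) (b := 1)
  omega

theorem big5 {F : Type*} {V : Type*} [Field F] [StarRing F] [NStar F] [Fintype F] [AddCommGroup V]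
    [Module F V] {h : H5.U.HF F V} {M : Subgroup (V ≃ₗ[F] V)} {q : ℕ} (hV : finrank F V = 5)
    (hq : Fintype.card F = q ^ 2) (h3 : 3 ≤ q) (hM : M ≤ h.SU)
    (irr : ∀ W : Submodule F V, (∀ g ∈ M, ∀ w ∈ W, g w ∈ W) → W = ⊥ ∨ W = ⊤) {e : V} (e0 : e ≠ 0)
    (he : h e e = 0) (hX : h.XIn M e) : h.SU ≤ M :=
  have := Module.finite_of_finrank_pos (R := F) (M := V) (by omega)
  big5' hV (exists_real_ne (by rw [Nat.card_eq_fintype_card, hq]) h3) hM irr e0 he hX

end Cfsg.Agent.H6.U5
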