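import Cfsg.Agent.H7.U5Big

/-! Irreducible subgroups of unitary groups of odd prime dimension containing root groups. -/

set_option autoImplicit false
set_option linter.unusedSimpArgs false
set_option linter.unusedSectionVars false
set_option linter.unusedVariables false

namespace Cfsg.Agent.H6.U5

open Module Cfsg.Agent.H6 Cfsg.Agent.H5.U Cfsg.Agent.H5.U.HF

section

variable {F : Type*} {V : Type*} [Field F] [StarRing F] [AddCommGroup V] [Module F V]
  [NStar F] [Finite F] [FiniteDimensional F V] {h : H5.U.HF F V} {M : Subgroup (V ≃ₗ[F] V)}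
  {e f u w : V}

theorem sp_of_irr (hM : M ≤ h.SU)
    (irr : ∀ W : Submodule F V, (∀ g ∈ M, ∀ w ∈ W, g w ∈ W) → W = ⊥ ∨ W = ⊤) (e0 : e ≠ 0)
    (ee : h e e = 0) (hX : h.XIn M e) (W : Submodule F V)
    (hW : ∀ u, h u u = 0 → h.XIn M u → u ∈ W) : W = ⊤ := by
  refine top_le_iff.1 (((irr (Submodule.span F {u | h u u = 0 ∧ h.XIn M u}) fun g hg w hw => ?_).resolve_left
    fun h0 => e0 ?_).ge.trans (Submodule.span_le.2 fun u hu => hW u hu.1 hu.2))
  · exact (Submodule.span_le (p := (Submodule.span F {u | h u u = 0 ∧ h.XIn M u}).comap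
      (g : V →ₗ[F] V))).2 (fun u hu => Submodule.subset_span
        ⟨by rw [LinearEquiv.coe_coe, (hM hg).1, hu.1], hu.2.map hM hu.1 hg⟩) hw
  · exact (Submodule.mem_bot F).1 (h0 ▸ Submodule.subset_span ⟨ee, hX⟩)

theorem UU_rank (hM : M ≤ h.SU) {g : V ≃ₗ[F] V} (hg : g ∈ M) :
    finrank F (UU h M (g e)) = finrank F (UU h M e) := by
  have k : ∀ g ∈ M, ∀ e, finrank F (UU h M e) ≤ finrank F (UU h M (g e)) := fun g hg e => by
    have := Submodule.finrank_mono (Submodule.map_le_iff_le_comap.2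
      fun x hx => UU_map hM hg hx : (UU h M e).map (g : V →ₗ[F] V) ≤ UU h M (g e))
    rwa [LinearEquiv.finrank_map_eq] at this
  exact le_antisymm (by have := k _ (inv_mem hg) (g e); rwa [H6.inv_apply_apply] at this) (k g hg e)

theorem UU_top (hV : (finrank F V).Prime) (hM : M ≤ h.SU)
    (irr : ∀ W : Submodule F V, (∀ g ∈ M, ∀ w ∈ W, g w ∈ W) → W = ⊥ ∨ W = ⊤) (e0 : e ≠ 0)
    (ee : h e e = 0) (hX : h.XIn M e) : UU h M e = ⊤ := by
  have sp := sp_of_irr hM irr e0 ee hX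
  have h2 := UU_two hM sp e0 ee hX
  have gi : ∀ g ∈ M, h (g e) (g e) = 0 := fun g hg => by rw [(hM hg).1, ee]
  have self : ∀ g ∈ M, g e ∈ UU h M (g e) := fun g hg => UU_map hM hg <| by
    obtain ⟨v, vv, Xv, ve⟩ := exists_X_not hM sp (W := h.pv e) fun h0 =>
      e0 (h.nd fun x => (h0.ge trivial : x ∈ h.pv e))
    exact (mem_UU_or hM ee hX).resolve_right fun h0 => ve (symm0 (h0 v (mem_UU vv Xv ve)))
  have key : ∀ n : ℕ, ∀ W : Submodule F V, finrank F V ≤ finrank F W + n → h.NdOn W →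
      finrank F (UU h M e) ∣ finrank F W → (∀ u, h u u = 0 → h.XIn M u → u ∈ W ∨ u ∈ h.perp W) →
      finrank F (UU h M e) ∣ finrank F V := fun n => by
    induction n with
    | zero => intro W h1 _ h3 _; rwa [le_antisymm h1 W.finrank_le]
    | succ n ih =>
      intro W h1 hW h3 h4
      by_cases h5 : ∀ g ∈ M, g e ∈ W
      · have := (irr (Submodule.span F {x | ∃ g ∈ M, g e = x}) fun g hg w hw =>
          (Submodule.span_le (p := (Submodule.span F {x | ∃ g ∈ M, g e = x}).comap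
            (g : V →ₗ[F] V))).2 (by
              rintro _ ⟨k, hk, rfl⟩
              exact Submodule.subset_span ⟨g * k, mul_mem hg hk, rfl⟩) hw).resolve_left
          fun h0 => e0 ((Submodule.mem_bot F).1 (h0 ▸ Submodule.subset_span ⟨1, one_mem _, rfl⟩))
        have h8 : W = ⊤ := top_le_iff.1 (this.ge.trans (Submodule.span_le.2 (by
          rintro _ ⟨g, hg, rfl⟩; exact h5 g hg)))
        rwa [h8, finrank_top] at h3
      push Not at h5
      obtain ⟨g, hg, h5⟩ := h5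
      have h6 : UU h M (g e) ≤ h.perp W := UU_le hM (fun v vv Xv => by
        rw [perp_perp]; exact (h4 v vv Xv).symm) ((h4 _ (gi g hg) (hX.map hM ee hg)).resolve_left h5)
      have h7 := Submodule.finrank_sup_add_finrank_inf_eq W (UU h M (g e))
      rw [show W ⊓ UU h M (g e) = ⊥ from eq_bot_iff.2 fun x hx => hW.eq_zero hx.1 (h6 hx.2), finrank_bot,
        UU_rank hM hg, add_zero] at h7
      refine ih (W ⊔ UU h M (g e)) (by omega) (hW.sup (UU_nd hM sp) fun x hx y hy => symm0 (h6 hy x hx))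
        (h7 ▸ dvd_add h3 dvd_rfl) fun u uu Xu => ?_
      rcases h4 u uu Xu with k | k
      · exact Or.inl (Submodule.mem_sup_left k)
      rcases mem_UU_or (e := g e) hM uu Xu with k' | k'
      · exact Or.inl (Submodule.mem_sup_right k')
      refine Or.inr fun x hx => ?_
      obtain ⟨y, hy, z, hz, rfl⟩ := Submodule.mem_sup.1 hx
      simp [k y hy, k' z hz]
  have h3 := key (finrank F V) ⊥ (by simp) (fun w hw _ => hw) (by simp) fun u _ _ => Or.inr fun x hx => by
    simp [(Submodule.mem_bot F).1 hx]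
  exact Submodule.eq_top_of_finrank_eq (((Nat.dvd_prime hV).1 h3).resolve_left (by omega))

/-- an additive subgroup closed under real multiples spanning a non-degenerate space of
odd dimension contains a non-isotropic vector -/
theorem exists_nonIso' (A : AddSubgroup V) (n : ℕ) : ∀ {W : Submodule F V}, h.NdOn W →
    finrank F W = 2 * n + 1 → (∀ a ∈ A, a ∈ W → ∀ t : F, star t = t → t • a ∈ A) →
    (∀ B : Submodule F V, (∀ a ∈ A, a ∈ W → a ∈ B) → W ≤ B) → ∃ a ∈ A, a ∈ W ∧ h a a ≠ 0 := by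
  induction n using Nat.strong_induction_on with
  | _ n ih =>
  intro W hW h3 hA sp
  by_contra! hc
  have alt : ∀ a ∈ A, a ∈ W → ∀ b ∈ A, b ∈ W → h b a = -h a b := fun a ha ha' b hb hb' => by
    have := hc _ (add_mem ha hb) (add_mem ha' hb')
    simp only [add_left, add_right, hc a ha ha', hc b hb hb'] at this
    linear_combination this
  obtain ⟨a, ha, ha', a0⟩ : ∃ a ∈ A, a ∈ W ∧ a ≠ 0 := by
    by_contra! h0
    have := Submodule.finrank_mono (sp ⊥ h0)
    rw [finrank_bot] at this; omega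
  obtain ⟨b, hb, hb', ba⟩ : ∃ b ∈ A, b ∈ W ∧ h b a ≠ 0 := by
    by_contra! h0
    exact a0 (hW a ha' fun x hx => sp (h.pv a) h0 hx)
  have ab := symm_ne ba
  have ab' := star_ne_zero' ab
  have e1 : h a ((star (h a b))⁻¹ • b) = 1 := by simp [ab]
  have h1 := finrank_inf_hyp ha' (W.smul_mem (star (h a b))⁻¹ hb') (hc a ha ha') e1
  have h2 := hW.inf_pv₂ ha' (W.smul_mem (star (h a b))⁻¹ hb') (hc a ha ha')
    (by simp [hc b hb hb']) e1
  obtain ⟨x, hx, hx', xx⟩ := ih (n - 1) (by omega) h2 (by omega) (fun x hx hx' => hA x hx hx'.1.1)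
    fun B hB y hy => by
      let π : V →ₗ[F] V := LinearMap.id - (h b a)⁻¹ • (h.lin a).smulRight b -
        (h a b)⁻¹ • (h.lin b).smulRight a
      have hπ : ∀ x, π x = x - (h x a / h b a) • b - (h x b / h a b) • a := fun x => by
        simp [π, smul_smul, div_eq_inv_mul]
      have := sp (B.comap π) (fun x hx hx' => ?_) hy.1.1
      · have y2 : h y b = 0 := by simpa [ab] using hy.2
        simpa [hπ, show h y a = 0 from hy.1.2, y2] using this
      have r1 : star (h x a / h b a) = h x a / h b a := by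
        rw [star_div₀, conj, conj, alt a ha ha' x hx hx', alt a ha ha' b hb hb', neg_div_neg_eq]
      have r2 : star (h x b / h a b) = h x b / h a b := by
        rw [star_div₀, conj, conj, alt b hb hb' x hx hx', alt b hb hb' a ha ha', neg_div_neg_eq]
      rw [Submodule.mem_comap, hπ]
      exact hB _ (sub_mem (sub_mem hx (hA b hb hb' _ r1)) (hA a ha ha' _ r2))
        ⟨⟨W.sub_mem (W.sub_mem hx' (W.smul_mem _ hb')) (W.smul_mem _ ha'),
          by simp [hc a ha ha', ba]⟩, by simp [hc b hb hb', ab]⟩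
  exact xx (hc x hx hx'.1.1)

theorem exists_partner_X (hM : M ≤ h.SU) (e0 : e ≠ 0) (hU : UU h M e = ⊤) :
    ∃ f, h f f = 0 ∧ h.XIn M f ∧ h e f = 1 := by
  obtain ⟨u, uu, Xu, ue⟩ : ∃ u, h u u = 0 ∧ h.XIn M u ∧ h u e ≠ 0 := by
    by_contra! h0
    exact e0 (h.nd fun x => (Submodule.span_le (p := h.pv e)).2
      (fun u hu => absurd (h0 u hu.1 hu.2.1) hu.2.2) (hU.ge trivial))
  exact ⟨(h u e)⁻¹ • u, by simp [uu], Xu.smul uu _, by simp [symm_ne ue]⟩

/-- the vectors `w` with `f + w - c e` a centre span `⟨e, f⟩^⊥` -/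
theorem span_X (ee : h e e = 0) (ff : h f f = 0) (ef : h e f = 1) (hU : UU h M e = ⊤)
    (B : Submodule F V) (hB : ∀ w, h w e = 0 → h w f = 0 → ∀ c : F, c + star c = h w w →
      h.XIn M (f + w - c • e) → w ∈ B) : ⊤ ⊓ h.pv e ⊓ h.pv f ≤ B := fun x hx => by
  have fe := symm1 ef
  let π : V →ₗ[F] V := LinearMap.id - (h.lin f).smulRight e - (h.lin e).smulRight f
  have hπ : ∀ x, π x = x - h x f • e - h x e • f := fun x => rfl
  have h3 : UU h M e ≤ B.comap π := Submodule.span_le.2 fun v ⟨vv, Xv, ve⟩ => by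
    have ev := symm_ne ve
    have h4 := hB ((h v e)⁻¹ • π v) (by simp [hπ, ee, fe]) (by simp [hπ, ff, ef])
      (-(h v f / h v e)) ?_ ?_
    · exact (B.smul_mem_iff (inv_ne_zero ve)).1 h4
    · simp [hπ, ee, ff, ef, fe, vv]; field_simp; ring
    · convert Xv.smul vv (h v e)⁻¹ using 1
      rw [hπ]; match_scalars <;> field_simp <;> ring
  have := h3 (hU.ge (Submodule.mem_top : x ∈ ⊤))
  simpa [hπ, show h x e = 0 from hx.1.2, show h x f = 0 from hx.2] using this

theorem SU_le_of_core (hM : M ≤ h.SU) (ee : h e e = 0) (ff : h f f = 0) (ef : h e f = 1)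
    (Xe : h.XIn M e) (Xf : h.XIn M f) (h5 : ⊤ ⊓ h.pv e ⊓ h.pv f ≤ core F (h.ME M e ee)) :
    h.SU ≤ M := by
  refine SU_le_of_Q_X hM ee (qIn_of_ME ee Xe fun w _ we => ?_) ff (by simp [ef]) Xf
  have := add_mem (mem_of_mem_core (h5 (x := w - h w f • e) ⟨⟨trivial, by simp [we, ee]⟩,
    by simp [ef]⟩)) (smul_self_mem_ME ee Xe (h w f))
  simpa using this

theorem bigP (hV : (finrank F V).Prime) (hV2 : finrank F V ≠ 2)
    (hq : ∃ t : F, star t = t ∧ t ≠ 0 ∧ t ≠ 1) (hM : M ≤ h.SU)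
    (irr : ∀ W : Submodule F V, (∀ g ∈ M, ∀ w ∈ W, g w ∈ W) → W = ⊥ ∨ W = ⊤) (e0 : e ≠ 0)
    (ee : h e e = 0) (Xe : h.XIn M e) : h.SU ≤ M := by
  have hU := UU_top hV hM irr e0 ee Xe
  obtain ⟨f, ff, Xf, ef⟩ := exists_partner_X hM e0 hU
  have h1 := finrank_inf_hyp (h := h) (W := ⊤) trivial trivial ee ef
  have h2 := (ndOn_top (h := h)).inf_pv₂ trivial trivial ee ff ef
  rw [finrank_top] at h1
  have sp2 : ∀ B : Submodule F V, (∀ a ∈ h.ME M e ee, a ∈ ⊤ ⊓ h.pv e ⊓ h.pv f → a ∈ B) →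
      ⊤ ⊓ h.pv e ⊓ h.pv f ≤ B := fun B hB => span_X ee ff ef hU B fun w w1 w2 c hc hX =>
    hB _ (ME_of_X hM hq ee ff ef Xe Xf w1 w2 hc hX) ⟨⟨trivial, w1⟩, w2⟩
  obtain ⟨n, hn⟩ := hV.odd_of_ne_two hV2
  obtain ⟨a, ha, ha', aa⟩ := exists_nonIso' (h.ME M e ee) (n - 1) h2 (by omega)
    (fun a ha ha' t ht => ME_real hM ee ff ef Xe Xf ha'.2 ha ht) sp2
  refine SU_le_of_core hM ee ff ef Xe Xf (sp2 _ fun x hx hx' l => ?_)
  by_cases xx : h x x = 0
  swap; · exact ME_all hM hq ee ff ef Xe Xf hx'.2 hx xx l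
  obtain ⟨c, c0, hc⟩ := exists_tr_zero_mul (h a x)
  have h6 := ME_all hM hq ee ff ef Xe Xf ha'.2 ha aa
  have h7 := ME_all hM hq ee ff ef Xe Xf (w := x + c • a)
    (by simp [show h x f = 0 from hx'.2, show h a f = 0 from ha'.2]) (add_mem hx (h6 c)) (by
      simp only [add_left, add_right, smul_left, smul_right, xx, conj] at hc ⊢
      intro h0
      exact mul_ne_zero (norm_ne_zero c0) aa (by linear_combination h0 - hc)) l
  simpa [smul_smul] using sub_mem h7 (h6 (l * c))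

theorem E_mem_of_ME (ee : h e e = 0) (Xe : h.XIn M e) (hw : w ∈ h.ME M e ee) {c : F}
    (o : h.Ok e w c) : h.E e w c ∈ M := by
  obtain ⟨d, o', hd⟩ := hw
  rw [E_eq_mul_T o' o]
  exact mul_mem hd (Xe _ (by rw [star_sub]; linear_combination o'.tr - o.tr))

/-- all `q`: a root group together with a full group of Eichler elements on an isotropic line -/
theorem bigE' (hM : M ≤ h.SU) (hU : UU h M e = ⊤) (e0 : e ≠ 0) (ee : h e e = 0) (Xe : h.XIn M e)
    (ww : h w w = 0) (w0 : ∀ c : F, w ≠ c • e) (hw : ∀ l : F, l • w ∈ h.ME M e ee) : h.SU ≤ M := by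
  obtain ⟨f, ff, Xf, ef⟩ := exists_partner_X hM e0 hU
  have fe := symm1 ef
  have hd := del_ne (F := F)
  have we : h w e = 0 := by simpa using ME_perp (hw 1)
  obtain ⟨a, aa, a0, ae, af, ha⟩ : ∃ a, h a a = 0 ∧ a ≠ 0 ∧ h a e = 0 ∧ h a f = 0 ∧
      ∀ l : F, l • a ∈ h.ME M e ee :=
    ⟨w - h w f • e, by simp [ww, we, symm0 we, ee], sub_ne_zero.2 (w0 _), by simp [we, ee],
      by simp [ef], fun l => by
        rw [smul_sub, smul_smul]; exact sub_mem (hw l) (smul_self_mem_ME ee Xe _)⟩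
  have oa : ∀ l : F, h.Ok e (l • a) 0 := fun l => ⟨ee, by simp [ae], by simp [aa]⟩
  have ob : ∀ l : F, h.Ok f (l • a) 0 := fun l => ⟨ff, by simp [af], by simp [aa]⟩
  have Ee : ∀ l : F, h.E e (l • a) 0 ∈ M := fun l => E_mem_of_ME ee Xe (ha l) (oa l)
  have Ef : ∀ l : F, h.E f (l • a) 0 ∈ M := fun l => by
    have s := sw_mem Xe Xf (del_tr (F := F))
    have := mul_mem (mul_mem s (Ee (del F * l))) (inv_mem s)
    rw [conj_E (hM s).1 (oa _), sw_apply ee ff ef hd del_tr, sw_apply ee ff ef hd del_tr,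
      show e - h e f • e - h e e • f + (del F * h e e) • e - ((del F)⁻¹ * h e f) • f =
        (-(del F)⁻¹) • f by simp [ee, ef], E_smul_left _ (by simpa [ae, af] using ob (del F * l))] at this
    simpa [ae, af, smul_smul, hd] using this
  have key : ∀ w, h w e = 0 → h w f = 0 → ∀ c : F, c + star c = h w w → h.XIn M (f + w - c • e) →
      h w a ≠ 0 → w ∈ core F (h.ME M e ee) := fun w we wf c hc hX wa l => by
    have aw := symm_ne wa
    have uu : h (f + w - c • e) (f + w - c • e) = 0 := by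
      simp [ee, ff, ef, fe, we, wf, symm0 we, symm0 wf, ← hc]
    have h1 := hX.map hM uu (Ef (h a w)⁻¹)
    have u1 : h (h.E f ((h a w)⁻¹ • a) 0 (f + w - c • e)) (h.E f ((h a w)⁻¹ • a) 0 (f + w - c • e)) = 0 := by
      rw [E_mem_GU, uu]
    have h2 := h1.map hM u1 (Ee (-(star c / h a w)))
    have u2 := (E_mem_GU (h := h) e (-(star c / h a w) • a) 0 _ _).trans u1
    rw [show h.E e (-(star c / h a w) • a) 0 (h.E f ((h a w)⁻¹ • a) 0 (f + w - c • e)) =
      w - (c / h a w) • a by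
        simp only [E_apply (oa _), E_apply (ob _), add_left, sub_left, smul_left, smul_right, ee, ff,
          ef, fe, we, wf, ae, af, symm0 ae, symm0 af, aa, star_inv₀, conj, star_neg, star_div₀,
          star_star]
        match_scalars <;> field_simp <;> ring] at h2 u2
    have h3 := H9.U4.T_sub_mem hM (ha (l / (del F * h a w))) u2 (by simp [symm0 we, symm0 ae]) del_tr
      (h2 _ del_tr)
    rw [show del F * h ((l / (del F * h a w)) • a) (w - (c / h a w) • a) = l by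
      simp [aa]; field_simp] at h3
    simpa [smul_sub, smul_smul] using add_mem h3 (ha (l * (c / h a w)))
  have h2 := (ndOn_top (h := h)).inf_pv₂ trivial trivial ee ff ef
  obtain ⟨b, be, bf, c, hc, hX, ba⟩ : ∃ b, h b e = 0 ∧ h b f = 0 ∧ ∃ c : F, c + star c = h b b ∧
      h.XIn M (f + b - c • e) ∧ h b a ≠ 0 := by
    by_contra! h0
    exact a0 (h2 a ⟨⟨trivial, ae⟩, af⟩ fun x hx => span_X ee ff ef hU (h.pv a) h0 hx)
  have hb := key b be bf c hc hX ba
  refine SU_le_of_core hM ee ff ef Xe Xf (span_X ee ff ef hU _ fun w we wf d hd' hY => ?_)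
  by_cases wa : h w a = 0
  swap; · exact key w we wf d hd' hY wa
  have o : h.Ok e b c := ⟨ee, be, hc⟩
  have uu : h (f + w - d • e) (f + w - d • e) = 0 := by
    simp [ee, ff, ef, fe, we, wf, symm0 we, symm0 wf, ← hd']
  have h3 := key (w + b) (by simp [we, be]) (by simp [wf, bf]) (d + c + h w b) (by
    simp [← hc, ← hd']; ring) (by
    convert hY.map hM uu (E_mem_of_ME ee Xe (mem_of_mem_core hb) o) using 1
    simp only [E_apply o, add_left, sub_left, smul_left, ee, fe, we, symm0 be, symm0 bf]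
    module) (by simpa [wa] using ba)
  simpa using sub_mem h3 hb

theorem bigE (hV : (finrank F V).Prime) (hM : M ≤ h.SU)
    (irr : ∀ W : Submodule F V, (∀ g ∈ M, ∀ w ∈ W, g w ∈ W) → W = ⊥ ∨ W = ⊤) (e0 : e ≠ 0)
    (ee : h e e = 0) (Xe : h.XIn M e) (ww : h w w = 0) (w0 : ∀ c : F, w ≠ c • e)
    (hw : ∀ l : F, l • w ∈ h.ME M e ee) : h.SU ≤ M :=
  bigE' hM (UU_top hV hM irr e0 ee Xe) e0 ee Xe ww w0 hw

end

theorem big7 {F : Type*} {V : Type*} [Field F] [StarRing F] [NStar F] [Fintype F] [AddCommGroup V]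
    [Module F V] {h : H5.U.HF F V} {M : Subgroup (V ≃ₗ[F] V)} {q : ℕ} (hV : finrank F V = 7)
    (hq : Fintype.card F = q ^ 2) (h3 : 3 ≤ q) (hM : M ≤ h.SU)
    (irr : ∀ W : Submodule F V, (∀ g ∈ M, ∀ w ∈ W, g w ∈ W) → W = ⊥ ∨ W = ⊤) {e : V} (e0 : e ≠ 0)
    (he : h e e = 0) (hX : h.XIn M e) : h.SU ≤ M :=
  have := Module.finite_of_finrank_pos (R := F) (M := V) (by omega)
  bigP (by rw [hV]; norm_num) (by omega) (exists_real_ne (by rw [Nat.card_eq_fintype_card, hq]) h3)
    hM irr e0 he hX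

end Cfsg.Agent.H6.U5
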