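import Cfsg.Agent.H5.U.Conj
import Cfsg.Agent.H5.U.Frame2
import Cfsg.Agent.H1.U5Ord
import Cfsg.Agent.H1.PermMod

/-! A subgroup of `SU_5(q)` transitive on non-isotropic points of norm one contains a full group of
transvections. -/

set_option autoImplicit false
set_option linter.unusedSimpArgs false
set_option linter.unusedSectionVars false
set_option linter.unusedVariables false

namespace Cfsg.Agent.H6.U5

open Module Cfsg.Agent.H6 Cfsg.Agent.H5.U Cfsg.Agent.H5.U.HF MulAction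

theorem sylow_orbit {G X : Type*} [Group G] [Finite G] [MulAction G X] {p k : ℕ} [hp : Fact p.Prime]
    (P : Sylow p G) (x : X) (hd : p ^ k ∣ (orbit G x).ncard) :
    p ^ k ∣ (orbit (P : Subgroup G) x).ncard := by
  rw [← index_stabilizer] at hd ⊢
  have h1 := hd.trans (Subgroup.index_dvd_of_le (inf_le_left : stabilizer G x ⊓ P ≤ _))
  rw [← Subgroup.relIndex_mul_index inf_le_right, Subgroup.inf_relIndex_right] at h1
  exact (hp.1.coprime_pow_of_not_dvd P.not_dvd_index).symm.dvd_of_dvd_mul_right h1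

variable {F : Type*} {V : Type*} [Field F] [StarRing F] [NStar F] [Fintype F] [AddCommGroup V]
  [Module F V] [FiniteDimensional F V] {h : HF F V} {q : ℕ} {M U : Subgroup (V ≃ₗ[F] V)}

theorem step' {p : ℕ} [Fact p.Prime] [CharP F p] [Finite U] (hU : IsPGroup p U)
    {W W' : Submodule F V} (hW : ∀ u ∈ U, ∀ w ∈ W, u w ∈ W) (hW' : ∀ u ∈ U, ∀ w ∈ W', u w ∈ W')
    (hn : ¬ W' ≤ W) : ∃ x ∈ W', x ∉ W ∧ ∀ u ∈ U, u x - x ∈ W := by
  let ρ : Representation F U V := LinearEquiv.automorphismGroup.toLinearMapMonoidHom.comp U.subtype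
  obtain ⟨_, ⟨x, hx, rfl⟩, x0, h1⟩ := H1.exists_fixed_of_isPGroup hU
    (ρ.quotient W fun u w hw => hW u u.2 w hw) (W'.map W.mkQ)
    (by rintro u _ ⟨x, hx, rfl⟩; exact ⟨_, hW' u u.2 x hx, rfl⟩)
    fun e => hn fun y hy => (Submodule.Quotient.mk_eq_zero W).1 (e.le ⟨y, hy, rfl⟩)
  exact ⟨x, hx, fun e => x0 ((Submodule.Quotient.mk_eq_zero W).2 e),
    fun u hu => (Submodule.Quotient.eq W).1 (h1 ⟨u, hu⟩)⟩

/-- the group generated by `M` and the scalars of norm one -/
def ZM (h : HF F V) (M : Subgroup (V ≃ₗ[F] V)) : Subgroup (V ≃ₗ[F] V) where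
  carrier := {g | ∃ z : F, z * star z = 1 ∧ ∃ m ∈ M, ∀ x, g x = z • m x}
  mul_mem' := by
    rintro a b ⟨z, hz, m, hm, e⟩ ⟨z', hz', m', hm', e'⟩
    exact ⟨z * z', norm_one_mul hz hz', m * m', mul_mem hm hm', fun x => by
      simp only [H5.U.mul_app, e, e', map_smul, smul_smul, mul_comm z z']⟩
  one_mem' := ⟨1, by simp, 1, one_mem _, fun x => by simp⟩
  inv_mem' := by
    rintro a ⟨z, hz, m, hm, e⟩
    refine ⟨z⁻¹, norm_one_inv hz, m⁻¹, inv_mem hm, fun x => a.injective ?_⟩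
    rw [apply_inv_apply, e, map_smul, apply_inv_apply, smul_inv_smul₀ (ne_zero_of_norm_one hz)]

theorem exists_U (hV : finrank F V = 5) (hq : Fintype.card F = q ^ 2)
    (hst : ∀ t : F, star t = t ^ q) (hM : M ≤ h.SU) {p : ℕ} [Fact p.Prime] [CharP F p]
    (tr : ∀ u w, h u u = 1 → h w w = 1 → ∃ g ∈ M, ∃ z : F, z * star z = 1 ∧ g u = z • w) :
    ∃ U ≤ M, IsPGroup p U ∧ ∀ x, h x x = 1 → q ^ 4 ≤ {y | ∃ g ∈ U, g x = y}.ncard := by
  have := finite_equiv F V
  have : Finite V := Module.finite_of_finite F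
  obtain ⟨n, pp, hn⟩ := FiniteField.card F p
  obtain ⟨P⟩ : Nonempty (Sylow p (ZM h M)) := inferInstance
  have hpq : p ∣ q := pp.dvd_of_dvd_pow (hq ▸ hn ▸ dvd_pow_self p n.2.ne')
  refine ⟨P.1.map (ZM h M).subtype, ?_, P.2.map _, fun x hx => ?_⟩
  · rintro _ ⟨⟨g, z, hz, m, hm, e⟩, hg, rfl⟩
    obtain ⟨k, hk⟩ := P.2 ⟨_, hg⟩
    have h1 : g ^ p ^ k = 1 := congrArg (fun a => a.1.1) hk
    have h2 : ∀ (i : ℕ) x, (g ^ i) x = z ^ i • (m ^ i) x := fun i => by
      induction i with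
      | zero => simp
      | succ i ih => intro x; simp only [pow_succ, H5.U.mul_app, ih, e, map_smul, smul_smul, mul_comm]
    have h3 : g ^ (q + 1) ∈ M := by
      convert pow_mem hm (q + 1) using 1
      ext x
      rw [h2, pow_succ', ← hst, hz, one_smul]
    have h4 : (orderOf g).Coprime (q + 1) := Nat.Coprime.of_dvd_left (orderOf_dvd_of_pow_eq_one h1)
      (Nat.Coprime.pow_left _ ((Nat.coprime_add_self_right.2 (by simp) : q.Coprime (1 + q)).of_dvd_left
        hpq |>.symm |> fun a => by rw [add_comm]; exact a.symm))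
    obtain ⟨j, hj⟩ := exists_pow_eq_self_of_coprime h4.symm
    show g ∈ M
    rw [← hj]
    exact pow_mem h3 j
  have h1 : orbit (ZM h M) x = {y | h y y = 1} := by
    ext y
    constructor
    · rintro ⟨⟨g, z, hz, m, hm, e⟩, rfl⟩
      show h (g x) (g x) = 1
      rw [e, smul_left, smul_right, (hM hm).1, hx, mul_one, hz]
    · intro hy
      obtain ⟨g, hg, z, hz, e⟩ := tr x y hx hy
      have z0 := ne_zero_of_norm_one hz
      refine ⟨⟨LinearEquiv.smulOfNeZero F V z⁻¹ (inv_ne_zero z0) * g, z⁻¹, norm_one_inv hz, g, hg,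
        fun x => rfl⟩, ?_⟩
      show z⁻¹ • g x = y
      rw [e, inv_smul_smul₀ z0]
  have h2 := sylow_orbit (k := n * 2) P x (by
    rw [h1, ← Nat.card_coe_set_eq]
    refine Dvd.intro (q ^ 5 + 1) (Eq.trans ?_ (card_vec_norm hV hq hst (star_one F) one_ne_zero).symm)
    rw [pow_mul, ← hn, hq, ← pow_mul])
  rw [pow_mul, ← hn, hq, ← pow_mul] at h2
  refine Nat.le_of_dvd ((Set.ncard_pos (Set.toFinite _)).2 ⟨x, 1, one_mem _, rfl⟩) ?_
  convert h2 using 2
  ext y
  exact ⟨fun ⟨_, ⟨g, hg, rfl⟩, e⟩ => ⟨⟨g, hg⟩, e⟩, fun ⟨g, e⟩ => ⟨_, ⟨g.1, g.2, rfl⟩, e⟩⟩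

omit [FiniteDimensional F V] in
theorem trX (hV : finrank F V = 5) (hq : Fintype.card F = q ^ 2)
    (hst : ∀ t : F, star t = t ^ q) (hM : M ≤ h.SU)
    (tr : ∀ u w, h u u = 1 → h w w = 1 → ∃ g ∈ M, ∃ z : F, z * star z = 1 ∧ g u = z • w) :
    ∃ e, e ≠ 0 ∧ h e e = 0 ∧ h.XIn M e := by
  have := Module.finite_of_finrank_pos (R := F) (M := V) (by omega)
  have := finite_equiv F V
  have : Finite V := Module.finite_of_finite F
  obtain ⟨p, hp⟩ := CharP.exists F
  have := Fact.mk (CharP.char_is_prime F p)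
  obtain ⟨U, UM, hU, big⟩ := exists_U hV hq hst hM (p := p) tr
  have hG : ∀ g ∈ U, ∀ x y, h (g x) (g y) = h x y := fun g hg => (hM (UM hg)).1
  have q2 := two_le_q' hq
  -- small invariant cosets consist of isotropic vectors
  have iso : ∀ x a, (∀ g ∈ U, g x - x ∈ F ∙ a) → h x x = 0 := fun x a hx => by
    by_contra xx
    obtain ⟨c, -, hc⟩ := exists_norm_one xx
    have h1 := (big _ hc).trans (Set.ncard_le_ncard (t := (fun t : F => c • x + t • a) '' Set.univ) (by
      rintro _ ⟨g, hg, rfl⟩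
      obtain ⟨t, ht⟩ := Submodule.mem_span_singleton.1 (hx g hg)
      exact ⟨c * t, trivial, by simp only [map_smul, mul_smul, ht]; module⟩))
    have h2 := h1.trans (Set.ncard_image_le)
    rw [Set.ncard_univ, Nat.card_eq_fintype_card, hq, Nat.pow_le_pow_iff_right (by omega)] at h2
    omega
  obtain ⟨a, -, a0, ha⟩ := step' hU (W := ⊥) (W' := ⊤) (by simp) (by simp) fun h0 => by
    have := Submodule.finrank_mono h0
    rw [finrank_top, finrank_bot] at this; omega
  simp only [Submodule.mem_bot, sub_eq_zero] at a0 ha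
  have aa := iso a a fun g hg => by simp [ha g hg]
  have pa : ∀ g ∈ U, ∀ x, h (g x) a = h x a := fun g hg x => by rw [← hG g hg x, ha g hg]
  obtain ⟨b, ba, b0, hb⟩ := step' hU (W := F ∙ a) (W' := h.pv a) (fun g hg w hw => by
      obtain ⟨c, rfl⟩ := Submodule.mem_span_singleton.1 hw
      rwa [map_smul, ha g hg])
    (fun g hg w hw => (pa g hg w).trans hw) fun h0 => by
      have := Submodule.finrank_mono h0
      have := finrank_pv (h := h) a
      have := finrank_span_singleton (K := F) a0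
      omega
  have bb := iso b a hb
  replace ba : h b a = 0 := ba
  have ind : ∀ c : F, b ≠ c • a := fun c e => b0 (Submodule.mem_span_singleton.2 ⟨c, e.symm⟩)
  have l2 : finrank F (Submodule.span F {a, b}) = 2 := by
    rw [Submodule.span_insert, Submodule.finrank_sup_span_singleton b0, finrank_span_singleton a0]
  have lK : Submodule.span F {a, b} ≤ ⊤ ⊓ h.pv a ⊓ h.pv b := fun x hx => by
    obtain ⟨s, t, rfl⟩ := Submodule.mem_span_pair.1 hx
    simp [aa, bb, ba, symm0 ba]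
  have K3 : finrank F ↥(⊤ ⊓ h.pv a ⊓ h.pv b) = 3 := by
    obtain ⟨x, hx⟩ := h.exists_ne a0
    obtain ⟨y, h1, h2⟩ := exists_dual_pair' (h := h) ind 1
    have := finrank_inf_pv_lt (K := ⊤) trivial hx
    have := finrank_inf_pv_lt (h := h) (K := ⊤ ⊓ h.pv a) (x := y) (v := b) ⟨trivial, symm0 h1⟩
      (by simp [symm1 h2])
    have := finrank_inf_pv₂ (h := h) ⊤ a b
    rw [finrank_top] at *
    omega
  obtain ⟨u, uK, u0, hu⟩ := step' hU (W := Submodule.span F {a, b}) (W' := ⊤ ⊓ h.pv a ⊓ h.pv b)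
    (fun g hg w hw => by
      obtain ⟨s, t, rfl⟩ := Submodule.mem_span_pair.1 hw
      obtain ⟨c, hc⟩ := Submodule.mem_span_singleton.1 (hb g hg)
      exact Submodule.mem_span_pair.2 ⟨s + t * c, t, by
        rw [map_add, map_smul, map_smul, ha g hg, ← sub_add_cancel (g b) b, ← hc]; module⟩)
    (fun g hg w hw => ⟨⟨trivial, (pa g hg w).trans hw.1.2⟩, by
      obtain ⟨c, hc⟩ := Submodule.mem_span_singleton.1 (hb g hg)
      have := hG g hg w b
      rw [← sub_add_cancel (g b) b, ← hc] at this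
      simpa [pa g hg, show h w a = 0 from hw.1.2, show h w b = 0 from hw.2] using this⟩)
    fun h0 => by have := Submodule.finrank_mono h0; omega
  have uu : h u u ≠ 0 := fun uu => u0 (by
    have h1 : Submodule.span F {a, b} ⊔ F ∙ u = ⊤ ⊓ h.pv a ⊓ h.pv b :=
      Submodule.eq_of_le_of_finrank_eq (sup_le lK (by simpa using uK))
        (by rw [Submodule.finrank_sup_span_singleton u0, l2, K3])
    rw [← perp_perp (h := h) (Submodule.span F {a, b})]
    intro w hw
    obtain ⟨y, hy, z, hz, rfl⟩ := Submodule.mem_sup.1 (h1.ge (⟨⟨trivial, hw a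
      (Submodule.subset_span (by simp))⟩, hw b (Submodule.subset_span (by simp))⟩ :
        w ∈ ⊤ ⊓ h.pv a ⊓ h.pv b))
    obtain ⟨s, t, rfl⟩ := Submodule.mem_span_pair.1 hy
    obtain ⟨c, rfl⟩ := Submodule.mem_span_singleton.1 hz
    simp [uu, show h u a = 0 from uK.1.2, show h u b = 0 from uK.2])
  obtain ⟨c, -, u1⟩ := exists_norm_one uu
  replace hu : ∀ g ∈ U, g (c • u) - c • u ∈ Submodule.span F {a, b} := fun g hg => by
    rw [map_smul, ← smul_sub]; exact Submodule.smul_mem _ _ (hu g hg)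
  replace uK := Submodule.smul_mem _ c uK
  clear u0 uu
  generalize c • u = u at hu uK u1
  have ua : h u a = 0 := uK.1.2
  have ub : h u b = 0 := uK.2
  have surj : ∀ s t : F, ∃ g ∈ U, g u = u + s • b + t • a := fun s t => by
    have := Set.eq_of_subset_of_ncard_le (s := {y | ∃ g ∈ U, g u = y})
      (t := (fun t : F × F => u + t.1 • b + t.2 • a) '' Set.univ) (by
        rintro _ ⟨g, hg, rfl⟩
        obtain ⟨s, t, ht⟩ := Submodule.mem_span_pair.1 (hu g hg)
        exact ⟨(t, s), trivial, by simp only; rw [← sub_add_cancel (g u) u, ← ht]; module⟩)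
      (le_trans Set.ncard_image_le (le_trans (by
        rw [Set.ncard_univ, Nat.card_prod, Nat.card_eq_fintype_card, hq, ← pow_add]) (big u u1)))
    exact this.ge ⟨(s, t), trivial, rfl⟩
  have th : ∀ t : F, ∃ g ∈ U, g b = b ∧ g u = u + t • a := fun t => by
    by_cases h0 : ∀ g ∈ U, (∃ s : F, g u = u + s • a) → g b = b
    · obtain ⟨g, hg, e⟩ := surj 0 t
      rw [zero_smul, add_zero] at e
      exact ⟨g, hg, h0 g hg ⟨t, e⟩, e⟩
    push Not at h0
    obtain ⟨g, hg, ⟨s, e⟩, gb⟩ := h0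
    obtain ⟨α, hα⟩ := Submodule.mem_span_singleton.1 (hb g hg)
    have α0 : α ≠ 0 := by rintro rfl; exact gb (sub_eq_zero.1 (by simpa using hα.symm))
    obtain ⟨k, hk, e'⟩ := surj (t / α) 0
    obtain ⟨β, hβ⟩ := Submodule.mem_span_singleton.1 (hb k hk)
    have g1 : g b = b + α • a := by rw [hα]; abel
    have k1 : k b = b + β • a := by rw [hβ]; abel
    refine ⟨(k * g)⁻¹ * (g * k), mul_mem (inv_mem (mul_mem hk hg)) (mul_mem hg hk), ?_, ?_⟩ <;>
      refine (k * g).injective ?_ <;>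
      simp only [H5.U.mul_app (k * g)⁻¹, apply_inv_apply] <;>
      simp only [H5.U.mul_app, map_add, map_smul, g1, k1, e, e', ha g hg, ha k hk]
    · module
    · match_scalars <;> field_simp <;> ring
  have fx : ∀ g ∈ U, g b = b → ∀ t : F, g u = u + t • a → ∀ v, ∃ s s' : F,
      g v = v - (star t * h v a) • u + s • a + s' • b := fun g hg gb t gu v => by
    have h1 : Submodule.span F {a, b} = ⊤ ⊓ h.pv a ⊓ h.pv b ⊓ h.pv u := by
      refine Submodule.eq_of_le_of_finrank_le (le_inf lK fun x hx => ?_) ?_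
      · obtain ⟨s, t, rfl⟩ := Submodule.mem_span_pair.1 hx
        simp [symm0 ua, symm0 ub]
      · have := finrank_inf_pv_lt (h := h) (v := u) uK (by simp [u1])
        omega
    have h2 := hG g hg v u
    have h3 := hG g hg v b
    rw [gu, add_right, smul_right, pa g hg] at h2
    rw [gb] at h3
    obtain ⟨s, s', e⟩ := Submodule.mem_span_pair.1 (h1.ge (⟨⟨⟨trivial, by simp [pa g hg, ua]⟩,
      by simp [h3, ub]⟩, by simp [u1, ← h2]⟩ :
        g v - v + (star t * h v a) • u ∈ ⊤ ⊓ h.pv a ⊓ h.pv b ⊓ h.pv u))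
    exact ⟨s, s', by rw [add_assoc, e]; abel⟩
  refine ⟨a, a0, aa, fun d hd => ?_⟩
  obtain ⟨τ, hτ⟩ := exists_tr_one F
  obtain ⟨g, hg, gb, gu⟩ := th 1
  obtain ⟨k, hk, kb, ku⟩ := th (d * τ)
  refine (M.mul_mem_cancel_right (UM (mul_mem hk hg))).1 ?_
  convert UM (mul_mem hg hk) using 1
  ext v
  obtain ⟨s, s', e⟩ := fx g hg gb _ gu v
  obtain ⟨r, r', e'⟩ := fx k hk kb _ ku v
  rw [H5.U.mul_app, T_apply aa hd, pa _ (mul_mem hk hg), H5.U.mul_app, H5.U.mul_app]
  conv_lhs => rw [e]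
  conv_rhs => rw [e']
  simp only [map_add, map_sub, map_smul, gu, ku, gb, kb, ha g hg, ha k hk, e, e', star_mul',
    eq_neg_of_add_eq_zero_right hd, star_one]
  match_scalars
  · rfl
  · ring
  · linear_combination (-d * h v a) * hτ
  · ring

end Cfsg.Agent.H6.U5
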