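import Cfsg.Agent.H7.U7E2
import Cfsg.Agent.H1.U7.Ord

/-! A subgroup of `SU_7(q)` transitive on non-isotropic points of norm one contains a full group of
transvections. -/

set_option autoImplicit false
set_option linter.unusedSimpArgs false
set_option linter.unusedSectionVars false
set_option linter.unusedVariables false

namespace Cfsg.Agent.H6.U7

open Module Cfsg.Agent.H6 Cfsg.Agent.H5.U Cfsg.Agent.H5.U.HF MulAction Cfsg.Agent.H6.U5 Submodule

variable {F : Type*} {V : Type*} [Field F] [StarRing F] [NStar F] [Fintype F] [AddCommGroup V]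
  [Module F V] [FiniteDimensional F V] {h : HF F V} {q : ℕ} {M U : Subgroup (V ≃ₗ[F] V)}

theorem exists_U (hV : finrank F V = 7) (hq : Fintype.card F = q ^ 2)
    (hst : ∀ t : F, star t = t ^ q) (hM : M ≤ h.SU) {p : ℕ} [Fact p.Prime] [CharP F p]
    (tr : ∀ u w, h u u = 1 → h w w = 1 → ∃ g ∈ M, ∃ z : F, z * star z = 1 ∧ g u = z • w) :
    ∃ U ≤ M, IsPGroup p U ∧ ∀ x, h x x = 1 → q ^ 6 ≤ {y | ∃ g ∈ U, g x = y}.ncard := by
  have := finite_equiv F V
  have : Finite V := Module.finite_of_finite F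
  obtain ⟨n, pp, hn⟩ := FiniteField.card F p
  obtain ⟨P⟩ : Nonempty (Sylow p (ZM h M)) := inferInstance
  have hpq : p ∣ q := pp.dvd_of_dvd_pow (hq ▸ hn ▸ dvd_pow_self p n.2.ne')
  refine ⟨P.1.map (ZM h M).subtype, ?_, P.2.map _, fun x hx => ?_⟩
  · rintro _ ⟨⟨g, z, hz, m, hm, e⟩, hg, rfl⟩
    obtain ⟨k, hk⟩ := P.2 ⟨_, hg⟩
    have h1 : g ^ p ^ k = 1 := congrArg (fun a => a.1.1) hk
    have h2 : ∀ (i : ℕ) x, (g ^ i) x = z ^ i • (m ^ i) x := fun i => by
      induction i with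
      | zero => simp
      | succ i ih => intro x; simp only [pow_succ, H5.U.mul_app, ih, e, map_smul, smul_smul, mul_comm]
    have h3 : g ^ (q + 1) ∈ M := by
      convert pow_mem hm (q + 1) using 1
      ext x
      rw [h2, pow_succ', ← hst, hz, one_smul]
    have h4 : (orderOf g).Coprime (q + 1) := Nat.Coprime.of_dvd_left (orderOf_dvd_of_pow_eq_one h1)
      (Nat.Coprime.pow_left _ ((Nat.coprime_add_self_right.2 (by simp) : q.Coprime (1 + q)).of_dvd_left
        hpq |>.symm |> fun a => by rw [add_comm]; exact a.symm))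
    obtain ⟨j, hj⟩ := exists_pow_eq_self_of_coprime h4.symm
    show g ∈ M
    rw [← hj]
    exact pow_mem h3 j
  have h1 : orbit (ZM h M) x = {y | h y y = 1} := by
    ext y
    constructor
    · rintro ⟨⟨g, z, hz, m, hm, e⟩, rfl⟩
      show h (g x) (g x) = 1
      rw [e, smul_left, smul_right, (hM hm).1, hx, mul_one, hz]
    · intro hy
      obtain ⟨g, hg, z, hz, e⟩ := tr x y hx hy
      have z0 := ne_zero_of_norm_one hz
      refine ⟨⟨LinearEquiv.smulOfNeZero F V z⁻¹ (inv_ne_zero z0) * g, z⁻¹, norm_one_inv hz, g, hg,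
        fun x => rfl⟩, ?_⟩
      show z⁻¹ • g x = y
      rw [e, inv_smul_smul₀ z0]
  have h2 := sylow_orbit (k := n * 3) P x (by
    rw [h1, ← Nat.card_coe_set_eq]
    refine Dvd.intro (q ^ 7 + 1) (Eq.trans ?_ (U7.card_vec_norm hV hq hst (star_one F) one_ne_zero).symm)
    rw [pow_mul, ← hn, hq, ← pow_mul])
  rw [pow_mul, ← hn, hq, ← pow_mul] at h2
  refine Nat.le_of_dvd ((Set.ncard_pos (Set.toFinite _)).2 ⟨x, 1, one_mem _, rfl⟩) ?_
  convert h2 using 2
  ext y
  exact ⟨fun ⟨_, ⟨g, hg, rfl⟩, e⟩ => ⟨⟨g, hg⟩, e⟩, fun ⟨g, e⟩ => ⟨_, ⟨g.1, g.2, rfl⟩, e⟩⟩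

theorem le_perp_add (s : Finset V) : finrank F V ≤ finrank F (h.perp (span F s)) + s.card := by
  classical
  induction s using Finset.induction_on with
  | empty =>
    rw [show h.perp (span F (∅ : Finset V)) = ⊤ from eq_top_iff.2 fun x _ w hw => by
      simp [show w = 0 by simpa using hw]]
    simp
  | insert a s ha ih =>
    have := finrank_inf_pv (h := h) (h.perp (span F s)) a
    have := Submodule.finrank_mono (show h.perp (span F s) ⊓ h.pv a ≤ h.perp (span F (insert a s : Finset V)) from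
      fun x hx w hw => by
        rw [Finset.coe_insert, mem_span_insert] at hw
        obtain ⟨c, z, hz, rfl⟩ := hw
        simp [hx.1 z hz, show h x a = 0 from hx.2])
    rw [Finset.card_insert_of_notMem ha]
    omega

omit [FiniteDimensional F V] in
theorem trX7 (hV : finrank F V = 7) (hq : Fintype.card F = q ^ 2)
    (hst : ∀ t : F, star t = t ^ q) (hM : M ≤ h.SU)
    (tr : ∀ u w, h u u = 1 → h w w = 1 → ∃ g ∈ M, ∃ z : F, z * star z = 1 ∧ g u = z • w) :
    ∃ e, e ≠ 0 ∧ h e e = 0 ∧ h.XIn M e := by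
  classical
  have := Module.finite_of_finrank_pos (R := F) (M := V) (by omega)
  have := finite_equiv F V
  have : Finite V := Module.finite_of_finite F
  obtain ⟨p, hp⟩ := CharP.exists F
  have := Fact.mk (CharP.char_is_prime F p)
  obtain ⟨U, UM, hU, big⟩ := exists_U hV hq hst hM (p := p) tr
  have hG : U ≤ h.GU := fun g hg => (hM (UM hg)).1
  have q2 := two_le_q' hq
  have orb : ∀ (x : V) (W : Submodule F V), h x x = 1 → (∀ g ∈ U, g x - x ∈ W) → finrank F W ≤ 3 →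
      finrank F W = 3 ∧ ∀ w ∈ W, ∃ g ∈ U, g x = x + w := fun x W hx hW h3 => by
    have h0 : {y | ∃ g ∈ U, g x = y} ⊆ (x + ·) '' W := by
      rintro _ ⟨g, hg, rfl⟩
      exact ⟨_, hW g hg, by simp⟩
    have h1 : ((x + ·) '' W).ncard = q ^ (2 * finrank F W) := by
      rw [Set.ncard_image_of_injective _ (add_right_injective x), ← Nat.card_coe_set_eq, pow_mul, ← hq,
        ← Nat.card_eq_fintype_card]
      exact Module.natCard_eq_pow_finrank
    have h2 := (big x hx).trans ((Set.ncard_le_ncard h0).trans h1.le)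
    rw [Nat.pow_le_pow_iff_right (by omega)] at h2
    exact ⟨by omega, fun w hw => (Set.eq_of_subset_of_ncard_le h0 (h1.le.trans
      ((Nat.pow_le_pow_right (by omega) (by omega)).trans (big x hx)))).ge ⟨w, hw, rfl⟩⟩
  have st : ∀ s : Finset V, s.card ≤ 3 → (∀ g ∈ U, ∀ w ∈ span F (s : Set V), g w ∈ span F (s : Set V)) →
      ∃ x, (∀ w ∈ s, h x w = 0) ∧ x ∉ span F (s : Set V) ∧ (∀ g ∈ U, g x - x ∈ span F (s : Set V)) ∧
        (s.card ≤ 2 → h x x = 0) ∧
        ∀ g ∈ U, ∀ w ∈ span F (insert x s : Finset V), g w ∈ span F (insert x s : Finset V) := fun s s3 hs => by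
    have r := finrank_span_finset_le_card (R := F) s
    obtain ⟨x, h1, h2, h3⟩ := step' hU hs (W' := h.perp (span F s)) (fun g hg x hx w hw => by
      rw [GU_left (hG hg), hx _ (hs _ (inv_mem hg) w hw)]) fun e => by
        have := Submodule.finrank_mono e
        have := le_perp_add (h := h) s
        change finrank F (span F (s : Set V)) ≤ _ at r
        omega
    refine ⟨x, fun w hw => h1 w (subset_span hw), h2, h3, fun s2 => by_contra fun xx => ?_, fun g hg w hw => ?_⟩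
    · obtain ⟨c, -, hc⟩ := HF.exists_norm_one xx
      have := (orb _ _ hc (fun g hg => by rw [map_smul, ← smul_sub]; exact smul_mem _ _ (h3 g hg))
        (r.trans s3)).1
      change finrank F (span F (s : Set V)) ≤ _ at r
      omega
    · rw [Finset.coe_insert, mem_span_insert] at hw ⊢
      obtain ⟨c, z, hz, rfl⟩ := hw
      exact ⟨c, _, add_mem (smul_mem _ c (h3 g hg)) (hs g hg z hz), by simp only [map_add, map_smul]; module⟩
  obtain ⟨a, -, a0, ha, aa, ia⟩ := st ∅ (by simp) (by simp)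
  obtain ⟨b, ba, b0, hb, bb, ib⟩ := st _ (by simp) ia
  obtain ⟨c, ca, c0, hc, cc, ic⟩ := st _ (by simpa using Finset.card_le_two.trans (by omega)) ib
  obtain ⟨u, ua, u0, hu, -, -⟩ := st _ (by simpa using Finset.card_le_three) ic
  simp only [Finset.coe_empty, span_empty, mem_bot, sub_eq_zero, LawfulSingleton.insert_empty_eq,
    Finset.coe_insert, Finset.coe_singleton, Finset.mem_insert, Finset.mem_singleton, forall_eq_or_imp,
    forall_eq] at *
  replace aa := aa (by simp)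
  replace bb := bb (by simp)
  replace cc := cc Finset.card_le_two
  obtain ⟨f3, c3, b3, a3⟩ : ∃ f, h f c = 1 ∧ h f b = 0 ∧ h f a = 0 := by
    obtain ⟨v, h1, h2⟩ := exists_perp_ne (h := h) c0
    exact ⟨v, symm1 h2, h1 _ (subset_span (by simp)), h1 _ (subset_span (by simp))⟩
  obtain ⟨f2, c2, b2, a2⟩ : ∃ f, h f c = 0 ∧ h f b = 1 ∧ h f a = 0 := by
    obtain ⟨v, h1, h2⟩ := exists_perp_ne (h := h) b0
    exact ⟨v - h v c • f3, by simp [c3], by simp [b3, symm1 h2], by simp [a3, h1 _ (mem_span_singleton_self a)]⟩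
  obtain ⟨f1, c1, b1, a1⟩ : ∃ f, h f c = 0 ∧ h f b = 0 ∧ h f a = 1 := by
    obtain ⟨v, -, h2⟩ := exists_perp_ne (h := h) (W := ⊥) (x := a) a0
    exact ⟨v - h v c • f3 - h v b • f2, by simp [c3, c2], by simp [b3, b2], by simp [a3, a2, symm1 h2]⟩
  have l3 : finrank F (span F {c, b, a}) = 3 := by
    rw [span_insert, sup_comm, finrank_sup_span_singleton c0, span_insert, sup_comm,
      finrank_sup_span_singleton b0, finrank_span_singleton a0]
  have lK : span F {c, b, a} ≤ ⊤ ⊓ h.pv a ⊓ h.pv b ⊓ h.pv c := span_le.2 (by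
    rintro x (rfl | rfl | rfl) <;> simp [aa, bb, cc, ba, ca, symm0 ba, symm0 ca.1, symm0 ca.2])
  have K4 : finrank F ↥(⊤ ⊓ h.pv a ⊓ h.pv b ⊓ h.pv c) ≤ 4 := by
    have := finrank_inf_pv_lt (h := h) (K := ⊤) (x := f1) (v := a) trivial (by simp [a1])
    have := finrank_inf_pv_lt (h := h) (K := ⊤ ⊓ h.pv a) (x := f2) (v := b) ⟨trivial, a2⟩ (by simp [b2])
    have := finrank_inf_pv_lt (h := h) (K := ⊤ ⊓ h.pv a ⊓ h.pv b) (x := f3) (v := c) ⟨⟨trivial, a3⟩, b3⟩
      (by simp [c3])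
    rw [finrank_top] at *
    omega
  have uu : h u u ≠ 0 := fun uu => u0 (by
    have h1 : span F {c, b, a} ⊔ F ∙ u = ⊤ ⊓ h.pv a ⊓ h.pv b ⊓ h.pv c :=
      eq_of_le_of_finrank_le (sup_le lK (by simp [ua])) (by rw [finrank_sup_span_singleton u0, l3]; exact K4)
    rw [← perp_perp (h := h) (span F {c, b, a})]
    intro w hw
    obtain ⟨y, hy, z, hz, rfl⟩ := mem_sup.1 (h1.ge (⟨⟨⟨trivial, hw a (subset_span (by simp))⟩,
      hw b (subset_span (by simp))⟩, hw c (subset_span (by simp))⟩ : w ∈ ⊤ ⊓ h.pv a ⊓ h.pv b ⊓ h.pv c))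
    obtain ⟨s, t, r, rfl⟩ := mem_span_triple.1 hy
    obtain ⟨c, rfl⟩ := mem_span_singleton.1 hz
    simp [uu, ua])
  obtain ⟨κ, -, u1⟩ := HF.exists_norm_one uu
  replace hu : ∀ g ∈ U, g (κ • u) - κ • u ∈ span F {c, b, a} := fun g hg => by
    rw [map_smul, ← smul_sub]; exact smul_mem _ _ (hu g hg)
  replace ua : h (κ • u) c = 0 ∧ h (κ • u) b = 0 ∧ h (κ • u) a = 0 := by simp [ua]
  clear u0 uu
  generalize κ • u = u at hu ua u1
  obtain ⟨e, e0, he, hX⟩ := Fl.final (h := h) (U := U) ⟨hG, aa, ba, ca.2, bb, ca.1, cc, ua.2.2, ua.2.1, ua.1, u1,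
    a1, b1, c1, a2, b2, c2, a3, b3, c3, fun v h1 h2 h3 h4 => by
      have k : span F {c, b, a} = ⊤ ⊓ h.pv a ⊓ h.pv b ⊓ h.pv c ⊓ h.pv u := by
        refine eq_of_le_of_finrank_le (le_inf lK (span_le.2 ?_)) ?_
        · rintro x (rfl | rfl | rfl) <;> simp [symm0 ua.1, symm0 ua.2.1, symm0 ua.2.2]
        · have := finrank_inf_pv_lt (h := h) (K := ⊤ ⊓ h.pv a ⊓ h.pv b ⊓ h.pv c) (x := u) (v := u)
            ⟨⟨⟨trivial, ua.2.2⟩, ua.2.1⟩, ua.1⟩ (by simp [u1])
          omega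
      obtain ⟨s, t, r, rfl⟩ := mem_span_triple.1 (k.ge ⟨⟨⟨⟨trivial, h1⟩, h2⟩, h3⟩, h4⟩)
      exact ⟨r, t, s, by abel⟩, ha⟩ hq hst fun z t r => by
      obtain ⟨g, hg, e⟩ := (orb u _ u1 hu l3.le).2 _ (mem_span_triple.2 ⟨z, t, r, rfl⟩)
      obtain ⟨x, hx⟩ := mem_span_singleton.1 (hb g hg)
      obtain ⟨y, s, hy⟩ := mem_span_pair.1 (hc g hg)
      exact ⟨x, y, s, g, hg, by rw [hx]; abel, by rw [add_assoc, hy]; abel, by rw [e]; abel⟩
  exact ⟨e, e0, he, fun d hd => UM (hX d hd)⟩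

end Cfsg.Agent.H6.U7
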