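import Cfsg.Agent.H7.U7Ta
import Cfsg.Agent.H8.U5Tb
import Cfsg.Agent.H4.BS2

/-! The second torus of `GU₇(q)`, `q ≡ 6 (mod 7)`. -/

set_option autoImplicit false
set_option linter.unusedSectionVars false

namespace Cfsg.Agent.H6.U7

open Cfsg Finset Subgroup H4.CA H5.U Module H6.U5.TT
open scoped ComplexConjugate Classical

namespace TT

theorem big_prime {q : ℕ} (h7 : q % 7 = 6) (h6 : q ≠ 6) :
    ∃ r k : ℕ, r.Prime ∧ r ≠ 3 ∧ r ^ k ∣ q ^ 2 + q + 1 ∧ 52 ≤ r ^ k := by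
  by_contra! h
  have z : ∀ m : ℕ, (∀ x : ZMod m, x ^ 2 + x + 1 ≠ 0) → ¬ m ∣ q ^ 2 + q + 1 := fun m hm d =>
    hm q (by exact_mod_cast (ZMod.natCast_eq_zero_iff _ _).2 d)
  obtain ⟨a, rfl⟩ : ∃ a, q = 7 * a + 6 := ⟨q / 7, by omega⟩
  have d : (7 * a + 6) ^ 2 + (7 * a + 6) + 1 ∣ 36546861 := (Nat.dvd_iff_prime_pow_dvd_dvd _ _).2 fun p k hp d => by
    rcases k with _ | k
    · simp
    have d1 := (dvd_pow_self p k.succ_ne_zero).trans d
    have d2 : k ≠ 0 → p ^ 2 ∣ _ := fun e => (pow_dvd_pow p (by omega)).trans d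
    by_cases p2 : p = 3
    · subst p2
      rw [not_not.1 (mt d2 (z 9 (by decide)))]; norm_num
    have h1 := h p 1 hp p2 (by rwa [pow_one])
    have h2 := fun e => h p 2 hp p2 (d2 e)
    have h3 : p = 13 ∨ p = 19 ∨ p = 31 ∨ p = 37 ∨ p = 43 := by
      rw [pow_one] at h1
      interval_cases p <;> first | omega | (norm_num at hp; done) |
        (refine absurd d1 (z _ ?_); decide) | skip
      rw [show (7 * a + 6) ^ 2 + (7 * a + 6) + 1 = 7 * (7 * a ^ 2 + 13 * a + 6) + 1 by ring] at d1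
      omega
    rcases h3 with rfl | rfl | rfl | rfl | rfl <;> rw [not_not.1 (mt h2 (by norm_num))] <;> norm_num
  have := Nat.le_of_dvd (by norm_num) d
  have k : ∀ a < 864, (7 * a + 6) ^ 2 + (7 * a + 6) + 1 ∣ 36546861 → a = 0 := by decide +kernel
  have := k a (by nlinarith) d
  omega

theorem not_dm {N d X a : ℤ} (hN : 52 ≤ N) {e : ℤ} (e1 : 1 ≤ e) (e3 : e ≤ 3) (h : 7 * d = e + N * a)
    (hX : Dm N d X) : 6 * N < X := by
  have h1 := hX (d / N)
  have h2 := Int.emod_nonneg d (by omega : N ≠ 0)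
  have h3 := Int.emod_lt_of_pos d (by omega : 0 < N)
  have h4 := Int.emod_add_mul_ediv d N
  generalize d / N = i at *
  generalize d % N = x at *
  subst h4
  obtain ⟨b, rfl⟩ : ∃ b, a = b + 7 * i := ⟨a - 7 * i, by ring⟩
  have h5 : 7 * x = e + N * b := by linarith
  have h6 : 1 ≤ b := by
    by_contra! h7
    rcases (by omega : b = 0 ∨ b ≤ -1) with rfl | h8
    · omega
    · nlinarith
  have h7 : b ≤ 6 := by by_contra! h7; nlinarith
  have h8 : N + 1 ≤ 7 * x := by nlinarith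
  have h9 : 7 * x ≤ 6 * N + 3 := by nlinarith
  nlinarith [mul_nonneg (sub_nonneg.2 h8) (sub_nonneg.2 h9)]

variable {F V : Type*} [Field F] [StarRing F] [NStar F] [Fintype F] [AddCommGroup V] [Module F V]
  {h : HF F V} {q : ℕ}

theorem setup (hV : finrank F V = 7) (hq : Fintype.card F = q ^ 2) (hst : ∀ t : F, star t = t ^ q)
    {L : Subgroup (V ≃ₗ[F] V)} [Fintype L] (hL : L ≤ h.GU) (hd : q ^ 2 + q + 1 ∣ Nat.card L) {r k : ℕ}
    (hr : r.Prime) (r3 : r ≠ 3) (hk : r ^ k ∣ q ^ 2 + q + 1) (k1 : 1 < r ^ k) :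
    ∃ (A : Subgroup L) (_ : IsMulCommutative A) (B : Subgroup A), r ^ k ≤ B.index ∧
      B.index ∣ q ^ 2 + q + 1 ∧ ∀ θ, IsClassFunction L θ → ∑ a with a ∉ B, ‖θ a.1‖ ^ 2 ≤
        6 * B.index * Nat.card B * (classInner θ θ).re := by
  have := Fact.mk hr
  have rd := (dvd_pow_self r (by rintro rfl; simp at k1)).trans hk
  obtain ⟨P⟩ : Nonempty (Sylow r L) := inferInstance
  have h1 := P.pow_dvd_card_of_pow_dvd_card (hk.trans hd)
  have : Nontrivial P := Finite.one_lt_card_iff_nontrivial.1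
    (k1.trans_le (Nat.le_of_dvd Nat.card_pos h1))
  have := P.isPGroup'.center_nontrivial
  obtain ⟨n, n0, hn⟩ := (P.isPGroup'.to_subgroup (center P)).nontrivial_iff_card.1 inferInstance
  obtain ⟨s0, hs⟩ := exists_prime_orderOf_dvd_card' (G := center P) r (hn ▸ dvd_pow_self r n0.ne')
  have S := fun (s : L) (hs : orderOf s = r) => diag hV hq hst hr r3 rd (hL s.2) (by rw [orderOf_coe, hs])
  rw [← orderOf_coe, ← orderOf_coe] at hs
  have hP : (P : Subgroup L) ≤ centralizer {s0.1.1} := fun g hg => mem_centralizer_singleton_iff.2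
    (congrArg Subtype.val (mem_center_iff.1 s0.2 ⟨g, hg⟩))
  generalize s0.1.1 = s at hs hP
  have cm : ∀ s : L, orderOf s = r → ∀ g g' : L, Commute g s → Commute g' s → Commute g g' :=
    fun s hs g g' c c' => by
      obtain ⟨_, _, -, e, -⟩ := S s hs
      exact Subtype.ext (e _ _ (congrArg Subtype.val c) (congrArg Subtype.val c')).1
  obtain ⟨D, Y, y6, D1, D2, D3⟩ := S s hs
  have mA : ∀ a : centralizer {s}, Commute a.1 s := fun a => mem_centralizer_singleton_iff.1 a.2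
  have hA : IsMulCommutative (centralizer {s}) := ⟨⟨fun a b => Subtype.ext
    (cm s hs _ _ (mA a) (mA b))⟩⟩
  obtain ⟨K, m, hm, e⟩ := Nat.exists_eq_pow_mul_and_not_dvd
    (Nat.card_pos (α := centralizer {s})).ne' r hr.one_lt.ne'
  let f : centralizer {s} →* centralizer {s} := ⟨⟨(· ^ m), one_pow m⟩, fun a b =>
    Commute.mul_pow (hA.1.1 a b) m⟩
  have f1 : ∀ a, f a ^ r ^ K = 1 := fun a => by
    change (a ^ m) ^ _ = 1
    rw [← pow_mul, mul_comm, ← e, pow_card_eq_one']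
  obtain ⟨i, hi⟩ := IsPGroup.iff_card.1 (show IsPGroup r f.range by
    rintro ⟨_, a, rfl⟩; exact ⟨K, Subtype.ext (f1 a)⟩)
  have mA' : ∀ a : centralizer {s}, Commute a.1.1 s.1 := fun a => congrArg Subtype.val (mA a)
  have q0 : q ^ 6 - 1 ≠ 0 := Nat.sub_ne_zero_of_lt (Nat.one_lt_pow (by norm_num) (by
    have := Fintype.one_lt_card (α := F)
    exact (Nat.one_lt_pow_iff two_ne_zero).1 (hq ▸ this)))
  have D0 : ∀ a : centralizer {s}, D a.1.1 ≠ 0 := fun a e => by
    simpa [e, q0] using (D2 _ (hL a.1.2) (mA' a)).1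
  let φ : centralizer {s} →* AlgebraicClosure F :=
    { toFun := fun a => D a.1.1
      map_one' := mul_left_cancel₀ (D0 1) ((D1 _ _ (mA' 1) (mA' 1)).2.symm.trans (by simp))
      map_mul' := fun a b => (D1 _ _ (mA' a) (mA' b)).2 }
  have inj : ∀ (a b : centralizer {s}) n, (a * b⁻¹) ^ r ^ n = 1 → φ a = φ b → a = b := fun a b n e e' =>
    mul_inv_eq_one.1 (Subtype.ext (Subtype.ext ((D2 _ (hL (a * b⁻¹).1.2) (mA' _)).2 n (congrArg (·.1.1) e)
      (mul_right_cancel₀ (D0 b) ((φ.map_mul (a * b⁻¹) b).symm.trans (by simp [e', φ]))))))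
  refine ⟨_, hA, f.ker, ?_, ?_, fun θ hθ => ?_⟩
  · refine Nat.le_of_dvd (Nat.pos_of_ne_zero index_ne_zero_of_finite)
      (Nat.Coprime.dvd_of_dvd_mul_right (Nat.Coprime.pow_left k
        (hr.coprime_iff_not_dvd.2 fun d => ?_)) (f.ker.index_mul_card ▸ h1.trans (card_dvd_of_le hP)))
    obtain ⟨b, hb⟩ := exists_prime_orderOf_dvd_card' r d
    exact hm (hb ▸ orderOf_dvd_of_pow_eq_one (Subtype.ext b.2))
  · have j : Function.Injective (φ.comp f.range.subtype) := fun a b e => Subtype.ext (inj _ _ i (by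
      rw [← hi]; exact congrArg Subtype.val (pow_card_eq_one' (x := a * b⁻¹))) e)
    have := isCyclic_of_injective_ringHom _ j
    have h2 : r ^ i ∣ q ^ 6 - 1 := by
      rw [← hi, ← IsCyclic.exponent_eq_card]
      exact Monoid.exponent_dvd_of_forall_pow_eq_one fun a => j (by
        rw [map_pow, map_one]; exact (D2 _ (hL a.1.1.2) (mA' a.1)).1)
    obtain ⟨x0, x2, x3⟩ := zm hr r3 rd
    obtain ⟨u, rfl⟩ : ∃ u, q = u + 1 := ⟨q - 1, by rcases q with _ | q <;> simp at q0 ⊢⟩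
    rw [index_ker, hi]
    rw [show (u + 1) ^ 6 - 1 = ((u + 1) ^ 2 + (u + 1) + 1) * (u * ((u + 1) ^ 3 + 1)) from
      Nat.sub_eq_of_eq_add (by ring)] at h2
    refine Nat.Coprime.dvd_of_dvd_mul_right (Nat.Coprime.pow_left _
      (hr.coprime_iff_not_dvd.2 fun e => ?_)) h2
    have := (ZMod.natCast_eq_zero_iff _ _).2 e
    push_cast at this x0
    have u0 : (u : ZMod r) = 0 := (mul_eq_zero.1 (show 2 * (u : ZMod r) = 0 by
      linear_combination this - (u : ZMod r) ^ 2 * x0)).resolve_left x2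
    exact x3 (by rw [u0] at x0; linear_combination x0)
  · have := var (s := s) (Y := {y | ∃ g, y = g * s * g⁻¹ ∧ Commute y s}) (fun g c => by
      exact mem_filter.2 ⟨mem_univ _, g, rfl, c⟩)
      (D := {a | a ∉ f.ker}) (fun a ha y c => by
        obtain ⟨b, hb⟩ := exists_prime_orderOf_dvd_card' (G := zpowers (f a)) r (by
          rw [Nat.card_zpowers]
          obtain ⟨j, -, e⟩ := (Nat.dvd_prime_pow hr).1 (orderOf_dvd_of_pow_eq_one (f1 a))
          exact e ▸ dvd_pow_self r (by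
            rintro rfl; exact (mem_filter.1 ha).2 (orderOf_eq_one_iff.1 e)))
        rw [← orderOf_coe, ← orderOf_coe] at hb
        refine cm _ hb _ _ ?_ (mA _).symm
        obtain ⟨_, j, rfl⟩ := b
        exact (c.pow_right m).zpow_right j)
      (f := fun g => ‖θ g‖ ^ 2) (fun _ => sq_nonneg _) fun g x => by rw [hθ]
    have h2 := congrArg Complex.re (inner_self' θ)
    rw [Complex.ofReal_re, ← Complex.ofReal_natCast, Complex.re_ofReal_mul] at h2
    have h3 : (0 : ℝ) < Nat.card L := by exact_mod_cast Nat.card_pos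
    have h4 : (#({y | ∃ g, y = g * s * g⁻¹ ∧ Commute y s} : Finset L) : ℝ) ≤ 6 := by
      refine Nat.cast_le_ofNat.2 (le_trans (card_le_card_of_injOn (fun y => D y.1) (fun y hy => ?_)
        fun y hy y' hy' e => ?_) y6)
      · obtain ⟨g, rfl, c⟩ := (mem_filter.1 hy).2
        exact D3 _ (hL g.2) (congrArg Subtype.val c)
      obtain ⟨g, e1, c⟩ := (mem_filter.1 hy).2
      obtain ⟨g', e2, c'⟩ := (mem_filter.1 hy').2
      refine congrArg Subtype.val (inj ⟨y, mem_centralizer_singleton_iff.2 c⟩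
        ⟨y', mem_centralizer_singleton_iff.2 c'⟩ 1 (Subtype.ext ?_) e)
      change (y * y'⁻¹) ^ r ^ 1 = 1
      rw [(cm s hs _ _ c c').inv_right.mul_pow, inv_pow, e1, e2]
      simp [conj_pow, ← hs]
    refine le_of_mul_le_mul_left (le_of_eq_of_le (by congr!) (this.trans ?_)) h3
    rw [mul_left_comm, ← h2, ← f.ker.index_mul_card, Nat.cast_mul, mul_assoc 6]
    gcongr

end TT

open TT

variable {F V : Type*} [Field F] [StarRing F] [NStar F] [Fintype F] [AddCommGroup V] [Module F V]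
  {h : HF F V} {q t : ℕ}

theorem T2 (hV : finrank F V = 7) (hq : Fintype.card F = q ^ 2) (hst : ∀ t : F, star t = t ^ q)
    (h7 : q % 7 = 6) {L : Subgroup (V ≃ₗ[F] V)} (hL : L ≤ h.GU) (hd : q ^ 2 + q + 1 ∣ Nat.card L)
    (ht : 7 * t * (q + 1) = q ^ 7 + 1) :
    ∀ ψ, IsIrrCharacter L ψ → ψ 1 ≠ t ∧ ψ 1 ≠ 2 * t ∧ ψ 1 ≠ 3 * t := by
  have : FiniteDimensional F V := Module.finite_of_finrank_pos (by omega)
  have : Finite V := Module.finite_of_finite F
  have : Finite (V ≃ₗ[F] V) := DFunLike.finite _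
  let _ := Fintype.ofFinite L
  obtain ⟨r, k, hr, r3, hk, k1⟩ := big_prime h7 (by
    rintro rfl
    obtain ⟨p, j, hp, -, e⟩ := exists_q_pow hq
    have h2 := (Nat.prime_dvd_prime_iff_eq Nat.prime_two hp).1 (Nat.prime_two.dvd_of_dvd_pow (n := j) (by rw [← e]; decide))
    have h3 := (Nat.prime_dvd_prime_iff_eq Nat.prime_three hp).1 (Nat.prime_three.dvd_of_dvd_pow (n := j)
      (by rw [← e]; decide))
    omega)
  obtain ⟨A, _, B, h1, ⟨a, h2⟩, h3⟩ := setup hV hq hst hL hd hr r3 hk (by omega)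
  have e : (7 * t : ℤ) = 1 + B.index * (a * ((q ^ 2 - q) * (q ^ 2 - q + 1))) := by
    zify at ht h2
    apply mul_right_cancel₀ (by positivity : (q + 1 : ℤ) ≠ 0)
    rw [ht, ← mul_assoc, ← h2]; ring
  have key : ∀ ψ, IsIrrCharacter L ψ → ∀ j : ℤ, 1 ≤ j → j ≤ 3 → ψ 1 ≠ (j * t : ℤ) := fun ψ hψ j j1 j3 e1 => by
    obtain ⟨X, h4, h5⟩ := par B (H4.BS.ch_comp (H4.BS.ch_irr hψ) A.subtype) e1
    have h6 := h3 _ (irr_class hψ)
    rw [H1.classInner_irr hψ hψ, if_pos rfl, Complex.one_re, mul_one, mul_comm] at h6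
    refine (not_dm (a := j * (a * ((q ^ 2 - q) * (q ^ 2 - q + 1)))) (by omega) j1 j3
      (by linear_combination j * e) h4).not_ge ?_
    exact_mod_cast le_of_mul_le_mul_left (h5 ▸ h6) (by exact_mod_cast Nat.card_pos)
  exact fun ψ hψ => ⟨by simpa using key ψ hψ 1 (by omega) (by omega),
    by simpa using key ψ hψ 2 (by omega) (by omega), by simpa using key ψ hψ 3 (by omega) (by omega)⟩

end Cfsg.Agent.H6.U7
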