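import Cfsg.Agent.H7.AschSUMax

set_option autoImplicit false
set_option linter.unusedSectionVars false
set_option linter.unusedVariables false
set_option linter.unnecessarySimpa false
set_option linter.style.haveILetI false
set_option linter.unusedSimpArgs false

/-! Coded determinants and coded elements of special unitary groups. -/

namespace Cfsg.Agent.H7

open Cfsg Cfsg.Geo Matrix
open scoped MatrixGroups Kronecker commutatorElement

variable {ι : Type} [Fintype ι] [DecidableEq ι] {F : Type*} [Field F]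

namespace CF
variable (K : CF)

/-- coded finite sum -/
def sumLt (n : ℕ) (g : ℕ → ℕ) : ℕ := Nat.rec 0 (fun k r => K.ad r (g k)) n

/-- coded determinant (`m1` codes `-1`) -/
def dt (m1 n : ℕ) (M : List (List ℕ)) : ℕ :=
  Nat.rec (motive := fun _ => List (List ℕ) → ℕ) (fun _ => 1)
    (fun n ih M => K.sumLt (n + 1) fun j => K.mu (K.mu (if j % 2 = 0 then 1 else m1)
      ((M.getD 0 []).getD j 0)) (ih (lmap (fun r => r.eraseIdx j) M.tail))) n M

/-- coded elements of the special unitary group -/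
def isSU (m1 n : ℕ) (A : List (List ℕ)) : Bool :=
  decide (wf n A) && (K.meq (K.mm n (CF.tr n A) (K.cjM A)) (idM n) && K.eqb (K.dt m1 n A) 1)

/-- pointwise norms -/
def nm (l : List ℕ) : List ℕ := lmap (fun a => K.mu a (K.cj a)) l

/-- weight -/
def wt (l : List ℕ) : ℕ := List.rec 0 (fun a _ r => (if K.eqb a 0 then 0 else 1) + r) l

end CF

namespace CF.Sound

variable {K : CF} {σ : F →+* F} {d : ℕ → F} (h : K.Sound σ d)
include h

lemma sumLt (n : ℕ) (g : ℕ → ℕ) : d (K.sumLt n g) = ∑ j : Fin n, d (g j) := by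
  induction n with
  | zero => exact h.zero
  | succ n ih =>
    change d (K.ad (K.sumLt n g) (g n)) = _
    rw [h.add, ih, Fin.sum_univ_castSucc]
    rfl

lemma dt {m1 : ℕ} (hm : d m1 = -1) (n : ℕ) : ∀ M, d (K.dt m1 n M) = (dm d n M).det := by
  induction n with
  | zero => intro M; rw [det_fin_zero]; exact h.one
  | succ n ih =>
    intro M
    change d (K.sumLt (n + 1) fun j => K.mu (K.mu (if j % 2 = 0 then 1 else m1)
      ((M.getD 0 []).getD j 0)) (K.dt m1 n (lmap (fun r => r.eraseIdx j) M.tail))) = _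
    rw [h.sumLt, det_succ_row_zero]
    refine Finset.sum_congr rfl fun j _ => ?_
    rw [h.mul, h.mul, ih]
    congr 2
    · split_ifs with hj
      · rw [h.one, (Nat.even_iff.2 hj).neg_one_pow]
      · rw [hm, (Nat.odd_iff.2 (by omega)).neg_one_pow]
    · ext i l
      have h1 : (lmap (fun r => r.eraseIdx j) M.tail).getD i [] = (M.tail.getD i []).eraseIdx j :=
        getD_lmap (fun r : List ℕ => r.eraseIdx j) M.tail [] i
      rw [dm_apply, h1, submatrix_apply, dm_apply]
      simp only [List.getD_eq_getElem?_getD, List.getElem?_tail, List.getElem?_eraseIdx,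
        Fin.val_succ]
      by_cases hl : l.castSucc < j
      · rw [Fin.succAbove_of_castSucc_lt _ _ hl, if_pos (show l.1 < j.1 from hl)]
        rfl
      · rw [Fin.succAbove_of_le_castSucc _ _ (not_lt.1 hl), if_neg (show ¬ l.1 < j.1 from hl)]
        rfl

lemma isSU {m1 : ℕ} (hm : d m1 = -1) {n : ℕ} {A : List (List ℕ)} (hA : K.isSU m1 n A = true) :
    wf n A ∧ tw σ 1 (dm d n A) = 1 ∧ (dm d n A).det = 1 := by
  simp only [CF.isSU, Bool.and_eq_true, decide_eq_true_eq] at hA
  exact ⟨hA.1, (h.tw_one_iff hA.1).1 hA.2.1, by rw [← h.dt hm, (h.eq _ _).1 hA.2.2, h.one]⟩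

lemma exists_SU {f : (ι → F) → (ι → F) → F} (hf : Sesq σ f) {m1 : ℕ} (hm : d m1 = -1) {n : ℕ}
    {e : ι ≃ Fin n} {P : GL ι F} (hG : frameGram f e P = 1) {A : List (List ℕ)}
    (hA : K.isSU m1 n A = true) :
    ∃ a ∈ SUf f, (a : Matrix ι ι F) = frameEquiv e P (dm d n A) := by
  obtain ⟨-, h1, h2⟩ := h.isSU hm hA
  exact ⟨frameElt e P _ (by rw [h2]; exact one_ne_zero),
    hf.mem_SUf_of_frame (frameElt_val _ _ _ _) (by rw [hG, h1]) h2, rfl⟩

lemma nm (n : ℕ) (l : List ℕ) : dv d n (K.nm l) = fun i => dv d n l i * σ (dv d n l i) := by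
  ext i
  have h0 : d (K.mu 0 (K.cj 0)) = 0 := by rw [h.mul, h.zero, zero_mul]
  by_cases hi : i.1 < l.length
  · simp [dv, CF.nm, lmap_eq, List.getD_eq_getElem?_getD, hi, h.mul, h.conj]
  · simp [dv, CF.nm, lmap_eq, List.getD_eq_getElem?_getD, not_lt.1 hi, h.zero]

lemma wt [DecidableEq F] (n : ℕ) : ∀ l : List ℕ, l.length = n →
    K.wt l = ∑ i, if dv d n l i = 0 then 0 else 1 := by
  induction n with
  | zero =>
    intro u hu
    obtain rfl := List.length_eq_zero_iff.1 hu
    rfl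
  | succ n ih =>
    intro u hu
    obtain ⟨a, u, rfl⟩ := List.exists_cons_of_length_eq_add_one hu
    change (if K.eqb a 0 then 0 else 1) + K.wt u = _
    rw [ih u (by simpa using hu), dv_cons, Fin.sum_univ_succ]
    simp only [h.eq, h.zero, Fin.cons_zero, Fin.cons_succ]

/-- invariance of a coded predicate -/
lemma pres_of {n : ℕ} {S : (Fin n → F) → Prop} {Sb : List ℕ → Bool}
    (hS : ∀ l, l.length = n → (Sb l = true ↔ S (dv d n l))) {A : List (List ℕ)} (hA : wf n A)
    (h1 : K.allV n (fun l => imp (Sb l) (Sb (K.mv A l))) = true) (w : Fin n → F) (hw : S w) :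
    S (dm d n A *ᵥ w) := by
  obtain ⟨l, hl, rfl, h2⟩ := h.allV n _ h1 w
  rw [← h.mv n _ _ hl.le, ← hS _ (by simp [CF.mv, hA.1])]
  exact imp_iff.1 h2 ((hS l hl).2 hw)

/-- a strict overgroup given by an invariant set of coordinate vectors -/
lemma false_of_code [Finite F] {f : (ι → F) → (ι → F) → F} (hf : Sesq σ f) {m1 : ℕ}
    (hm : d m1 = -1) {n : ℕ} {e : ι ≃ Fin n} {P : GL ι F} (hG : frameGram f e P = 1)
    {H N : Subgroup (GL ι F)} (hH : IsMaximalIn (SUf f) H) (hN : H ≤ N) (S : (Fin n → F) → Prop)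
    (h1 : ∀ g ∈ H, ∃ X, (g : Matrix ι ι F) = frameEquiv e P X ∧ ∀ w, S w → S (X *ᵥ w))
    {A B : List (List ℕ)} (hA : K.isSU m1 n A = true) (hB : K.isSU m1 n B = true)
    (h2 : ∀ a : GL ι F, (a : Matrix ι ι F) = frameEquiv e P (dm d n A) → a ∉ N)
    (h3 : ∀ w, S w → S (dm d n A *ᵥ w)) {w : List ℕ} (hw : w.length ≤ n) (h4 : S (dv d n w))
    (h5 : ¬ S (dv d n (K.mv B w))) : False := by
  obtain ⟨a, ha, ha'⟩ := h.exists_SU hf hm hG hA
  obtain ⟨b, hb, hb'⟩ := h.exists_SU hf hm hG hB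
  exact false_of_set hH hN e P S h1 ha' ha (h2 a ha') h3 hb' hb h4 (by rwa [← h.mv n _ _ hw])

lemma neg_one {m1 : ℕ} (hm : K.eqb (K.ad m1 1) 0 = true) : d m1 = -1 := by
  have := (h.eq _ _).1 hm
  rw [h.add, h.one, h.zero] at this
  linear_combination this

end CF.Sound

end Cfsg.Agent.H7
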