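import Cfsg.Agent.H7.AschField

set_option autoImplicit false
set_option linter.unusedSectionVars false
set_option linter.unusedVariables false
set_option linter.unnecessarySimpa false
set_option linter.style.haveILetI false
set_option linter.unusedSimpArgs false

/-! Coded normalisers of Singer elements and fast membership tests. -/

namespace Cfsg.Agent.H7

open Cfsg Cfsg.Geo Matrix
open scoped MatrixGroups Kronecker commutatorElement

variable {ι : Type} [Fintype ι] [DecidableEq ι] {F : Type*} [Field F]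

namespace CF
variable (K : CF)

/-- the number coding a vector -/
def code (l : List ℕ) : ℕ := List.rec 0 (fun a _ r => a % K.N + K.N * r) l

/-- the leading entry -/
def lead (l : List ℕ) : ℕ := List.rec 0 (fun a _ r => Bool.rec a r (K.eqb a 0)) l

/-- bit test -/
def bit (TB : ℕ) (l : List ℕ) : Bool := Nat.beq ((TB >>> K.code l) % 2) 1

/-- fast membership test -/
def fin (TI TB : ℕ) (w : List ℕ) : Bool :=
  !K.eqb ((TI >>> (5 * (K.lead w % K.N))) % 32) 0 &&
    K.bit TB (K.sm ((TI >>> (5 * (K.lead w % K.N))) % 32) w)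

/-- fast invariance test -/
def presF (TI TB : ℕ) (L : List (ℕ × List ℕ)) (M : List (List ℕ)) : Bool :=
  lall L fun l => K.fin TI TB (K.mv M l.2)

/-- soundness check of a bit table -/
def tabOK (n TB : ℕ) (L : List (ℕ × List ℕ)) : Bool :=
  lall L (fun l => Nat.beq l.2.length n) && K.allV n fun l => imp (K.bit TB l) (K.inS L l)

/-- the vectors `w, M w, M² w, …` -/
def cyc (k : ℕ) (M : List (List ℕ)) (w : List ℕ) : List (List ℕ) :=
  Nat.rec (motive := fun _ => List ℕ → List (List ℕ)) (fun _ => [])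
    (fun _ ih w => w :: ih (K.mv M w)) k w

/-- trace -/
def trc (n : ℕ) (M : List (List ℕ)) : ℕ := K.sumLt n fun i => (M.getD i []).getD i 0

/-- `Cs` contains all powers of `C` -/
def powOK (n : ℕ) (C : List (List ℕ)) (Cs : List (List (List ℕ))) : Bool :=
  lany Cs (K.meq (idM n)) && lall Cs fun M => decide (wf n M) && lany Cs (K.meq (K.mm n C M))

/-- preliminary checks for the normaliser of `C` -/
def singOK (n : ℕ) (C : List (List ℕ)) (Cs Cs' : List (List (List ℕ))) (w₀ : List ℕ)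
    (Bi : List (List ℕ)) : Bool :=
  decide (wf n C) && (K.powOK n C Cs && (lall Cs (fun M => imp (K.eqb (K.trc n M) (K.trc n C))
    (lany Cs' (K.meq M))) && (lall Cs' (fun M => decide (wf n M)) && (Nat.beq w₀.length n &&
      K.meq (K.mm n (tr n (K.cyc n C w₀)) Bi) (idM n)))))

/-- all elements of the normaliser of `C` -/
def allSing (m1 n : ℕ) (C : List (List ℕ)) (Cs' : List (List (List ℕ))) (w₀ : List ℕ)
    (Bi : List (List ℕ)) (p : List (List ℕ) → Bool) : Bool :=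
  K.allV n fun w => imp (K.eqb (K.hm w w) (K.hm w₀ w₀)) (lall Cs' fun M =>
    imp (K.veq (lmap (fun r => K.hm r w) (K.cyc n M w)) (lmap (fun r => K.hm r w₀) (K.cyc n C w₀)))
      (imp (K.isSU m1 n (K.mm n (tr n (K.cyc n M w)) Bi)) (p (K.mm n (tr n (K.cyc n M w)) Bi))))

lemma cyc_succ (k : ℕ) (M : List (List ℕ)) (w : List ℕ) :
    K.cyc (k + 1) M w = w :: K.cyc k M (K.mv M w) := rfl

lemma length_cyc (k : ℕ) (M : List (List ℕ)) : ∀ w, (K.cyc k M w).length = k := by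
  induction k with
  | zero => intro w; rfl
  | succ k ih => intro w; rw [cyc_succ, List.length_cons, ih]

lemma length_of_mem_cyc {n : ℕ} (k : ℕ) {M : List (List ℕ)} (hM : wf n M) :
    ∀ w, w.length = n → ∀ r ∈ K.cyc k M w, r.length = n := by
  induction k with
  | zero => intro w _ r hr; cases hr
  | succ k ih =>
    intro w hw r hr
    rw [cyc_succ, List.mem_cons] at hr
    rcases hr with rfl | hr
    · exact hw
    · exact ih _ (by simp [CF.mv, hM.1]) r hr

lemma wf_cyc {n : ℕ} {M : List (List ℕ)} (hM : wf n M) {w : List ℕ} (hw : w.length = n) :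
    wf n (K.cyc n M w) := ⟨K.length_cyc n M w, K.length_of_mem_cyc n hM w hw⟩

lemma code_congr : ∀ u v : List ℕ, K.veq u v = true → K.code u = K.code v := by
  intro u
  induction u with
  | nil =>
    intro v h
    cases v with
    | nil => rfl
    | cons b v => exact absurd h (by simp [CF.veq])
  | cons a u ih =>
    intro v h
    cases v with
    | nil => exact absurd h (by simp [CF.veq])
    | cons b v =>
      change (K.eqb a b && K.veq u v) = true at h
      rw [Bool.and_eq_true] at h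
      change a % K.N + K.N * K.code u = b % K.N + K.N * K.code v
      rw [ih v h.2, Nat.eq_of_beq_eq_true h.1]

end CF

lemma dot_isom {σ : F →+* F} {X : Matrix ι ι F} (h : tw σ 1 X = 1) (u v : ι → F) :
    (X *ᵥ u) ⬝ᵥ (σ ∘ (X *ᵥ v)) = u ⬝ᵥ (σ ∘ v) := by
  have := gform_tw σ 1 X u v
  rw [h] at this
  simpa only [gform, one_mulVec] using this

namespace CF.Sound

variable {K : CF} {σ : F →+* F} {d : ℕ → F} (h : K.Sound σ d)
include h

lemma fin {n TI TB : ℕ} {L : List (ℕ × List ℕ)} (hT : K.tabOK n TB L = true) {w : List ℕ}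
    (hw : w.length = n) (h1 : K.fin TI TB w = true) : setL d n L (dv d n w) := by
  simp only [CF.fin, CF.tabOK, Bool.and_eq_true, Bool.not_eq_true', h.ne, h.zero] at h1 hT
  generalize (TI >>> (5 * (K.lead w % K.N))) % 32 = c at h1
  obtain ⟨l, hl, h2, h3⟩ := h.allV n _ hT.2 (dv d n (K.sm c w))
  have h4 := K.code_congr _ _ (h.veq_of n l (K.sm c w) hl (by simp [CF.sm, hw]) h2)
  have h5 := setL_smul (d c)⁻¹ (h.inS n (imp_iff.1 h3 (by rw [CF.bit, h4]; exact h1.2)))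
  rwa [h2, h.sm, smul_smul, inv_mul_cancel₀ h1.1, one_smul] at h5

lemma presF {n TI TB : ℕ} {L : List (ℕ × List ℕ)} (hT : K.tabOK n TB L = true)
    {M : List (List ℕ)} (hM : wf n M) (h1 : K.presF TI TB L M = true) (w : Fin n → F)
    (hw : setL d n L w) : setL d n L (dm d n M *ᵥ w) := by
  obtain ⟨l, hl, c, rfl⟩ := hw
  have h2 := h.fin hT (by simp [CF.mv, hM.1]) (lall_iff.1 h1 l hl)
  simp only [CF.tabOK, Bool.and_eq_true, lall_iff, Nat.beq_eq] at hT
  rw [h.mv n _ _ (hT.1 l hl).le] at h2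
  rw [mulVec_smul]
  exact setL_smul c h2

lemma isSU_of {m1 : ℕ} (hm : d m1 = -1) {n : ℕ} {A : List (List ℕ)} (hA : wf n A)
    (h1 : tw σ 1 (dm d n A) = 1) (h2 : (dm d n A).det = 1) : K.isSU m1 n A = true := by
  simp only [CF.isSU, Bool.and_eq_true, decide_eq_true_eq]
  exact ⟨hA, (h.tw_one_iff hA).2 h1, (h.eq _ _).2 (by rw [h.dt hm, h2, h.one])⟩

lemma cyc {n : ℕ} {M : List (List ℕ)} (hM : wf n M) (k : ℕ) : ∀ w : List ℕ, w.length = n →
    ∀ i < k, dv d n ((K.cyc k M w).getD i []) = dm d n M ^ i *ᵥ dv d n w := by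
  induction k with
  | zero => intro w _ i hi; omega
  | succ k ih =>
    intro w hw i hi
    rw [cyc_succ]
    cases i with
    | zero => simp
    | succ i =>
      rw [List.getD_cons_succ, ih _ (by simp [CF.mv, hM.1]) i (by omega), h.mv n _ _ hw.le,
        mulVec_mulVec, pow_succ]

lemma trc (n : ℕ) (M : List (List ℕ)) : d (K.trc n M) = (dm d n M).trace := by
  rw [CF.trc, h.sumLt]; rfl

lemma powOK {n : ℕ} {C : List (List ℕ)} (hC : wf n C) {Cs : List (List (List ℕ))}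
    (h1 : K.powOK n C Cs = true) (j : ℕ) : ∃ M ∈ Cs, wf n M ∧ dm d n M = dm d n C ^ j := by
  simp only [CF.powOK, Bool.and_eq_true, lall_iff, lany_iff, decide_eq_true_eq] at h1
  induction j with
  | zero =>
    obtain ⟨M, hM, h2⟩ := h1.1
    exact ⟨M, hM, (h1.2 M hM).1, by rw [← h.of_meq n _ _ h2, h.idM, pow_zero]⟩
  | succ j ih =>
    obtain ⟨M, hM, -, h2⟩ := ih
    obtain ⟨M', hM', h3⟩ := (h1.2 M hM).2
    exact ⟨M', hM', (h1.2 M' hM').1, by rw [← h.of_meq n _ _ h3, h.mm' hC, h2, pow_succ']⟩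

lemma hm_cyc {n : ℕ} {M : List (List ℕ)} (hM : wf n M) {w : List ℕ} (hw : w.length = n) :
    dv d n (lmap (fun r => K.hm r w) (K.cyc n M w)) =
      fun i => (dm d n M ^ i.1 *ᵥ dv d n w) ⬝ᵥ (σ ∘ dv d n w) := by
  ext i
  rw [← h.cyc hM n w hw i i.2, ← h.hm n _ _ hw.le, ← getD_lmap (fun r => K.hm r w)]
  rfl

lemma allSing {m1 : ℕ} (hm : d m1 = -1) {n : ℕ} {C Bi : List (List ℕ)}
    {Cs Cs' : List (List (List ℕ))} {w₀ : List ℕ} {p : List (List ℕ) → Bool}
    (h1 : K.singOK n C Cs Cs' w₀ Bi = true) (h2 : K.allSing m1 n C Cs' w₀ Bi p = true)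
    {X : Matrix (Fin n) (Fin n) F} (hX : tw σ 1 X = 1) (hd : X.det = 1) {j : ℕ}
    (hC : X * dm d n C = dm d n C ^ j * X) : ∃ A, wf n A ∧ dm d n A = X ∧ p A = true := by
  simp only [CF.singOK, Bool.and_eq_true, lall_iff, lany_iff, decide_eq_true_eq, imp_iff,
    Nat.beq_eq] at h1
  obtain ⟨a1, a2, a3, a4, a5, a6⟩ := h1
  obtain ⟨M', hM', -, h3⟩ := h.powOK a1 a2 j
  have hu : IsUnit X.det := by rw [hd]; exact isUnit_one
  obtain ⟨M, hM, h4⟩ := a3 M' hM' ((h.eq _ _).2 (by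
    rw [h.trc, h.trc, h3, ← mul_nonsing_inv_cancel_right X (dm d n C ^ j) hu, ← hC, trace_mul_comm,
      nonsing_inv_mul_cancel_left X _ hu]))
  rw [← h3, h.of_meq n _ _ h4] at hC
  have h5 : ∀ i : ℕ, X * dm d n C ^ i = dm d n M ^ i * X := fun i =>
    (show SemiconjBy X _ _ from hC).pow_right i
  obtain ⟨w, hw, h6, h7⟩ := h.allV n _ h2 (X *ᵥ dv d n w₀)
  have h8 : dm d n (K.mm n (CF.tr n (K.cyc n M w)) Bi) = X := by
    have h9 : (dm d n (K.cyc n M w))ᵀ = X * (dm d n (K.cyc n C w₀))ᵀ := by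
      ext a i
      change dv d n _ a = (X *ᵥ dv d n ((K.cyc n C w₀).getD i [])) a
      rw [h.cyc (a4 M hM) n w hw i i.2, h.cyc a1 n w₀ a5 i i.2, h6, mulVec_mulVec, mulVec_mulVec,
        h5]
    have h10 := h.of_meq n _ _ a6
    rw [h.mm' (wf_tr (K.wf_cyc a1 a5)), h.tr, h.idM] at h10
    rw [h.mm' (wf_tr (K.wf_cyc (a4 M hM) hw)), h.tr, h9, mul_assoc, h10, mul_one]
  have h11 := wf_mm (K := K) (wf_tr (K.wf_cyc (a4 M hM) hw)) Bi
  refine ⟨_, h11, h8, imp_iff.1 (imp_iff.1 (lall_iff.1 (imp_iff.1 h7 ((h.eq _ _).2 ?_)) M hM)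
    (h.veq_of n _ _ (by simp [CF.length_cyc]) (by simp [CF.length_cyc]) ?_))
    (h.isSU_of hm h11 (by rw [h8, hX]) (by rw [h8, hd]))⟩
  · rw [h.hm n _ _ hw.le, h.hm n _ _ a5.le, h6, dot_isom hX]
  · rw [h.hm_cyc (a4 M hM) hw, h.hm_cyc a1 a5]
    ext i
    rw [h6, mulVec_mulVec, ← h5, ← mulVec_mulVec, dot_isom hX]

lemma singer_false [Fintype F] {q : ℕ} (hF : Fintype.card F = q ^ 2) (hσ : ∀ x, σ x = x ^ q)
    {f : (ι → F) → (ι → F) → F} (hf : HForm σ 1 f) {H : Subgroup (GL ι F)}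
    (hH : IsMaximalIn (SUf f) H) {m1 : ℕ} (hm : d m1 = -1) {n : ℕ} (hn : Fintype.card ι = n)
    (hn0 : 0 < n) {r : ℕ} {Z : Subalgebra F (Matrix ι ι F)} (hK : IsFieldSubalgebra r Z)
    (hadj : IsAdjointClosedFor f Z) (hZ : H ≤ subalgebraNormalizer Z) {l : ℕ} (hl : l.Prime)
    (h1 : l ∣ (q ^ 2) ^ r - 1) (h2 : Nat.Coprime l (q ^ r - 1))
    (h3 : ¬ l ^ 2 ∣ ∏ i : Fin n, ((q ^ 2) ^ n - (q ^ 2) ^ (i : ℕ))) {C Bi A B : List (List ℕ)}
    {Cs Cs' : List (List (List ℕ))} {w₀ w : List ℕ} {TI TB : ℕ} {L : List (ℕ × List ℕ)}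
    (c1 : K.singOK n C Cs Cs' w₀ Bi = true)
    (c2 : K.allSing m1 n C Cs' w₀ Bi (K.presF TI TB L) = true) (c3 : K.tabOK n TB L = true)
    (c4 : (K.isSU m1 n C && (!K.meq C (H7.idM n) &&
      (K.meq (Nat.rec (H7.idM n) (fun _ M => K.mm n C M) l) (H7.idM n) && (K.isSU m1 n A &&
      (K.isSU m1 n B && (lall Cs (fun M => !K.meq (K.mm n A C) (K.mm n M A)) &&
      (K.presF TI TB L A && (Nat.beq w.length n && (K.inS L w && K.notS L (K.mv B w)))))))))) =
        true) : False := by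
  simp only [Bool.and_eq_true, Bool.not_eq_true', lall_iff, Nat.beq_eq] at c4
  obtain ⟨b1, b2, b3, b4, b5, b6, b7, b8, b9, b10⟩ := c4
  have hC := h.isSU hm b1
  have hA := h.isSU hm b4
  have hpow : ∀ k : ℕ, dm d n (Nat.rec (H7.idM n) (fun _ M => K.mm n C M) k) = dm d n C ^ k := by
    intro k
    induction k with
    | zero => rw [pow_zero]; exact h.idM n
    | succ k ih => rw [pow_succ', ← ih]; exact h.mm' hC.1 _
  obtain ⟨e, P, hG, -, hN⟩ := hf.exists_singer hF hσ hn hn0 hK hadj hl h1 h2 h3 hC.2.1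
    (fun h4 => by
      rw [← h.idM n, ← h.meq_iff hC.1 (wf_idM n), b2] at h4
      cases h4) (by rw [← hpow, h.of_meq n _ _ b3, h.idM])
  refine h.false_of_code hf.toSesq hm hG hH hZ (setL d n L) (fun g hg => ?_) b4 b5 (fun a ha h4 => ?_)
    (h.presF c3 hA.1 b7) b8.le (h.inS n b9) (h.notS n ?_ (by simp [CF.mv, (h.isSU hm b5).1.1]) b10)
  · obtain ⟨X, hX⟩ := (frameEquiv e P).surjective g
    obtain ⟨j, hj⟩ := hN g (hZ hg) X hX.symm
    have h5 := hf.toSesq.tw_of_isom hX.symm (mem_SUf.1 (hH.1.le hg)).1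
    rw [hG] at h5
    obtain ⟨A', h6, rfl, h7⟩ := h.allSing hm c1 c2 h5
      (by rw [← det_frameEquiv e P, hX, (mem_SUf.1 (hH.1.le hg)).2]) hj
    exact ⟨_, hX.symm, h.presF c3 h6 h7⟩
  · obtain ⟨j, hj⟩ := hN a h4 _ ha
    simp only [CF.singOK, Bool.and_eq_true] at c1
    obtain ⟨M, hM, h5, h6⟩ := h.powOK hC.1 c1.2.1 j
    rw [← h6, ← h.mm' hA.1, ← h.mm' h5, ← h.meq_iff (wf_mm hA.1 _) (wf_mm h5 _), b6 M hM] at hj
    cases hj
  · simp only [CF.tabOK, Bool.and_eq_true, lall_iff, Nat.beq_eq] at c3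
    exact c3.1

end CF.Sound

end Cfsg.Agent.H7
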