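import Cfsg.Agent.H7.AschCode3

set_option autoImplicit false
set_option linter.unusedSectionVars false
set_option linter.unusedVariables false
set_option linter.unnecessarySimpa false
set_option linter.style.haveILetI false
set_option linter.unusedSimpArgs false

/-! Coded enumerations in dimension three; orthonormal frames for real structures. -/

namespace Cfsg.Agent.H7

open Cfsg Cfsg.Geo Matrix
open scoped MatrixGroups Kronecker commutatorElement

variable {ι : Type} [Fintype ι] [DecidableEq ι] {F : Type*} [Field F]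

/-- all vectors of length `n` with entries in `Rs` -/
def allL (Rs : List ℕ) (n : ℕ) (p : List ℕ → Bool) : Bool :=
  Nat.rec (motive := fun _ => (List ℕ → Bool) → Bool) (fun p => p [])
    (fun _ ih p => lall Rs fun a => ih fun l => p (a :: l)) n p

/-- coded monomial matrices -/
def monoC (i j k a b c : ℕ) : List (List ℕ) :=
  lmap (fun x => [if x = i then a else 0, if x = j then b else 0, if x = k then c else 0]) [0, 1, 2]

namespace CF
variable (K : CF)

/-- `Rs` contains the fixed field -/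
def realOK (Rs : List ℕ) : Bool := allLt K.N fun a => imp (K.eqb (K.cj a) a) (lany Rs (K.eqb a))

/-- all real special orthogonal matrices -/
def allO3 (m1 : ℕ) (Rs : List ℕ) (p : List (List ℕ) → Bool) : Bool :=
  allL Rs 3 fun a => imp (K.eqb (K.hm a a) 1) (allL Rs 3 fun b =>
    imp (K.eqb (K.hm a b) 0) (imp (K.eqb (K.hm b b) 1) (allL Rs 3 fun c =>
      imp (K.eqb (K.hm a c) 0) (imp (K.eqb (K.hm b c) 0) (imp (K.eqb (K.hm c c) 1)
        (imp (K.eqb (K.dt3 m1 a b c) 1) (p [a, b, c])))))))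

/-- all monomial elements of `SU_3` -/
def allMono (m1 : ℕ) (p : List (List ℕ) → Bool) : Bool :=
  allLt K.N fun a => imp (K.eqb (K.mu a (K.cj a)) 1) (allLt K.N fun b =>
    imp (K.eqb (K.mu b (K.cj b)) 1) (allLt K.N fun c => imp (K.eqb (K.mu c (K.cj c)) 1)
      (allLt 3 fun i => allLt 3 fun j => allLt 3 fun k =>
        imp (K.eqb (K.dt m1 3 (monoC i j k a b c)) 1) (p (monoC i j k a b c)))))

/-- every diagonal real form has an orthogonal basis with equal norms -/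
def witOK (Rs : List ℕ) (Ys : List (List (List ℕ))) : Bool :=
  lall Ys (fun Y => decide (wf 3 Y) && K.meq (K.cjM Y) Y) &&
  lall Rs fun a => lall Rs fun b => lall Rs fun c => K.eqb (K.mu a (K.mu b c)) 0 ||
    lany Ys fun Y => lany Rs fun t => !K.eqb t 0 &&
      K.meq (K.mmT (K.mmT Y [[a, 0, 0], [0, b, 0], [0, 0, c]]) Y) (K.smM t (idM 3))

/-- normalising scalars -/
def nrmOK : Bool := allLt K.N fun c => imp (K.eqb (K.cj (K.mu c (K.mu c c))) (K.mu c (K.mu c c)))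
  (lany (List.range K.N) fun s => K.eqb (K.mu s (K.mu s s)) 1 && (K.eqb (K.mu s (K.cj s)) 1 &&
    K.eqb (K.mu (K.cj s) c) (K.mu s (K.cj c))))

end CF

namespace CF.Sound

variable {K : CF} {σ : F →+* F} {d : ℕ → F} (h : K.Sound σ d)
include h

lemma realOK {Rs : List ℕ} (hR : K.realOK Rs = true) {x : F} (hx : σ x = x) : ∃ a ∈ Rs, d a = x := by
  obtain ⟨a, ha, rfl⟩ := h.surj x
  obtain ⟨b, hb, h1⟩ := lany_iff.1 (imp_iff.1 (allLt_iff.1 hR a ha) ((h.eq _ _).2 (by rw [h.conj, hx])))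
  exact ⟨b, hb, ((h.eq _ _).1 h1).symm⟩

lemma allL {Rs : List ℕ} (hR : K.realOK Rs = true) (n : ℕ) : ∀ p : List ℕ → Bool,
    H7.allL Rs n p = true → ∀ w : Fin n → F, (∀ i, σ (w i) = w i) →
      ∃ l : List ℕ, l.length = n ∧ dv d n l = w ∧ p l = true := by
  induction n with
  | zero => intro p hp w _; exact ⟨[], rfl, by ext i; exact i.elim0, hp⟩
  | succ n ih =>
    intro p hp w hw
    obtain ⟨a, ha, h1⟩ := h.realOK hR (hw 0)
    obtain ⟨l, hl, h2, h3⟩ := ih _ (lall_iff.1 hp a ha) (Fin.tail w) fun i => hw _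
    exact ⟨a :: l, by simp [hl], by rw [dv_cons, h2, h1, Fin.cons_self_tail], h3⟩

lemma allO3 (hσ : ∀ a, σ (σ a) = a) {m1 : ℕ} (hm : d m1 = -1) {Rs : List ℕ}
    (hR : K.realOK Rs = true) {p : List (List ℕ) → Bool} (hp : K.allO3 m1 Rs p = true)
    {X : Matrix (Fin 3) (Fin 3) F} (hX : tw σ 1 X = 1) (hd : X.det = 1)
    (hr' : ∀ i j, σ (X i j) = X i j) : ∃ A, wf 3 A ∧ dm d 3 A = X ∧ p A = true := by
  have hr := rows_of_tw hσ hX
  obtain ⟨a, ha, ha1, h1⟩ := h.allL hR 3 _ hp (X 0) (hr' 0)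
  have h2 := imp_iff.1 h1 (by rw [h.eq, h.hm 3 _ _ ha.le, ha1, hr, h.one]; simp)
  obtain ⟨b, hb, hb1, h3⟩ := h.allL hR 3 _ h2 (X 1) (hr' 1)
  have h4 := imp_iff.1 (imp_iff.1 h3 (by rw [h.eq, h.hm 3 _ _ hb.le, ha1, hb1, hr, h.zero]; simp))
    (by rw [h.eq, h.hm 3 _ _ hb.le, hb1, hr, h.one]; simp)
  obtain ⟨c, hc, hc1, h5⟩ := h.allL hR 3 _ h4 (X 2) (hr' 2)
  have h6 := imp_iff.1 (imp_iff.1 (imp_iff.1 (imp_iff.1 h5
    (by rw [h.eq, h.hm 3 _ _ hc.le, ha1, hc1, hr, h.zero]; simp))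
    (by rw [h.eq, h.hm 3 _ _ hc.le, hb1, hc1, hr, h.zero]; simp))
    (by rw [h.eq, h.hm 3 _ _ hc.le, hc1, hr, h.one]; simp))
    (by rw [h.eq, h.dt3 hm, dm_rows3 d ha1 hb1 hc1, hd, h.one])
  exact ⟨_, ⟨rfl, by simp [ha, hb, hc]⟩, dm_rows3 d ha1 hb1 hc1, h6⟩

lemma allMono {m1 : ℕ} (hm : d m1 = -1) {p : List (List ℕ) → Bool} (hp : K.allMono m1 p = true)
    (s : Equiv.Perm (Fin 3)) {c : Fin 3 → F} (hc : ∀ i, c i * σ (c i) = 1)
    (hd : (mono s c).det = 1) : ∃ A, wf 3 A ∧ dm d 3 A = mono s c ∧ p A = true := by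
  obtain ⟨a, ha, ha'⟩ := h.surj (c 0)
  obtain ⟨b, hb, hb'⟩ := h.surj (c 1)
  obtain ⟨e, he, he'⟩ := h.surj (c 2)
  have h1 : dm d 3 (monoC (s 0) (s 1) (s 2) a b e) = mono s c := by
    ext x y
    have : (monoC (s 0) (s 1) (s 2) a b e).getD x [] = [if x.1 = s 0 then a else 0,
        if x.1 = s 1 then b else 0, if x.1 = s 2 then e else 0] := by
      fin_cases x <;> rfl
    rw [dm_apply, this, mono_apply]
    fin_cases y <;> simp [Fin.ext_iff, apply_ite d, ha', hb', he', h.zero]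
  refine ⟨_, ⟨rfl, by simp [monoC, lmap_eq]⟩, h1, imp_iff.1 (allLt_iff.1 (allLt_iff.1 (allLt_iff.1
    (imp_iff.1 (allLt_iff.1 (imp_iff.1 (allLt_iff.1 (imp_iff.1 (allLt_iff.1 hp a ha) ?_) b hb) ?_)
      e he) ?_) _ (s 0).2) _ (s 1).2) _ (s 2).2) ?_⟩
  · rw [h.eq, h.mul, h.conj, ha', hc, h.one]
  · rw [h.eq, h.mul, h.conj, hb', hc, h.one]
  · rw [h.eq, h.mul, h.conj, he', hc, h.one]
  · rw [h.eq, h.dt hm, h1, hd, h.one]

lemma cyc_tr {n : ℕ} {C M : List (List ℕ)} (hC : wf n C) (hM : wf n M) {w w₀ : List ℕ}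
    (hw : w.length = n) (hw₀ : w₀.length = n) {X : Matrix (Fin n) (Fin n) F}
    (h1 : X * dm d n C = dm d n M * X) (h2 : dv d n w = X *ᵥ dv d n w₀)
    (h3 : K.meq (K.cyc n C w₀) (H7.idM n) = true) : dm d n (CF.tr n (K.cyc n M w)) = X := by
  have h5 : ∀ i : ℕ, X * dm d n C ^ i = dm d n M ^ i * X := fun i =>
    (show SemiconjBy X _ _ from h1).pow_right i
  have h9 : (dm d n (K.cyc n M w))ᵀ = X * (dm d n (K.cyc n C w₀))ᵀ := by
    ext a i
    change dv d n _ a = (X *ᵥ dv d n ((K.cyc n C w₀).getD i [])) a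
    rw [h.cyc hM n w hw i i.2, h.cyc hC n w₀ hw₀ i i.2, h2, mulVec_mulVec, mulVec_mulVec, h5]
  rw [h.tr, h9, h.of_meq n _ _ h3, h.idM, transpose_one, mul_one]

lemma witOK {Rs : List ℕ} (hR : K.realOK Rs = true) {Ys : List (List (List ℕ))}
    (hY : K.witOK Rs Ys = true) {c : Fin 3 → F} (hc : ∀ i, σ (c i) = c i) (hc0 : ∀ i, c i ≠ 0) :
    ∃ (Y : Matrix (Fin 3) (Fin 3) F) (t : F), t ≠ 0 ∧ Y.map σ = Y ∧
      Y * diagonal c * Yᵀ = t • 1 := by
  simp only [CF.witOK, Bool.and_eq_true, lall_iff, lany_iff, Bool.or_eq_true, decide_eq_true_eq,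
    Bool.not_eq_true', h.ne, h.eq, h.mul, h.zero] at hY
  obtain ⟨a, ha, ha'⟩ := h.realOK hR (hc 0)
  obtain ⟨b, hb, hb'⟩ := h.realOK hR (hc 1)
  obtain ⟨e, he, he'⟩ := h.realOK hR (hc 2)
  obtain ⟨Y, hY1, t, -, ht, h1⟩ := (hY.2 a ha b hb e he).resolve_left (by simp [ha', hb', he', hc0])
  have h2 : (dm d 3 [[a, 0, 0], [0, b, 0], [0, 0, e]])ᵀ = diagonal c := by
    ext i j
    fin_cases i <;> fin_cases j <;> simp [dm_apply, ha', hb', he', h.zero]
  refine ⟨dm d 3 Y, d t, ht, by rw [← h.cjM, h.of_meq 3 _ _ (hY.1 Y hY1).2], ?_⟩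
  have h3 := h.of_meq 3 _ _ h1
  rwa [h.mmT 3 _ _ (by simp [CF.mmT, lmap_eq, CF.mv]), h.mmT 3 _ _ fun r hr => ((hY.1 Y hY1).1.2 r hr).le,
    h2, h.smM, h.idM] at h3

lemma nrmOK (h1 : K.nrmOK = true) {X : Matrix (Fin 3) (Fin 3) F} (hX : tw σ 1 X = 1)
    (hd : X.det = 1) {c : F} (hc : c ≠ 0) (hr : ∀ i j, σ (c * X i j) = c * X i j) :
    ∃ s : F, s ≠ 0 ∧ tw σ 1 (s • X) = 1 ∧ (s • X).det = 1 ∧
      ∀ i j, σ ((s • X) i j) = (s • X) i j := by
  obtain ⟨a, ha, rfl⟩ := h.surj c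
  have h2 : σ (d a * (d a * d a)) = d a * (d a * d a) := by
    have h3 : (d a • X).map σ = d a • X := by ext i j; exact hr i j
    have h4 := det_map' σ (d a • X)
    rw [h3, det_smul, hd, mul_one, Fintype.card_fin, pow_three] at h4
    exact h4.symm
  obtain ⟨s, -, h3⟩ := lany_iff.1 (imp_iff.1 (allLt_iff.1 h1 a ha) (by
    rw [h.eq, h.conj, h.mul, h.mul, h2]))
  simp only [Bool.and_eq_true, h.eq, h.mul, h.conj, h.one] at h3
  refine ⟨d s, fun h0 => by simp [h0] at h3, by rw [tw_smul_right, h3.2.1, one_smul, hX],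
    by rw [det_smul, hd, mul_one, Fintype.card_fin, pow_three, h3.1], fun i j => ?_⟩
  have := hr i j
  rw [map_mul] at this
  rw [Matrix.smul_apply, smul_eq_mul, map_mul]
  refine mul_left_cancel₀ ((map_ne_zero σ).2 hc) ?_
  linear_combination σ (d s) * this + X i j * h3.2.2

end CF.Sound

section SU

variable [Fintype F] {q : ℕ} (hF : Fintype.card F = q ^ 2) {σ : F →+* F} (hσ : ∀ x, σ x = x ^ q)
  {f : (ι → F) → (ι → F) → F} (hf : HForm σ 1 f)
include hF hσ hf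

lemma real_frame (hq : Odd q) (hn : Fintype.card ι = 3) {F₀ : Subfield F} {P : GL ι F}
    (h1 : Fintype.card F = Nat.card F₀ ^ 2) (h2 : IsFormRationalStructure f F₀ 1 P)
    (hW : ∀ c : Fin 3 → F, (∀ i, σ (c i) = c i) → (∀ i, c i ≠ 0) →
      ∃ (Y : Matrix (Fin 3) (Fin 3) F) (t : F), t ≠ 0 ∧ Y.map σ = Y ∧
        Y * diagonal c * Yᵀ = t • 1) :
    ∃ (e : ι ≃ Fin 3) (P' : GL ι F), frameGram f e P' = 1 ∧ ∀ g ∈ subfieldSubgroup F₀ P, ∀ X,
      (g : Matrix ι ι F) = frameEquiv e P' X → ∃ c : F, c ≠ 0 ∧ ∀ i j, σ (c * X i j) = c * X i j := by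
  haveI := nonempty_of_two_le (ι := ι) (by omega)
  have hF₀ : ∀ x, x ∈ F₀ ↔ σ x = x := fun x => by
    rw [mem_subfield_iff_pow, hσ, ← Nat.pow_left_injective two_ne_zero (hF.symm.trans h1)]
  have h2' : ∀ u v : ι → F, (∀ i, u i ∈ F₀) → (∀ i, v i ∈ F₀) →
      f ((P : Matrix ι ι F) *ᵥ u) ((P : Matrix ι ι F) *ᵥ v) ∈ F₀ := fun u v hu hv => by
    simpa using h2 u v hu hv
  let L : (ι → F₀) → ι → F := fun u => (P : Matrix ι ι F) *ᵥ fun i => (u i : F)
  have hL : ∀ u v, f (L u) (L v) ∈ F₀ := fun u v => h2' _ _ (fun i => (u i).2) fun i => (v i).2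
  have La : ∀ u v, L (u + v) = L u + L v := fun u v => by
    simp only [L, ← mulVec_add]; rfl
  have Ls : ∀ (c : F₀) u, L (c • u) = (c : F) • L u := fun c u => by
    simp only [L, ← mulVec_smul]; rfl
  let B : LinearMap.BilinForm F₀ (ι → F₀) := LinearMap.mk₂ F₀ (fun u v => ⟨_, hL u v⟩)
    (fun u u' v => Subtype.ext (by simp [La, hf.add_left]))
    (fun c u v => Subtype.ext (by simp [Ls, hf.smul_left]))
    (fun u v v' => Subtype.ext (by simp [La, hf.add_right]))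
    (fun c u v => Subtype.ext (by simp [Ls, hf.smul_right, (hF₀ c).1 c.2]))
  have hB : ∀ u v, (B u v : F) = f (L u) (L v) := fun u v => rfl
  letI : Invertible (2 : F₀) := invertibleOfNonzero fun h =>
    two_ne_zero_of_odd ((odd_card_iff_q hF).2 hq) (congrArg Subtype.val h)
  obtain ⟨b, hb⟩ := LinearMap.BilinForm.exists_orthogonal_basis (B := B)
    ⟨fun u v => Subtype.ext (by
      rw [RingHom.id_apply, hB, hB, hf.herm1, (hF₀ _).1 (hL _ _)])⟩
  have hsep : B.SeparatingLeft := fun u hu => by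
    have h3 : L u = 0 := hf.toSesq.eq_zero_of_right fun x => by
      have h4 : x = ∑ j, (((P⁻¹ : GL ι F) : Matrix ι ι F) *ᵥ x) j • L (Pi.single j 1) := by
        simp only [L, ← mulVec_smul, ← mulVec_sum]
        rw [← val_mulVec_inv P x, inv_mulVec_val]
        congr 1
        ext i
        simp [Finset.sum_apply, Pi.single_apply, apply_ite Subtype.val]
      rw [h4, hf.sum_right]
      exact Finset.sum_eq_zero fun j _ => by rw [hf.smul_right, ← hB, hu]; simp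
    ext i
    exact congrFun ((val_mulVec_eq_zero P).1 h3) i
  let e' : Fin 3 ≃ Fin (Module.finrank F₀ (ι → F₀)) := finCongr (by simp [hn])
  obtain ⟨Y, t, ht, hY, hYt⟩ := hW (fun i => f (L (b (e' i))) (L (b (e' i))))
    (fun i => hf.map_self _) fun i h0 =>
      hb.not_isOrtho_basis_self_of_separatingLeft hsep (e' i) (Subtype.ext h0)
  have hY' : ∀ i j, σ (Y i j) = Y i j := fun i j => congrFun (congrFun hY i) j
  let u : Fin 3 → ι → F₀ := fun i => ∑ k, (⟨Y i k, (hF₀ _).2 (hY' i k)⟩ : F₀) • b (e' k)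
  have hu : ∀ i j, f (L (u i)) (L (u j)) = t * if i = j then 1 else 0 := fun i j => by
    have h3 := congrFun (congrFun hYt i) j
    have h4 : ∀ k l, k ≠ l → B (b (e' k)) (b (e' l)) = 0 := fun k l hkl =>
      hb (e'.injective.ne hkl)
    rw [← hB]
    simp only [u, map_sum, LinearMap.sum_apply, map_smul, LinearMap.smul_apply, Fin.sum_univ_three,
      map_add, LinearMap.add_apply]
    simp [h4, hB]
    simp [mul_apply, Fin.sum_univ_three, one_apply] at h3
    rw [← h3]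
    ring
  have htσ : σ t = t := by
    have := hf.map_self (L (u 0))
    simpa [hu] using this
  obtain ⟨l, hl⟩ := exists_norm_eq hF hσ (d := t⁻¹) (by rw [map_inv₀, htσ])
  have hv : ∀ i j, f (l • L (u i)) (l • L (u j)) = if i = j then 1 else 0 := fun i j => by
    rw [hf.smul_left, hf.smul_right, hu, ← mul_assoc, hl, ← mul_assoc, inv_mul_cancel₀ ht, one_mul]
  have hli := hf.toSesq.linearIndependent_of_orthonormal hv
  obtain ⟨e, P', hP⟩ := exists_frame _ hli (hli.span_eq_top_of_card_eq_finrank' (by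
    simp [hn])).ge
  have hG := frameGram_eq_one hP hv
  refine ⟨e, P', hG, fun g hg X hX => ?_⟩
  obtain ⟨c, hc, hm⟩ := mem_subfieldSubgroup_iff.1 hg
  refine ⟨c, hc, fun i j => ?_⟩
  have h3 : X i j = f ((g : Matrix ι ι F) *ᵥ (l • L (u j))) (l • L (u i)) := by
    rw [← hP, ← hP, hX, frameEquiv_mulVec, hf.toSesq.frameGram_spec, hG]
    simp [gform, Pi.single_apply, dotProduct, apply_ite σ]
  have h4 : c • ((g : Matrix ι ι F) *ᵥ L (u j)) =
      (P : Matrix ι ι F) *ᵥ ((c • cj P⁻¹ (g : Matrix ι ι F)) *ᵥ fun i => (u j i : F)) := by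
    rw [smul_mulVec, mulVec_smul, cj_apply, inv_inv, ← mulVec_mulVec, ← mulVec_mulVec,
      val_mulVec_inv]
  have h5 := h2' ((c • cj P⁻¹ (g : Matrix ι ι F)) *ᵥ fun i => (u j i : F)) (fun k => (u i k : F))
    (fun k => F₀.sum_mem fun m _ => F₀.mul_mem (hm k m) (u j m).2) fun k => (u i k).2
  rw [← h4, hf.smul_left] at h5
  rw [← hF₀, h3, mulVec_smul, hf.smul_left, hf.smul_right, ← mul_assoc l, hl, mul_left_comm]
  exact F₀.mul_mem (F₀.inv_mem ((hF₀ t).2 htσ)) h5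

end SU

end Cfsg.Agent.H7
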