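import Cfsg.Agent.H7.AschSU4

set_option autoImplicit false
set_option linter.unusedSectionVars false
set_option linter.unusedVariables false
set_option linter.unnecessarySimpa false
set_option linter.style.haveILetI false
set_option linter.unusedSimpArgs false

/-! Unitary elements of adjoint-closed subfields of the matrix algebra; Singer elements. -/

namespace Cfsg.Agent.H7

open Cfsg Cfsg.Geo Matrix
open scoped MatrixGroups Kronecker commutatorElement

variable {ι : Type} [Fintype ι] [DecidableEq ι] {F : Type*} [Field F]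

lemma conj_of_sq_not_dvd {G : Type*} [Group G] [Finite G] {l : ℕ} [hl : Fact l.Prime]
    (h : ¬ l ^ 2 ∣ Nat.card G) {x y : G} (hx : orderOf x = l) (hy : orderOf y = l) :
    ∃ g : G, g * x * g⁻¹ ∈ Subgroup.zpowers y := by
  have hp : ∀ z : G, orderOf z = l → IsPGroup l (Subgroup.zpowers z) := fun z hz =>
    IsPGroup.of_card (n := 1) (by rw [Nat.card_zpowers, hz, pow_one])
  obtain ⟨P, hP⟩ := (hp x hx).exists_le_sylow
  obtain ⟨Q, hQ⟩ := (hp y hy).exists_le_sylow
  obtain ⟨g, hg⟩ := MulAction.exists_smul_eq G P Q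
  obtain ⟨k, hk⟩ := IsPGroup.iff_card.1 Q.isPGroup'
  have hk1 : k ≤ 1 := by
    by_contra h1
    exact h ((pow_dvd_pow l (by omega)).trans (hk ▸ Subgroup.card_subgroup_dvd_card _))
  have hQ' : Subgroup.zpowers y = Q := by
    refine Subgroup.eq_of_le_of_card_ge hQ ?_
    rw [Nat.card_zpowers, hy, hk]
    calc l ^ k ≤ l ^ 1 := Nat.pow_le_pow_right hl.out.pos hk1
      _ = l := pow_one l
  refine ⟨g, ?_⟩
  rw [hQ', ← hg, Sylow.coe_subgroup_smul]
  exact Subgroup.smul_mem_pointwise_smul _ _ _ (hP (Subgroup.mem_zpowers x))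

lemma frameEquiv_mul_left {κ : Type} [Fintype κ] [DecidableEq κ] (e : ι ≃ κ) (g P : GL ι F)
    (X : Matrix κ κ F) : frameEquiv e (g * P) X = cj g (frameEquiv e P X) := by
  rw [frameEquiv_apply, frameEquiv_apply, cj_mul]

lemma frameGram_mul_left {κ : Type} [Fintype κ] [DecidableEq κ] {f : (ι → F) → (ι → F) → F}
    (e : ι ≃ κ) {g : GL ι F} (P : GL ι F)
    (hg : ∀ u v, f ((g : Matrix ι ι F) *ᵥ u) ((g : Matrix ι ι F) *ᵥ v) = f u v) :
    frameGram f e (g * P) = frameGram f e P := by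
  ext x y
  simp only [frameGram_apply, frameVec_apply, Units.val_mul, ← mulVec_mulVec, hg]

lemma IsFieldSubalgebra.card [Fintype F] {r : ℕ} {K : Subalgebra F (Matrix ι ι F)}
    (hK : IsFieldSubalgebra r K) : Nat.card K = Fintype.card F ^ r := by
  rw [Module.natCard_eq_pow_finrank (K := F), hK.finrank_eq, Nat.card_eq_fintype_card]

lemma tw_transpose_one {σ : F →+* F} {X : Matrix ι ι F} (h : tw σ 1 X = 1) : tw σ 1 Xᵀ = 1 := by
  rw [tw, mul_one] at h ⊢
  have := congrArg transpose (mul_eq_one_comm.1 h)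
  rwa [transpose_mul, transpose_transpose, transpose_one, ← transpose_map] at this

section SU

variable [Fintype F] {q : ℕ} (hF : Fintype.card F = q ^ 2) {σ : F →+* F} (hσ : ∀ x, σ x = x ^ q)
  {f : (ι → F) → (ι → F) → F} (hf : HForm σ 1 f)
include hF hσ hf

lemma HForm.isom_of_pow [Nonempty ι] {r : ℕ} {K : Subalgebra F (Matrix ι ι F)}
    (hK : IsFieldSubalgebra r K) (hadj : IsAdjointClosedFor f K) {x : Matrix ι ι F} (hx : x ∈ K)
    {m : ℕ} (hm0 : m ≠ 0) (hm : Nat.Coprime m (q ^ r - 1)) {c : F} (hc : c * σ c = 1)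
    (h : x ^ m = c • 1) (u v : ι → F) : f (x *ᵥ u) (x *ᵥ v) = f u v := by
  have hadj' := hf.adj_mem_of_isAdjointClosedFor hadj
  letI : Field K := (isField_of_subalgebra hK.comm hK.inv).toField
  obtain ⟨a, ha⟩ := qHom_ne hF hσ
  let φ := hf.adjHom hK.comm hadj'
  have h1 : ∀ a, φ (algebraMap F K a) = algebraMap F K (σ a) := fun a => by
    apply Subtype.ext
    change adj σ f (algebraMap F (Matrix ι ι F) a) = algebraMap F (Matrix ι ι F) (σ a)
    rw [Algebra.algebraMap_eq_smul_one, Algebra.algebraMap_eq_smul_one, hf.adj_smul, hf.adj_one]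
  have hφ : ∀ x, φ (φ x) = x := fun x => Subtype.ext (hf.adj_adj _)
  have h2 : φ (algebraMap F K a) ≠ algebraMap F K a := by
    rw [h1]
    exact fun h => ha ((algebraMap F K).injective h)
  have h3 := card_eq_sq_of_invol φ hφ h2
  rw [IsFieldSubalgebra.card hK, hF, ← pow_mul, mul_comm, pow_mul] at h3
  have h4 := Nat.pow_left_injective two_ne_zero h3
  let y : K := ⟨x, hx⟩
  have hy : y ^ m = algebraMap F K c := Subtype.ext (by
    rw [SubmonoidClass.coe_pow]
    exact h.trans (Algebra.algebraMap_eq_smul_one c).symm)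
  have h5 : (φ y * y) ^ m = 1 := by
    rw [mul_pow, ← map_pow, hy, h1, ← map_mul, mul_comm, hc, map_one]
  have h6 : (φ y * y) ^ q ^ r = φ y * y := by
    rw [show q ^ r = Nat.card (fixField φ) from h4, ← mem_subfield_iff_pow, mem_fixField, map_mul,
      hφ, mul_comm]
  have h7 : (φ y * y) ^ (q ^ r - 1) = 1 := by
    have h0 : φ y * y ≠ 0 := fun h0 => by
      rw [h0, zero_pow hm0] at h5
      exact zero_ne_one h5
    refine mul_right_cancel₀ h0 ?_
    rw [← pow_succ, Nat.sub_add_cancel (Nat.one_le_pow _ _ (by have := two_le_q hF; omega)), h6,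
      one_mul]
  have h8 : φ y * y = 1 := by
    have := pow_gcd_eq_one.2 ⟨h5, h7⟩
    rwa [hm, pow_one] at this
  have h9 : adj σ f x * x = 1 := congrArg Subtype.val h8
  rw [hf.adj_spec, mulVec_mulVec, h9, one_mulVec]

lemma HForm.exists_extend {α : Type} [Fintype α] [DecidableEq α]
    (hα : Fintype.card α < Fintype.card ι) {v : α → ι → F}
    (hvv : ∀ i j, f (v i) (v j) = if i = j then 1 else 0) :
    ∃ w, f w w = 1 ∧ ∀ i, f w (v i) = 0 := by
  let L : (ι → F) →ₗ[F] (α → F) :=
    { toFun := fun x i => f x (v i)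
      map_add' := fun x y => by ext i; exact hf.add_left _ _ _
      map_smul' := fun c x => by ext i; exact hf.smul_left _ _ _ }
  obtain ⟨x, hx, hx0⟩ := Submodule.exists_mem_ne_zero_of_ne_bot
    (LinearMap.ker_ne_bot_of_finrank_lt (f := L) (by simpa using hα))
  have hx1 : ∀ i, f x (v i) = 0 := fun i => congrFun (LinearMap.mem_ker.1 hx) i
  obtain ⟨y, hxy⟩ : ∃ y, f x y ≠ 0 := by
    by_contra h
    push Not at h
    exact hx0 (hf.toSesq.eq_zero_of_right h)
  have hy' : y - ∑ i, f y (v i) • v i ∈ LinearMap.ker L := by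
    ext j
    change f _ (v j) = 0
    rw [hf.sub_left, hf.sum_left]
    simp [hf.smul_left, hvv]
  obtain ⟨w, hw, hww⟩ := hf.exists_aniso (qHom_ne hF hσ) hx hy' (by
    rw [hf.sub_right, hf.sum_right]
    simpa [hf.smul_right, hx1] using hxy)
  obtain ⟨c, hc⟩ := hf.exists_unit hF hσ hww (map_one σ)
  exact ⟨c • w, hc, fun i => by
    rw [hf.smul_left, show f w (v i) = 0 from congrFun (LinearMap.mem_ker.1 hw) i, mul_zero]⟩

/-- an adjoint-closed subfield contains a conjugate of a given unitary element of suitable prime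
order -/
lemma HForm.exists_singer {n : ℕ} (hn : Fintype.card ι = n) (hn0 : 0 < n) {r : ℕ}
    {K : Subalgebra F (Matrix ι ι F)} (hK : IsFieldSubalgebra r K) (hadj : IsAdjointClosedFor f K)
    {l : ℕ} (hl : l.Prime) (h1 : l ∣ (q ^ 2) ^ r - 1) (h2 : Nat.Coprime l (q ^ r - 1))
    (h3 : ¬ l ^ 2 ∣ ∏ i : Fin n, ((q ^ 2) ^ n - (q ^ 2) ^ (i : ℕ))) {C : Matrix (Fin n) (Fin n) F}
    (hC : tw σ 1 C = 1) (hC1 : C ≠ 1) (hCl : C ^ l = 1) :
    ∃ (e : ι ≃ Fin n) (P : GL ι F), frameGram f e P = 1 ∧ frameEquiv e P C ∈ K ∧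
      ∀ g ∈ subalgebraNormalizer K, ∀ X, (g : Matrix ι ι F) = frameEquiv e P X →
        ∃ j, X * C = C ^ j * X := by
  haveI : Nonempty ι := Fintype.card_pos_iff.1 (by omega)
  haveI := Fact.mk hl
  haveI : NeZero l := ⟨hl.ne_zero⟩
  letI : Field K := (isField_of_subalgebra hK.comm hK.inv).toField
  obtain ⟨θ, hθ⟩ := exists_prime_orderOf_dvd_card' (G := Kˣ) l (by
    rw [Nat.card_units, IsFieldSubalgebra.card hK, hF]; exact h1)
  let G := preserving (Units.coeHom (Matrix ι ι F)) f
  let t : GL ι F := Units.map (K.val : K →* Matrix ι ι F) θ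
  have hinj : Function.Injective (Units.map (K.val : K →* Matrix ι ι F)) :=
    Units.map_injective Subtype.val_injective
  have ht : orderOf t = l := (orderOf_injective _ hinj θ).trans hθ
  have htG : t ∈ G := hf.isom_of_pow hF hσ hK hadj (θ : K).2 hl.ne_zero h2 (c := 1) (by simp) (by
    have := congrArg Units.val (pow_orderOf_eq_one t)
    rw [ht, Units.val_pow_eq_pow_val] at this
    rw [one_smul]; exact this)
  obtain ⟨e, P, hG⟩ := hf.exists_on_frame hF hσ hn
  have hd : C.det ≠ 0 := fun h => by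
    have := congrArg det hCl
    rw [det_pow, h, zero_pow hl.ne_zero, det_one] at this
    exact zero_ne_one this
  let c := frameElt e P C hd
  have hcG : c ∈ G := fun u v => by
    have := hf.toSesq.sim_of_frameGram e P (X := C) (c := 1) (by rw [hG, hC, one_smul]) u v
    rwa [one_mul] at this
  have hc : orderOf c = l := orderOf_eq_prime
    (Units.ext (by rw [Units.val_pow_eq_pow_val, frameElt_val, ← map_pow, hCl, map_one]; rfl))
    fun h => hC1 ((frameEquiv e P).injective (by
      rw [← frameElt_val e P C hd, map_one]; exact congrArg Units.val h))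
  obtain ⟨⟨g₀, hg₁⟩, hg₀⟩ := conj_of_sq_not_dvd (G := G) (l := l) (fun h => h3 (by
    have := h.trans (Subgroup.card_subgroup_dvd_card G)
    rwa [← Nat.card_congr (frameGL e P).toEquiv, card_GL_field, hF] at this))
    (x := ⟨c, hcG⟩) (y := ⟨t, htG⟩) ((Subgroup.orderOf_mk _ _).trans hc)
    ((Subgroup.orderOf_mk _ _).trans ht)
  obtain ⟨k, hk⟩ := Subgroup.mem_zpowers_iff.1 hg₀
  have hk' : Units.map (K.val : K →* Matrix ι ι F) (θ ^ k) = g₀ * c * g₀⁻¹ := by
    rw [map_zpow]; exact congrArg Subtype.val hk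
  have hC' : frameEquiv e (g₀ * P) C = ((θ ^ k : Kˣ) : K) := by
    rw [frameEquiv_mul_left, ← frameElt_val e P C hd, cj_val, ← hk']; rfl
  have hmem : frameEquiv e (g₀ * P) C ∈ K := hC' ▸ ((θ ^ k : Kˣ) : K).2
  refine ⟨e, g₀ * P, (frameGram_mul_left e P hg₁).trans hG, hmem, fun g hg X hX => ?_⟩
  have hprim : IsPrimitiveRoot (⟨_, hmem⟩ : K) l := by
    have : orderOf (⟨_, hmem⟩ : K) = l := orderOf_eq_prime
      (Subtype.ext (by rw [SubmonoidClass.coe_pow, ← map_pow, hCl, map_one]; rfl))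
      fun h => hC1 ((frameEquiv e (g₀ * P)).injective (by
        rw [map_one]; exact congrArg Subtype.val h))
    exact this ▸ IsPrimitiveRoot.orderOf _
  obtain ⟨j, -, hj⟩ := hprim.eq_pow_of_pow_eq_one (ξ := ⟨_, (hg _).1 hmem⟩) (Subtype.ext (by
    rw [SubmonoidClass.coe_pow]
    change cj g _ ^ l = 1
    rw [← map_pow, ← map_pow, hCl, map_one, map_one]))
  refine ⟨j, (frameEquiv e (g₀ * P)).injective ?_⟩
  have hj' : frameEquiv e (g₀ * P) C ^ j = cj g (frameEquiv e (g₀ * P) C) := by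
    have := congrArg Subtype.val hj
    rwa [SubmonoidClass.coe_pow] at this
  rw [map_mul, map_mul, map_pow, hj', ← hX, cj_mul_val]

end SU

end Cfsg.Agent.H7
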