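import Cfsg.Agent.H7.AschHerm
import Cfsg.Agent.H7.AschCode

set_option autoImplicit false
set_option linter.unusedSectionVars false
set_option linter.unusedVariables false
set_option linter.unnecessarySimpa false
set_option linter.style.haveILetI false
set_option linter.unusedSimpArgs false

/-! The normal subgroup of order 27 of `GU_3(2)` and its tensor powers. -/

namespace Cfsg.Agent.H7

open Cfsg Cfsg.Geo Matrix
open scoped MatrixGroups Kronecker commutatorElement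

variable {ι : Type} [Fintype ι] [DecidableEq ι] {F : Type*} [Field F]

/-- well-formed coded square matrices -/
def wf (n : ℕ) (M : List (List ℕ)) : Prop := M.length = n ∧ ∀ r ∈ M, r.length = n

instance (n : ℕ) (M : List (List ℕ)) : Decidable (wf n M) := by unfold wf; infer_instance

lemma wf_mm {K : CF} {n : ℕ} {A : List (List ℕ)} (hA : wf n A) (B : List (List ℕ)) :
    wf n (K.mm n A B) := by
  refine ⟨by simp [CF.mm, CF.mmT, hA.1], fun r hr => ?_⟩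
  rw [CF.mm, CF.mmT, lmap_eq, List.mem_map] at hr
  obtain ⟨a, -, rfl⟩ := hr
  simp [CF.mv, CF.tr]

/-- scalar multiple of a coded matrix -/
def CF.smM (K : CF) (c : ℕ) (M : List (List ℕ)) : List (List ℕ) := lmap (K.sm c) M

/-- entrywise conjugate of a coded matrix -/
def CF.cjM (K : CF) (M : List (List ℕ)) : List (List ℕ) := lmap (lmap K.cj) M

lemma wf_smM {K : CF} {n : ℕ} {A : List (List ℕ)} (hA : wf n A) (c : ℕ) : wf n (K.smM c A) := by
  refine ⟨by simp [CF.smM, hA.1], fun r hr => ?_⟩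
  rw [CF.smM, lmap_eq, List.mem_map] at hr
  obtain ⟨a, ha, rfl⟩ := hr
  simp [CF.sm, hA.2 a ha]

lemma wf_cjM {K : CF} {n : ℕ} {A : List (List ℕ)} (hA : wf n A) : wf n (K.cjM A) := by
  refine ⟨by simp [CF.cjM, hA.1], fun r hr => ?_⟩
  rw [CF.cjM, lmap_eq, List.mem_map] at hr
  obtain ⟨a, ha, rfl⟩ := hr
  simp [hA.2 a ha]

lemma wf_tr {n : ℕ} {A : List (List ℕ)} (hA : wf n A) : wf n (CF.tr n A) := by
  refine ⟨by simp [CF.tr], fun r hr => ?_⟩
  rw [CF.tr, lmap_eq, List.mem_map] at hr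
  obtain ⟨a, ha, rfl⟩ := hr
  simp [hA.1]

/-- enumeration of the unitary `3 × 3` matrices -/
def CF.allU3 (K : CF) (p : List (List ℕ) → Bool) : Bool :=
  K.allV 3 fun a => imp (K.eqb (K.hm a a) 1) (K.allV 3 fun b =>
    imp (K.eqb (K.hm a b) 0) (imp (K.eqb (K.hm b b) 1) (K.allV 3 fun c =>
      imp (K.eqb (K.hm a c) 0) (imp (K.eqb (K.hm b c) 0) (imp (K.eqb (K.hm c c) 1) (p [a, b, c]))))))

/-- coded identity matrix -/
def idM (n : ℕ) : List (List ℕ) :=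
  (List.range n).map fun i => (List.range n).map fun j => if i = j then 1 else 0

lemma wf_idM (n : ℕ) : wf n (idM n) := by
  refine ⟨by simp [idM], fun r hr => ?_⟩
  rw [idM, List.mem_map] at hr
  obtain ⟨a, -, rfl⟩ := hr
  simp

lemma rows_of_tw {σ : F →+* F} (hσ : ∀ a, σ (σ a) = a) {X : Matrix ι ι F} (h : tw σ 1 X = 1)
    (i j : ι) : X i ⬝ᵥ (σ ∘ X j) = if i = j then 1 else 0 := by
  rw [tw, mul_one, mul_eq_one_comm] at h
  have h1 := congrArg σ (congrFun (congrFun h i) j)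
  rw [mul_apply, map_sum] at h1
  simp only [map_apply, transpose_apply, map_mul, hσ, one_apply, apply_ite σ, map_one,
    map_zero] at h1
  exact h1

namespace CF.Sound

variable {K : CF} {σ : F →+* F} {d : ℕ → F} (h : K.Sound σ d)
include h

lemma mm' {n : ℕ} {A : List (List ℕ)} (hA : wf n A) (B : List (List ℕ)) :
    dm d n (K.mm n A B) = dm d n A * dm d n B := h.mm n A B fun r hr => (hA.2 r hr).le

lemma meq_iff {n : ℕ} {A B : List (List ℕ)} (hA : wf n A) (hB : wf n B) :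
    K.meq A B = true ↔ dm d n A = dm d n B :=
  ⟨h.of_meq n A B, h.meq_of n A B hA.1 hB.1 hA.2 hB.2⟩

lemma smM (n : ℕ) (c : ℕ) (A : List (List ℕ)) : dm d n (K.smM c A) = d c • dm d n A := by
  ext i j
  have : (K.smM c A).getD i [] = K.sm c (A.getD i []) := getD_lmap (K.sm c) A [] i
  change dv d n ((K.smM c A).getD i []) j = _
  rw [this, h.sm]
  rfl

lemma cjM (n : ℕ) (A : List (List ℕ)) : dm d n (K.cjM A) = (dm d n A).map σ := by
  ext i j
  have : (K.cjM A).getD i [] = lmap K.cj (A.getD i []) := getD_lmap (lmap K.cj) A [] i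
  change dv d n ((K.cjM A).getD i []) j = _
  rw [this, h.cjv]
  rfl

lemma idM (n : ℕ) : dm d n (idM n) = 1 := by
  ext i j
  rw [dm_apply, H7.idM]
  simp only [List.getD_eq_getElem?_getD, List.getElem?_map, List.getElem?_range i.2,
    List.getElem?_range j.2, Option.map_some, Option.getD_some, one_apply, Fin.ext_iff]
  split_ifs
  · exact h.one
  · exact h.zero

lemma tw_one_iff {n : ℕ} {A : List (List ℕ)} (hA : wf n A) :
    K.meq (K.mm n (CF.tr n A) (K.cjM A)) (H7.idM n) = true ↔ tw σ 1 (dm d n A) = 1 := by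
  rw [h.meq_iff (wf_mm (wf_tr hA) _) (wf_idM n), h.mm' (wf_tr hA), h.tr, h.cjM, h.idM, tw, mul_one]

lemma allU3 (hσ : ∀ a, σ (σ a) = a) {p : List (List ℕ) → Bool} (hp : K.allU3 p = true)
    {X : Matrix (Fin 3) (Fin 3) F} (hX : tw σ 1 X = 1) :
    ∃ a b c : List ℕ, wf 3 [a, b, c] ∧ dm d 3 [a, b, c] = X ∧ p [a, b, c] = true := by
  have hr := rows_of_tw hσ hX
  obtain ⟨a, ha, ha1, h1⟩ := h.allV 3 _ hp (X 0)
  have h2 := imp_iff.1 h1 (by rw [h.eq, h.hm 3 _ _ ha.le, ha1, hr, h.one]; simp)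
  obtain ⟨b, hb, hb1, h3⟩ := h.allV 3 _ h2 (X 1)
  have h4 := imp_iff.1 (imp_iff.1 h3 (by rw [h.eq, h.hm 3 _ _ hb.le, ha1, hb1, hr, h.zero]; simp))
    (by rw [h.eq, h.hm 3 _ _ hb.le, hb1, hr, h.one]; simp)
  obtain ⟨c, hc, hc1, h5⟩ := h.allV 3 _ h4 (X 2)
  have h6 := imp_iff.1 (imp_iff.1 (imp_iff.1 h5
    (by rw [h.eq, h.hm 3 _ _ hc.le, ha1, hc1, hr, h.zero]; simp))
    (by rw [h.eq, h.hm 3 _ _ hc.le, hb1, hc1, hr, h.zero]; simp))
    (by rw [h.eq, h.hm 3 _ _ hc.le, hc1, hr, h.one]; simp)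
  exact ⟨a, b, c, ⟨rfl, by simp [ha, hb, hc]⟩, dm_rows3 d ha1 hb1 hc1, h6⟩

end CF.Sound

/-- the 27 elements -/
def L27 : List (List (List ℕ)) :=
  [[[0, 0, 1], [1, 0, 0], [0, 1, 0]], [[0, 0, 1], [2, 0, 0], [0, 3, 0]], [[0, 0, 1], [3, 0, 0], [0, 2, 0]], [[0, 0, 2], [1, 0, 0], [0, 3, 0]], [[0, 0, 2], [2, 0, 0], [0, 2, 0]], [[0, 0, 2], [3, 0, 0], [0, 1, 0]], [[0, 0, 3], [1, 0, 0], [0, 2, 0]], [[0, 0, 3], [2, 0, 0], [0, 1, 0]], [[0, 0, 3], [3, 0, 0], [0, 3, 0]], [[0, 1, 0], [0, 0, 1], [1, 0, 0]], [[0, 1, 0], [0, 0, 2], [3, 0, 0]], [[0, 1, 0], [0, 0, 3], [2, 0, 0]], [[0, 2, 0], [0, 0, 1], [3, 0, 0]], [[0, 2, 0], [0, 0, 2], [2, 0, 0]], [[0, 2, 0], [0, 0, 3], [1, 0, 0]], [[0, 3, 0], [0, 0, 1], [2, 0, 0]], [[0, 3, 0], [0, 0, 2], [1, 0, 0]], [[0, 3, 0], [0, 0, 3], [3, 0, 0]], [[1, 0, 0], [0, 1, 0], [0, 0, 1]], [[1, 0, 0], [0, 2, 0], [0, 0, 3]], [[1, 0, 0], [0, 3, 0], [0, 0, 2]], [[2, 0, 0], [0, 1, 0],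 [0, 0, 3]], [[2, 0, 0], [0, 2, 0], [0, 0, 2]], [[2, 0, 0], [0, 3, 0], [0, 0, 1]], [[3, 0, 0], [0, 1, 0], [0, 0, 2]], [[3, 0, 0], [0, 2, 0], [0, 0, 1]], [[3, 0, 0], [0, 3, 0], [0, 0, 3]]]

lemma r27_a : K4.allU3 (fun M => imp (K4.eqb (K4.dt3 1 (M.getD 0 []) (M.getD 1 []) (M.getD 2 [])) 1)
    (imp (K4.meq (K4.mm 3 (K4.mm 3 M M) M) (idM 3)) (lany L27 fun x => K4.meq M x))) = true := by
  decide +kernel

lemma r27_b : lall L27 (fun x => lall L27 fun y =>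
    K4.meq (K4.mm 3 (K4.mm 3 (K4.mm 3 x y) (K4.mm 3 x y)) (K4.mm 3 x y)) (idM 3) &&
      lany [1, 2, 3] fun c => K4.meq (K4.mm 3 x y) (K4.smM c (K4.mm 3 y x))) = true := by
  decide +kernel

/-- the Fourier matrix -/
def s27 : List (List ℕ) := [[1, 1, 1], [1, 2, 3], [1, 3, 2]]
/-- its inverse -/
def s27' : List (List ℕ) := [[1, 1, 1], [1, 3, 2], [1, 2, 3]]

lemma r27_c : lall L27 (fun x => (lany [1, 2, 3] fun c => K4.meq x (K4.smM c (idM 3))) ||
    !K4.meq (K4.mm 3 x (K4.mm 3 (K4.mm 3 s27 x) s27'))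
      (K4.mm 3 (K4.mm 3 (K4.mm 3 s27 x) s27') x)) = true := by
  decide +kernel

lemma wf_L27 : ∀ x ∈ L27, wf 3 x := by decide

/-- membership condition -/
def P27 (σ : F →+* F) (X : Matrix (Fin 3) (Fin 3) F) : Prop :=
  tw σ 1 X = 1 ∧ X.det = 1 ∧ X * X * X = 1

section
variable {σ : F →+* F} {d : ℕ → F} (h : K4.Sound σ d) (hσ : ∀ a, σ (σ a) = a)
include h hσ

lemma P27.exists_code {X : Matrix (Fin 3) (Fin 3) F} (hX : P27 σ X) : ∃ x ∈ L27, dm d 3 x = X := by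
  have h2 : d 1 = -1 := by
    have := h.add 1 1
    rw [show K4.ad 1 1 = 0 by decide, h.zero] at this
    rw [h.one] at this ⊢
    linear_combination -this
  obtain ⟨a, b, c, hw, hM, hp⟩ := h.allU3 hσ r27_a hX.1
  have h3 := imp_iff.1 (imp_iff.1 hp (by
    change K4.eqb (K4.dt3 1 a b c) 1 = true
    rw [h.eq, h.dt3 h2, hM, hX.2.1, h.one])) (by
    rw [h.meq_iff (wf_mm (wf_mm hw _) _) (wf_idM 3), h.mm' (wf_mm hw _), h.mm' hw, hM, h.idM,
      hX.2.2])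
  obtain ⟨x, hx, h4⟩ := lany_iff.1 h3
  exact ⟨x, hx, by rw [← hM, h.of_meq 3 _ _ h4]⟩

lemma P27.mul {X Y : Matrix (Fin 3) (Fin 3) F} (hX : P27 σ X) (hY : P27 σ Y) :
    P27 σ (X * Y) ∧ ∃ c : F, X * Y = c • (Y * X) := by
  obtain ⟨x, hx, rfl⟩ := hX.exists_code h hσ
  obtain ⟨y, hy, rfl⟩ := hY.exists_code h hσ
  have h1 := lall_iff.1 (lall_iff.1 r27_b x hx) y hy
  rw [Bool.and_eq_true] at h1
  have wx := wf_L27 x hx
  have wy := wf_L27 y hy
  refine ⟨⟨by rw [tw_mul, hX.1, hY.1], by rw [det_mul, hX.2.1, hY.2.1, one_mul], ?_⟩, ?_⟩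
  · have := h.of_meq 3 _ _ h1.1
    rwa [h.mm' (wf_mm (wf_mm wx _) _), h.mm' (wf_mm wx _), h.mm' wx, h.idM] at this
  · obtain ⟨c, -, hc⟩ := lany_iff.1 h1.2
    have := h.of_meq 3 _ _ hc
    rw [h.smM, h.mm' wx, h.mm' wy] at this
    exact ⟨_, this⟩

lemma exists_s27 : ∃ S : GL (Fin 3) F, tw σ 1 (S : Matrix (Fin 3) (Fin 3) F) = 1 ∧
    ∀ X, P27 σ X → IsScal X ∨ X * cj S X ≠ cj S X * X := by
  have w : wf 3 s27 := by decide
  have w' : wf 3 s27' := by decide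
  have h1 : dm d 3 s27 * dm d 3 s27' = 1 := by
    rw [← h.mm' w, ← h.idM]
    exact h.of_meq 3 _ _ (by decide +kernel)
  refine ⟨⟨dm d 3 s27, dm d 3 s27', h1, mul_eq_one_comm.1 h1⟩,
    (h.tw_one_iff w).1 (by decide +kernel), fun X hX => ?_⟩
  obtain ⟨x, hx, rfl⟩ := hX.exists_code h hσ
  have wx := wf_L27 x hx
  have h2 := lall_iff.1 r27_c x hx
  rw [Bool.or_eq_true] at h2
  refine h2.imp (fun h3 => ?_) fun h3 h4 => ?_
  · obtain ⟨c, -, hc⟩ := lany_iff.1 h3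
    exact ⟨d c, by rw [h.of_meq 3 _ _ hc, h.smM, h.idM]⟩
  · rw [(h.meq_iff (wf_mm wx _) (wf_mm (wf_mm (wf_mm w _) _) _)).2 (by
      rw [h.mm' wx, h.mm' (wf_mm (wf_mm w _) _), h.mm' (wf_mm w _), h.mm' w]
      exact h4)] at h3
    simp at h3

lemma P27.of_code {x : List (List ℕ)} (hx : x ∈ L27) : P27 σ (dm d 3 x) := by
  have h2 : d 1 = -1 := by
    have := h.add 1 1
    rw [show K4.ad 1 1 = 0 by decide, h.zero] at this
    rw [h.one] at this ⊢
    linear_combination -this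
  have h1 : lall L27 (fun x => K4.meq (K4.mm 3 (CF.tr 3 x) (K4.cjM x)) (idM 3) &&
      (K4.eqb (K4.dt3 1 (x.getD 0 []) (x.getD 1 []) (x.getD 2 [])) 1 &&
        K4.meq (K4.mm 3 (K4.mm 3 x x) x) (idM 3))) = true := by decide +kernel
  have h3 := lall_iff.1 h1 x hx
  have wx := wf_L27 x hx
  simp only [Bool.and_eq_true] at h3
  refine ⟨(h.tw_one_iff wx).1 h3.1, ?_, ?_⟩
  · have := (h.eq _ _).1 h3.2.1
    rw [h.dt3 h2, h.one] at this
    rw [← this]
    congr 1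
    exact (dm_rows3 d rfl rfl rfl).symm
  · have := h.of_meq 3 _ _ h3.2.2
    rwa [h.mm' (wf_mm wx _), h.mm' wx, h.idM] at this

lemma P27.span {A : Subalgebra F (Matrix (Fin 3) (Fin 3) F)} (hA : ∀ X, P27 σ X → X ∈ A)
    (X : Matrix (Fin 3) (Fin 3) F) : X ∈ A := by
  have hC := hA _ (P27.of_code h hσ (x := [[0, 0, 1], [1, 0, 0], [0, 1, 0]]) (by decide))
  have hD := hA _ (P27.of_code h hσ (x := [[1, 0, 0], [0, 2, 0], [0, 0, 3]]) (by decide))
  have hD' := hA _ (P27.of_code h hσ (x := [[1, 0, 0], [0, 3, 0], [0, 0, 2]]) (by decide))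
  have h1 : d 1 + d 1 = 0 := by rw [← h.add, ← h.zero]; rfl
  have h2 : d 2 + d 3 = 1 := by rw [← h.add, ← h.one]; rfl
  rw [h.one] at h1
  have hE : Matrix.single (0 : Fin 3) (0 : Fin 3) (1 : F) ∈ A := by
    convert A.add_mem (A.add_mem A.one_mem hD) hD' using 1
    ext i j
    fin_cases i <;> fin_cases j <;> simp [dm_apply, h.zero, h.one]
    · exact h1
    · linear_combination -h1 - h2
    · linear_combination -h1 - h2
  set C := dm d 3 [[0, 0, 1], [1, 0, 0], [0, 1, 0]] with hCd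
  have hC' : C = !![0, 0, 1; 1, 0, 0; 0, 1, 0] := by
    ext i j
    fin_cases i <;> fin_cases j <;> simp [hCd, dm_apply, h.zero, h.one]
  have h3 : ∀ i j : Fin 3, C * Matrix.single i j (1 : F) = Matrix.single (i + 1) j 1 := by
    intro i j
    rw [hC']
    ext k l
    rw [mul_apply, Fin.sum_univ_three]
    fin_cases i <;> fin_cases k <;> simp [Matrix.single_apply]
  have h4 : ∀ i j : Fin 3, Matrix.single i (j + 1) (1 : F) * C = Matrix.single i j 1 := by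
    intro i j
    rw [hC']
    ext k l
    rw [mul_apply, Fin.sum_univ_three]
    fin_cases j <;> fin_cases l <;> simp [Matrix.single_apply]
  have h5 : ∀ i, Matrix.single i (0 : Fin 3) (1 : F) ∈ A := by
    have a1 := A.mul_mem hC hE
    rw [h3] at a1
    have a2 := A.mul_mem hC a1
    rw [h3] at a2
    intro i
    fin_cases i
    · exact hE
    · exact a1
    · exact a2
  have h6 : ∀ i j, Matrix.single i j (1 : F) ∈ A := by
    intro i j
    have a1 := A.mul_mem (h5 i) hC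
    rw [show (0 : Fin 3) = 2 + 1 from rfl, h4] at a1
    have a2 := A.mul_mem a1 hC
    rw [show (2 : Fin 3) = 1 + 1 from rfl, h4] at a2
    fin_cases j
    · exact h5 i
    · exact a2
    · exact a1
  rw [mat_eq_sum_single X]
  exact A.sum_mem fun i _ => A.sum_mem fun j _ => A.smul_mem (h6 i j) _

end

end Cfsg.Agent.H7
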