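import Cfsg.Agent.H7.AschR27

set_option autoImplicit false
set_option linter.unusedSectionVars false
set_option linter.unusedVariables false
set_option linter.unnecessarySimpa false
set_option linter.style.haveILetI false
set_option linter.unusedSimpArgs false

/-! Aschbacher's theorem, unitary case. -/

namespace Cfsg.Agent.H7

open Cfsg Cfsg.Geo Matrix
open scoped MatrixGroups Kronecker commutatorElement

variable {ι : Type} [Fintype ι] [DecidableEq ι] {F : Type*} [Field F]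

section Pt
variable {T α : Type} [Fintype T] [DecidableEq T] [Fintype α] [DecidableEq α]

/-- pure tensors as a homomorphism -/
def ptHom (T α : Type) [Fintype T] [DecidableEq T] [Fintype α] [DecidableEq α] (F : Type*)
    [Field F] : (T → GL α F) →* GL (T → α) F where
  toFun := ptGL
  map_one' := Units.ext pt_one
  map_mul' a b := Units.ext (by
    rw [Units.val_mul, ptGL_val, ptGL_val, ptGL_val, pt_mul]
    rfl)

lemma ptHom_apply (a : T → GL α F) : ptHom T α F a = ptGL a := rfl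

lemma permGL_mul_ptGL (s : Equiv.Perm T) (a : T → GL α F) :
    permGL s * ptGL a = ptGL (a ∘ s.symm) * permGL s := by
  apply Units.ext
  ext x y
  rw [Units.val_mul, Units.val_mul, ptGL_val, ptGL_val,
    show ((permGL s : GL (T → α) F) : Matrix (T → α) (T → α) F) = permMat s from rfl, permMat_mul, mul_permMat, pt_apply, pt_apply, ← Equiv.prod_comp s.symm]
  simp

lemma tw_permMat (σ : F →+* F) (s : Equiv.Perm T) :
    tw σ 1 (permMat s : Matrix (T → α) (T → α) F) = 1 := by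
  have h1 : (permMat s : Matrix (T → α) (T → α) F).map σ = permMat s := by
    ext x y
    simp [permMat, apply_ite σ]
  have h2 : (permMat s : Matrix (T → α) (T → α) F)ᵀ = permMat s.symm := by
    ext x y
    simp only [permMat, transpose_apply, of_apply]
    congr 1
    exact propext ⟨fun h => by rw [h]; ext; simp, fun h => by rw [h]; ext; simp⟩
  rw [tw, mul_one, h1, h2]
  exact (permGL (α := α) (F := F) s).inv_val

lemma isScal_of_pt_eq_one [Nonempty α] {B : T → Matrix α α F} (hB : ∀ j, (B j).det ≠ 0)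
    (h : pt B = 1) (i : T) : IsScal (B i) :=
  isScal_of_comm_all fun X => (mul_eq_of_slot hB (i := i) (by rw [h, mul_one, one_mul])).symm

lemma pt_mem_of_slot {A : Subalgebra F (Matrix (T → α) (T → α) F)} (h : ∀ i X, slot i X ∈ A)
    (a : T → Matrix α α F) : pt a ∈ A := by
  have : ∀ S : Finset T, pt (fun i => if i ∈ S then a i else 1) ∈ A := by
    intro S
    induction S using Finset.induction_on with
    | empty =>
      simp only [Finset.notMem_empty, if_false]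
      exact (pt_one (F := F) (T := T) (α := α)).symm ▸ A.one_mem
    | insert i S hi ih =>
      have h1 := A.mul_mem (h i (a i)) ih
      rw [(pt_update _ i _).1] at h1
      convert h1 using 2
      funext j
      by_cases hj : j = i
      · subst hj
        simp [hi]
      · simp [hj]
  simpa using this Finset.univ

lemma mem_of_slot {A : Subalgebra F (Matrix (T → α) (T → α) F)} (h : ∀ i X, slot i X ∈ A)
    (X : Matrix (T → α) (T → α) F) : X ∈ A := by
  rw [mat_eq_sum_single X]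
  refine A.sum_mem fun x _ => A.sum_mem fun y _ => A.smul_mem ?_ _
  convert pt_mem_of_slot h fun i => Matrix.single (x i) (y i) 1 using 1
  ext u v
  rw [pt_apply]
  simp only [Matrix.single_apply]
  rw [Finset.prod_ite_zero]
  simp [funext_iff, forall_and]

lemma eq_of_pt_update [Nonempty α] {B : T → Matrix α α F} (hB : ∀ j, (B j).det ≠ 0) (i : T)
    {X Y : Matrix α α F} (h : pt (Function.update B i X) = pt (Function.update B i Y)) : X = Y := by
  have h1 : ∀ Z, pt (Function.update B i Z) = slot i Z * pt (Function.update B i 1) := by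
    intro Z
    rw [(pt_update _ i _).1]
    simp
  rw [h1 X, h1 Y] at h
  refine slot_injective i (mul_right_cancel_det (det_pt_ne_zero fun j => ?_) h)
  by_cases hj : j = i
  · subst hj; simp
  · rw [Function.update_of_ne hj]; exact hB j

end Pt

/-- the isometry group of a Gram matrix -/
def twGroup (σ : F →+* F) (G : Matrix ι ι F) : Subgroup (GL ι F) where
  carrier := {g | tw σ G g = G}
  mul_mem' {a b} ha hb := by
    change tw σ G (a * b) = G
    rw [tw_mul, ha, hb]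
  one_mem' := tw_one σ G
  inv_mem' {a} ha := by
    change tw σ G _ = G
    conv_lhs => rw [← ha]
    rw [← tw_mul, Units.mul_inv, tw_one]

lemma mem_twGroup {σ : F →+* F} {G : Matrix ι ι F} {g : GL ι F} :
    g ∈ twGroup σ G ↔ tw σ G g = G := Iff.rfl

lemma tw_one_scal {σ : F →+* F} (hσ : ∀ a, σ (σ a) = a) [Nonempty ι] {X : Matrix ι ι F} {c : F}
    (h : tw σ 1 X = c • 1) : σ c = c := by
  have h1 := tw_dagger hσ 1 X
  rw [Matrix.map_one _ (map_zero σ) (map_one σ), transpose_one, h, map_smul_ringHom,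
    Matrix.map_one _ (map_zero σ) (map_one σ), transpose_smul, transpose_one] at h1
  obtain ⟨i⟩ := ‹Nonempty ι›
  simpa using (congrFun (congrFun h1 i) i).symm

/-- orthonormal frame for a tensor power -/
lemma HForm.wreath_on [Fintype F] {q : ℕ} (hF : Fintype.card F = q ^ 2) {σ : F →+* F}
    (hσ : ∀ x, σ x = x ^ q) {f : (ι → F) → (ι → F) → F} (hf : HForm σ 1 f) {m t : ℕ}
    (hm : 1 ≤ m) (ht : 1 ≤ t) {e : ι ≃ (Fin t → Fin m)} {P : GL ι F}
    {A : Matrix (Fin m) (Fin m) F} (hA : HForm σ 1 (gform σ A)) {c : F} (hc : c ≠ 0)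
    (hG : frameGram f e P = c • pt fun _ : Fin t => A) :
    ∃ P' : GL ι F, frameGram f e P' = c • 1 ∧ ∀ g ∈ tensorWreathSubgroup m t e P,
      (∀ u v, f ((g : Matrix ι ι F) *ᵥ u) ((g : Matrix ι ι F) *ᵥ v) = f u v) →
      ∃ (s : Equiv.Perm (Fin t)) (a : Fin t → GL (Fin m) F), g = frameGL e P' (permGL s * ptGL a) ∧
        ∀ i, ∃ μ : F, μ ≠ 0 ∧ σ μ = μ ∧ tw σ 1 (a i : Matrix (Fin m) (Fin m) F) = μ • 1 := by
  haveI : Nonempty (Fin m) := ⟨⟨0, hm⟩⟩
  obtain ⟨Y, hY⟩ := hA.exists_tw_eq_one hF hσ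
  have hG' : frameGram f e (frameGL e P (ptGL fun _ => Y) * P) = c • 1 := by
    rw [hf.toSesq.frameGram_change, hG, tw_smul, ptGL_val, tw_pt]
    simp only [hY]
    rw [← pt_one]
    rfl
  refine ⟨_, hG', fun g hg hI => ?_⟩
  obtain ⟨s, a, rfl⟩ := exists_perm_pt_of_mem_wreath hm ht hg
  have h1 : frameGL e P (permGL s * ptGL a) = frameGL e (frameGL e P (ptGL fun _ => Y) * P)
      (permGL s * ptGL fun i => Y⁻¹ * a i * Y) := by
    rw [frameGL_change]
    congr 1
    have h2 := permGL_mul_ptGL s fun _ : Fin t => Y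
    rw [← mul_assoc, show ptGL (fun _ : Fin t => Y) * permGL s = _ from h2.symm, mul_assoc,
      mul_assoc, ← ptHom_apply, ← ptHom_apply, ← ptHom_apply, ← map_inv, ← map_mul, ← map_mul]
    congr 2
    funext i
    simp
  refine ⟨s, _, h1, fun i => ?_⟩
  rw [h1] at hI
  have h3 := hf.toSesq.frameGram_sim e _ (c := 1) fun u v => (hI u v).trans (one_mul _).symm
  rw [hG', one_smul, tw_smul, Units.val_mul, tw_mul] at h3
  have h4 := smul_right_injective _ hc h3
  change tw σ (tw σ 1 (permMat s)) _ = 1 at h4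
  rw [tw_permMat, ← pt_one, ptGL_val, tw_pt, pt_one] at h4
  have h5 : ∀ j, (tw σ ((1 : Fin t → Matrix (Fin m) (Fin m) F) j)
      ((Y⁻¹ * a j * Y : GL (Fin m) F) : Matrix (Fin m) (Fin m) F)).det ≠ 0 := fun j =>
    det_tw_ne_zero σ (by simp) (val_det_ne_zero _)
  obtain ⟨μ, hμ⟩ := isScal_of_pt_eq_one h5 h4 i
  refine ⟨μ, ?_, tw_one_scal hf.invol hμ, hμ⟩
  rintro rfl
  exact h5 i (by rw [hμ, zero_smul]; exact det_zero)

lemma mem_scalars_of_comm [Nonempty ι] {x y : GL ι F} {c : F}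
    (h : (x : Matrix ι ι F) * y = c • ((y : Matrix ι ι F) * x)) :
    x * y * x⁻¹ * y⁻¹ ∈ scalars ι F := by
  rw [mem_scalars_iff_isScal]
  refine ⟨c, ?_⟩
  rw [Units.val_mul, Units.val_mul, Units.val_mul, h, smul_mul_assoc, smul_mul_assoc, mul_assoc _ _
    ((x⁻¹ : GL ι F) : Matrix ι ι F), Units.mul_inv, mul_one, Units.mul_inv]

/-- tensor powers of `GU_3(2)` normalise an extraspecial group. -/
lemma HForm.wreath23 [Fintype F] (hF : Fintype.card F = 2 ^ 2) {σ : F →+* F}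
    (hσ : ∀ x, σ x = x ^ 2) {f : (ι → F) → (ι → F) → F} (hf : HForm σ 1 f) {t : ℕ}
    (ht : 1 ≤ t) {e : ι ≃ (Fin t → Fin 3)} {P : GL ι F}
    {A : Matrix (Fin 3) (Fin 3) F} (hA : HForm σ 1 (gform σ A)) {c : F} (hc : c ≠ 0)
    (hG : frameGram f e P = c • pt fun _ : Fin t => A) {H : Subgroup (GL ι F)} (hH : Isom f H)
    (hle : H ≤ tensorWreathSubgroup 3 t e P) :
    ∃ R : Subgroup (GL ι F), ExtraData H R 3 ∧ Isom f R ∧
      ∀ c : Fˣ, c ^ (3 * Nat.gcd 2 3) = 1 → scalGL ι c ∈ R := by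
  haveI : Nonempty ι := ⟨e.symm fun _ => 0⟩
  obtain ⟨P', hG', hel⟩ := hf.wreath_on hF hσ (by norm_num) ht hA hc hG
  obtain ⟨d, hd⟩ := exists_sound4 hF hσ
  have hi := hf.invol
  let R₀ : Subgroup (GL (Fin 3) F) :=
    { carrier := {x | P27 σ x}
      mul_mem' := fun ha hb => (P27.mul hd hi ha hb).1
      one_mem' := ⟨tw_one _ _, det_one, by simp⟩
      inv_mem' := fun {x} hx => by
        have : x⁻¹ = x * x := inv_eq_of_mul_eq_one_left (Units.ext hx.2.2)
        rw [this]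
        exact (P27.mul hd hi hx hx).1 }
  let φ : (Fin t → GL (Fin 3) F) →* GL ι F := (frameGL e P').toMonoidHom.comp (ptHom _ _ F)
  have hφ : ∀ a, (φ a : Matrix ι ι F) = frameEquiv e P' (pt fun i => (a i : Matrix _ _ F)) :=
    fun a => rfl
  let R : Subgroup (GL ι F) := (Subgroup.pi Set.univ fun _ => R₀).map φ
  have hR : ∀ x, x ∈ R ↔ ∃ a : Fin t → GL (Fin 3) F, (∀ i, P27 σ (a i)) ∧ φ a = x := fun x =>
    ⟨fun ⟨a, ha, h⟩ => ⟨a, fun i => ha i trivial, h⟩, fun ⟨a, ha, h⟩ => ⟨a, fun i _ => ha i, h⟩⟩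
  have hconj : ∀ b x : GL (Fin 3) F, tw σ 1 (b : Matrix (Fin 3) (Fin 3) F) = 1 → P27 σ x →
      P27 σ (b * x * b⁻¹ : GL (Fin 3) F) := by
    intro b x hb hx
    refine ⟨(twGroup σ 1).mul_mem ((twGroup σ 1).mul_mem hb hx.1) ((twGroup σ 1).inv_mem hb), ?_, ?_⟩
    · rw [Units.val_mul, Units.val_mul, det_units_conj, hx.2.1]
    · rw [← cj_val, ← map_mul, ← map_mul, hx.2.2, map_one]
  have hK : NormG ((Subgroup.pi Set.univ fun _ => twGroup σ 1).map φ) R := by
    rintro _ ⟨b, hb, rfl⟩ x hx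
    obtain ⟨a, ha, rfl⟩ := (hR x).1 hx
    exact (hR _).2 ⟨b * a * b⁻¹, fun i => hconj _ _ (hb i trivial) (ha i), by simp⟩
  have hslot : ∀ i (X : GL (Fin 3) F), (φ (Pi.mulSingle i X) : Matrix ι ι F) =
      frameEquiv e P' (slot i (X : Matrix (Fin 3) (Fin 3) F)) := by
    intro i X
    rw [hφ, slot_eq_pt]
    congr 2
    funext j
    by_cases hj : j = i
    · subst hj; simp
    · simp [hj]
  have hsl : ∀ i (X : GL (Fin 3) F), P27 σ X → φ (Pi.mulSingle i X) ∈ R := by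
    intro i X hX
    refine (hR _).2 ⟨_, fun j => ?_, rfl⟩
    by_cases hj : j = i
    · subst hj; simpa using hX
    · rw [Pi.mulSingle_eq_of_ne hj]; exact R₀.one_mem
  have hpow : ∀ x ∈ R, x ^ 3 = 1 := by
    intro x hx
    obtain ⟨a, ha, rfl⟩ := (hR x).1 hx
    rw [← map_pow, ← map_one φ]
    congr 1
    funext i
    exact Units.ext (by simpa [pow_succ] using (ha i).2.2)
  refine ⟨R, ⟨Nat.prime_three, fun g hg x hx => ?_, absIrr_of_spanAlg_eq_top fun x => ?_,
    fun x hx y hy => ?_, fun x hx => by rw [hpow x hx]; exact one_mem _, hpow,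
    fun M hM hN hc x hx => ?_⟩, fun x hx => ?_, fun c hc => ?_⟩
  · obtain ⟨s, b, rfl, hb⟩ := hel g (hle hg) (hH g hg)
    have hb' : ∀ i, tw σ 1 (b i : Matrix (Fin 3) (Fin 3) F) = 1 := fun i => by
      obtain ⟨μ, h0, h1, h2⟩ := hb i
      rw [hσ, pow_two] at h1
      rw [h2, mul_left_cancel₀ h0 (h1.trans (mul_one μ).symm), one_smul]
    obtain ⟨a, ha, rfl⟩ := (hR x).1 hx
    refine (hR _).2 ⟨(b * a * b⁻¹) ∘ s.symm, fun i => hconj _ _ (hb' _) (ha _), ?_⟩
    change frameGL e P' (ptGL _) = _ * frameGL e P' (ptGL a) * _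
    rw [← map_inv, ← map_mul, ← map_mul]
    congr 1
    rw [eq_mul_inv_iff_mul_eq, ← mul_assoc, ← permGL_mul_ptGL, mul_assoc, mul_assoc,
      mul_assoc, ← ptHom_apply, ← ptHom_apply, ← ptHom_apply, ← map_mul, ← map_mul]
    simp [mul_assoc]
  · obtain ⟨X, rfl⟩ := (frameEquiv e P').surjective x
    refine mem_of_slot (A := (spanAlg R).comap (frameEquiv e P' : _ →ₐ[F] _)) (fun i Y => ?_) X
    refine P27.span hd hi (A := (spanAlg R).comap ((frameEquiv e P' : _ →ₐ[F] _).comp (slot i)))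
      (fun Z hZ => ?_) Y
    have := mem_spanAlg (hsl i (Matrix.GeneralLinearGroup.mkOfDetNeZero Z
      (by rw [hZ.2.1]; exact one_ne_zero)) hZ)
    rw [hslot] at this
    exact this
  · obtain ⟨a, ha, rfl⟩ := (hR x).1 hx
    obtain ⟨b, hb, rfl⟩ := (hR y).1 hy
    choose k hk using fun i => (P27.mul hd hi (ha i) (hb i)).2
    refine mem_scalars_of_comm (c := ∏ i, k i) ?_
    rw [hφ, hφ, ← map_mul, ← map_mul, ← map_smul, pt_mul, pt_mul, ← pt_smul]
    congr 2
    funext i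
    exact hk i
  · obtain ⟨a, ha, rfl⟩ := (hR x).1 (hM hx)
    obtain ⟨S, hS, hS'⟩ := exists_s27 hd hi
    have h1 : ∀ i, IsScal (a i : Matrix (Fin 3) (Fin 3) F) := fun i => by
      refine (hS' _ (ha i)).resolve_right (not_not.2 ?_)
      have h2 : φ (Pi.mulSingle i S) ∈ subgroupNormalizer R := hK.le_normalizer
        ⟨_, fun j _ => by
          by_cases hj : j = i
          · subst hj; rw [Pi.mulSingle_eq_same]; exact hS
          · simpa [hj] using (twGroup σ 1).one_mem, rfl⟩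
      have h3 := congrArg Units.val (hc _ hx _ (hN _ h2 _ hx))
      rw [← map_inv, ← map_mul, ← map_mul, ← map_mul, ← map_mul, hφ, hφ] at h3
      have h4 := (frameEquiv e P').injective h3
      refine eq_of_pt_update (B := fun j => ((a j * a j : GL (Fin 3) F) : Matrix (Fin 3) (Fin 3) F))
        (fun j => val_det_ne_zero _) i ?_
      convert h4 using 2 <;> funext j <;> by_cases hj : j = i
      · subst hj; simp [cj_apply]
      · simp [hj]
      · subst hj; simp [cj_apply]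
      · simp [hj]
    choose k hk using h1
    rw [mem_scalars_iff_isScal, hφ, isScal_frameEquiv_iff]
    simp only [hk]
    exact ⟨_, by rw [pt_smul, ← pt_one]; rfl⟩
  · obtain ⟨a, ha, rfl⟩ := (hR x).1 hx
    intro u v
    rw [hφ, hf.toSesq.sim_of_frameGram e P' (c := 1), one_mul]
    rw [hG', one_smul, tw_smul, ← pt_one, tw_pt]
    congr 2
    funext i
    exact (ha i).1
  · have h3 : (c : F) * c * c = 1 := by simpa [pow_succ] using congrArg Units.val hc
    have := hsl ⟨0, ht⟩ (scalGL _ c) ⟨by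
      rw [scalGL_val, tw_smul_right, tw_one, hσ, pow_two, ← mul_assoc, h3, one_smul], by
      rw [scalGL_val, det_smul, det_one, mul_one]; simpa [pow_succ] using h3, by
      simp [scalGL_val, smul_smul, h3, ← mul_assoc]⟩
    convert this using 1
    apply Units.ext
    rw [hslot, scalGL_val, scalGL_val, map_smul, map_one, map_smul, map_one]

/-- The class-6 data in the unitary case. -/
structure SUExtra [Fintype F] (f : (ι → F) → (ι → F) → F) (H R : Subgroup (GL ι F))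
    (r p e k : ℕ) : Prop where
  data : ExtraData H R r
  sim : R ≤ similarityGroup f
  isom : Odd r → Isom f R
  ne : r ≠ p
  min : IsMinimalFieldFor (Nat.card (Subgroup.center R)) p e F
  card : Fintype.card ι = r ^ k
  pos : 1 ≤ k
  type : (Odd r ∧ Nat.card (Subgroup.center R) = r ∧ Nat.card R = r ^ (1 + 2 * k)) ∨
    (r = 2 ∧ e = 2 ∧ Nat.card (Subgroup.center R) = 4 ∧ Nat.card R = 2 ^ (2 + 2 * k))

/-- The subfield classes in the unitary case. -/
def SUSub [Fintype F] (q : ℕ) (f : (ι → F) → (ι → F) → F) (H : Subgroup (GL ι F)) : Prop :=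
  (∃ (F₁ : Subfield F) (r : ℕ) (P : GL ι F), r.Prime ∧ Odd r ∧
    Fintype.card F = Nat.card F₁ ^ r ∧ IsFormRationalStructure f F₁ 1 P ∧
    H ≤ subfieldSubgroup F₁ P) ∨
  (∃ (F₁ : Subfield F) (P : GL ι F), Odd q ∧ Fintype.card F = Nat.card F₁ ^ 2 ∧
    IsFormRationalStructure f F₁ 1 P ∧ H ≤ subfieldSubgroup F₁ P) ∨
  (∃ (F₁ : Subfield F) (P : GL ι F) (ζ : F), Even (Fintype.card ι) ∧
    Fintype.card F = Nat.card F₁ ^ 2 ∧ ζ ≠ 0 ∧ ζ + ζ ^ q = 0 ∧
    IsFormRationalStructure f F₁ ζ P ∧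
    (∀ u : ι → F, (∀ i, u i ∈ F₁) →
      f ((P : Matrix ι ι F) *ᵥ u) ((P : Matrix ι ι F) *ᵥ u) = 0) ∧
    H ≤ subfieldSubgroup F₁ P)

/-- The geometric classes in the unitary case. -/
def SUGeom [Fintype F] (q : ℕ) (f : (ι → F) → (ι → F) → F) (H : Subgroup (GL ι F)) : Prop :=
  (∃ W : Submodule F (ι → F), W ≠ ⊥ ∧ IsTotallySingularFor f W ∧ H ≤ subspaceStabilizer W) ∨
  (∃ W : Submodule F (ι → F), W ≠ ⊥ ∧ IsNondegenerateOn f W ∧
    2 * Module.finrank F W < Fintype.card ι ∧ H ≤ subspaceStabilizer W) ∨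
  (∃ (t k : ℕ) (D : Fin t → Submodule F (ι → F)), IsNondegenerateMDecomposition f k D ∧
    H ≤ decompositionStabilizer D) ∨
  (∃ (k : ℕ) (D : Fin 2 → Submodule F (ι → F)), 2 * k = Fintype.card ι ∧
    IsMDecomposition k D ∧ (∀ i, IsTotallySingularFor f (D i)) ∧ H ≤ decompositionStabilizer D) ∨
  (∃ (r : ℕ) (K : Subalgebra F (Matrix ι ι F)), r.Prime ∧ Odd r ∧ IsFieldSubalgebra r K ∧
    IsAdjointClosedFor f K ∧ H ≤ subalgebraNormalizer K) ∨
  (∃ (n₁ n₂ : ℕ) (e : ι ≃ Fin n₁ × Fin n₂) (P : GL ι F)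
    (f₁ : (Fin n₁ → F) → (Fin n₁ → F) → F) (f₂ : (Fin n₂ → F) → (Fin n₂ → F) → F),
    2 ≤ n₁ ∧ n₁ < n₂ ∧ IsUnitaryFormPow q f₁ ∧ IsUnitaryFormPow q f₂ ∧
    IsTensorFormStructure (fun x : F => x ^ q) f f₁ f₂ e P ∧
    H ≤ tensorProductSubgroup n₁ n₂ e P) ∨
  SUSub q f H ∨
  (∃ (R : Subgroup (GL ι F)) (r p e k : ℕ), SUExtra f H R r p e k) ∨
  (∃ (k t : ℕ) (e : ι ≃ (Fin t → Fin k)) (P : GL ι F) (f₁ : (Fin k → F) → (Fin k → F) → F),
    3 ≤ k ∧ 2 ≤ t ∧ ¬ (q = 2 ∧ k = 3) ∧ IsUnitaryFormPow q f₁ ∧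
    IsTensorPowerFormStructure (fun x : F => x ^ q) f f₁ e P ∧ H ≤ tensorWreathSubgroup k t e P)

section SU

variable [Fintype F] {q : ℕ} (hF : Fintype.card F = q ^ 2) {σ : F →+* F} (hσ : ∀ x, σ x = x ^ q)
  {f : (ι → F) → (ι → F) → F} (hf : HForm σ 1 f) {H : Subgroup (GL ι F)}

lemma SUGeom.c5 (h : SUSub q f H) : SUGeom q f H := by
  iterate 6 right
  exact Or.inl h

include hF hσ hf

lemma SUGeom.of_real (hn : 2 ≤ Fintype.card ι) {L : Subgroup (GL ι F)} (hL : AbsIrr L)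
    (hN : NormG H L) (hI : Isom f L) {F₀ : Subfield F} (h0 : F₀ ≠ ⊤)
    (hr : RealisableOver F₀ (matrixSet L)) : SUGeom q f H :=
  SUGeom.c5 (hL.subfield_unitary hF hn hσ hf hN h0 hr
    fun g hg => ⟨1, F₀.one_mem, fun u v => by rw [hI g hg, one_mul]⟩)

lemma SUGeom.c7 (hH : Isom f H) {m t : ℕ} (hm : 3 ≤ m) (ht : 2 ≤ t) {e : ι ≃ (Fin t → Fin m)}
    {P : GL ι F} {A : Matrix (Fin m) (Fin m) F} (hA : HForm σ 1 (gform σ A)) {c : F} (hc : c ≠ 0)
    (hG : frameGram f e P = c • pt fun _ : Fin t => A) (hle : H ≤ tensorWreathSubgroup m t e P) :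
    SUGeom q f H := by
  iterate 7 right
  by_cases h23 : q = 2 ∧ m = 3
  · obtain ⟨rfl, rfl⟩ := h23
    left
    have hcard : Fintype.card ι = 3 ^ t := by rw [Fintype.card_congr e]; simp
    have hn : 2 ≤ Fintype.card ι := by
      rw [hcard]
      exact le_trans (by norm_num) (Nat.pow_le_pow_right (by norm_num) ht)
    haveI := nonempty_of_two_le hn
    obtain ⟨R, h1, h2, h3⟩ := hf.wreath23 hF hσ (by omega) hA hc hG hH hle
    have hz := h1.card_center_odd hn h3 (by decide)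
    have h4 : CharP F 2 := by
      obtain ⟨p, hp⟩ := CharP.exists F
      obtain ⟨k, hk0, hk⟩ := exists_q_eq_pow hF p
      have := (Nat.prime_dvd_prime_iff_eq (CharP.char_is_prime F p) Nat.prime_two).1
        (hk ▸ dvd_pow_self p hk0.ne')
      rwa [this] at hp
    refine ⟨R, 3, 2, 2, t, h1, h2.le_similarityGroup, fun _ => h2, by decide,
      ⟨Nat.prime_two, h4, hF, by rw [hz]; decide, fun d hd hd' => ?_⟩, hcard, by omega,
      Or.inl ⟨by decide, hz, h1.card_eq_pow hcard (k := 1) (by rw [hz, pow_one])⟩⟩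
    obtain rfl : d = 1 := by omega
    rw [hz]
    decide
  · right
    have hfun : (fun x : F => x ^ q) = σ := funext fun x => (hσ x).symm
    rw [hfun]
    exact ⟨m, t, e, P, _, hm, ht, h23, isUnitaryFormPow_of_hform hσ hA,
      isTensorPowerFormStructure_of_gram hf.toSesq hc hG, hle⟩

/-- orthonormal frame for a tensor product -/
lemma HForm.tensor_on {α β : Type} [Fintype α] [DecidableEq α] [Fintype β] [DecidableEq β]
    {e : ι ≃ α × β} {P : GL ι F} {A : Matrix α α F} {B : Matrix β β F}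
    (hA : HForm σ 1 (gform σ A)) (hB : HForm σ 1 (gform σ B)) {c : F}
    (hG : frameGram f e P = c • (A ⊗ₖ B)) :
    ∃ P' : GL ι F, frameGram f e P' = c • 1 ∧ ∀ (x : GL α F) (y : GL β F),
      ∃ (x' : GL α F) (y' : GL β F),
        frameEquiv e P ((x : Matrix α α F) ⊗ₖ (y : Matrix β β F)) =
          frameEquiv e P' ((x' : Matrix α α F) ⊗ₖ (y' : Matrix β β F)) := by
  obtain ⟨Y, hY⟩ := hA.exists_tw_eq_one hF hσ
  obtain ⟨Z, hZ⟩ := hB.exists_tw_eq_one hF hσ
  refine ⟨frameGL e P (kronGL Y Z) * P, ?_, fun x y => ⟨Y⁻¹ * x * Y, Z⁻¹ * y * Z, ?_⟩⟩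
  · rw [hf.toSesq.frameGram_change, hG, tw_smul, kronGL_val, tw_kron, hY, hZ, one_kronecker_one]
  · rw [frameEquiv_change, cj_kronGL, cj_val, cj_val]
    simp [mul_assoc]

omit hF hσ hf in
lemma J2_mul_map (σ : F →+* F) {x : Matrix (Fin 2) (Fin 2) F} {μ : F} (hx : x.det ≠ 0)
    (h : tw σ 1 x = μ • 1) : J2 F * x.map σ = (μ / x.det) • (x * J2 F) := by
  have h1 := tw_J2 x
  rw [tw, RingHom.coe_id, Matrix.map_id] at h1
  rw [tw, mul_one] at h
  have hJ : J2 F * J2 F = -1 := by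
    ext i j
    fin_cases i <;> fin_cases j <;> simp [J2, mul_apply]
  have hxT : xᵀ.det ≠ 0 := by rwa [det_transpose]
  have h2 : x.map σ * J2 F = (μ / x.det) • (J2 F * x) := by
    refine mul_left_cancel_det hxT ?_
    rw [← mul_assoc, h, Matrix.mul_smul, ← mul_assoc, h1, smul_smul, div_mul_cancel₀ _ hx,
      smul_one_mul]
  have h3 := congrArg (fun Z => J2 F * Z * J2 F) h2
  simp only [Matrix.mul_smul, Matrix.smul_mul, ← mul_assoc, hJ] at h3
  rw [mul_assoc (J2 F * x.map σ), hJ] at h3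
  simpa using h3

omit hF hσ hf in
lemma frameGram_trans {κ μ : Type} [Fintype κ] [DecidableEq κ] [Fintype μ] [DecidableEq μ]
    (e : ι ≃ κ) (e' : κ ≃ μ) (P : GL ι F) :
    frameGram f (e.trans e') P = (frameGram f e P).submatrix e'.symm e'.symm := by
  have h1 : ∀ a : μ, (Pi.single a (1 : F) : μ → F) ∘ e' = Pi.single (e'.symm a) 1 := by
    intro a
    ext i
    simp [Pi.single_apply, Equiv.eq_symm_apply]
  ext a b
  simp only [frameGram_apply, submatrix_apply, frameVec_trans, h1]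

lemma SUSub.of_descent [Nonempty ι] {κ : Type} [Fintype κ] [DecidableEq κ]
    (e : ι ≃ κ) (P : GL ι F) {M : Matrix κ κ F} (hM : M * M.map σ = 1)
    (hH : ∀ g ∈ H, ∃ (X : Matrix κ κ F) (c : F), (g : Matrix ι ι F) = frameEquiv e P X ∧
      M * X.map σ = c • (X * M))
    (hs : (frameGram f e P * M.map σ)ᵀ = frameGram f e P * M.map σ ∨
      (frameGram f e P * M.map σ)ᵀ = -(frameGram f e P * M.map σ))
    (hd : ∀ i, (frameGram f e P * M.map σ) i i = 0) : SUSub q f H := by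
  have hne := qHom_ne hF hσ
  obtain ⟨P', h1, h2, h3⟩ := hf.c5_of_descent hne e P hM hH
  have hc : Fintype.card F = Nat.card (fixField σ) ^ 2 := by rw [card_fixField_q hF hσ, hF]
  have key : (frameGram f e P * M.map σ)ᵀ = -(frameGram f e P * M.map σ) → SUSub q f H := by
    intro hs
    obtain ⟨ζ, hζ, hζ'⟩ := exists_trace_zero hf.invol hne
    refine Or.inr (Or.inr ⟨_, P', ζ, ?_, hc, hζ, by rw [← hσ, hζ'],
      h2 ζ (-1) (by rw [hs, neg_smul, one_smul]) (by linear_combination -hζ'), h3 hs hd, h1⟩)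
    rw [Fintype.card_congr e]
    refine even_card_of_alt ?_ hs hd
    rw [det_mul]
    exact mul_ne_zero (hf.toSesq.frameGram_det e P) fun h => by
      have := congrArg det hM
      rw [det_mul, h, mul_zero, det_one] at this
      exact zero_ne_one this
  rcases hs with hs | hs
  · by_cases hq : Odd q
    · exact Or.inr (Or.inl ⟨_, P', hq, hc, h2 1 1 (by rw [hs, one_smul]) (by simp), h1⟩)
    · apply key
      rw [hs, eq_neg_iff_add_eq_zero, ← two_smul F,
        two_eq_zero_of_not_odd (by rwa [odd_card_iff_q hF]), zero_smul]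
  · exact key hs

lemma TensorCase.suGeom [Nonempty ι] (hH : Isom f H) (h : TensorCase H) : SUGeom q f H := by
  obtain ⟨a, b, e, P, A, B, δ, ha, hb, hA, hB, h1, h2, h3, hG, -, hel⟩ := hf.tensorCase hH h
  obtain rfl := h3 (qHom_ne hF hσ)
  rw [mul_one] at h1
  haveI : Nonempty (Fin a) := ⟨⟨0, by omega⟩⟩
  haveI : Nonempty (Fin b) := ⟨⟨0, by omega⟩⟩
  have hk := le_tensor_of_kron (H := H) (e := e) (P := P) fun g hg => by
    obtain ⟨x, y, μ, h, -⟩ := hel g hg
    exact ⟨x, y, h⟩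
  have hstr := isTensorFormStructure_of_gram hf.toSesq hG
  have hfun : (fun x : F => x ^ q) = σ := funext fun x => (hσ x).symm
  rcases lt_trichotomy a b with hab | rfl | hab
  · iterate 5 right
    left
    rw [hfun]
    exact ⟨a, b, e, P, _, _, ha, hab, isUnitaryFormPow_of_hform hσ h1,
      isUnitaryFormPow_of_hform hσ h2, hstr.1, hk.1⟩
  · obtain ⟨P', hG', hP'⟩ := hf.tensor_on hF hσ h1 h2 (c := 1) (by rw [hG, one_smul])
    rw [one_smul] at hG'
    have hel' : ∀ g ∈ H, ∃ x y : GL (Fin a) F, (g : Matrix ι ι F) =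
        frameEquiv e P' ((x : Matrix _ _ F) ⊗ₖ (y : Matrix _ _ F)) := fun g hg => by
      obtain ⟨x, y, μ, h, -⟩ := hel g hg
      obtain ⟨x', y', h'⟩ := hP' x y
      exact ⟨x', y', h.trans h'⟩
    by_cases h3 : 3 ≤ a
    · refine SUGeom.c7 hF hσ hf hH h3 le_rfl (e := e.trans (finTwoArrowEquiv (Fin a)).symm)
        (P := P') (A := 1) (hform_gform hf.invol (by simp) (Or.inl rfl) (by simp)) one_ne_zero ?_
        fun g hg => ?_
      · rw [frameGram_trans, hG', submatrix_one_equiv, one_smul, ← pt_one]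
        rfl
      · obtain ⟨x, y, hxy⟩ := hel' g hg
        exact mem_tensorWreath_of_kron e P' hxy
    · obtain rfl : a = 2 := by omega
      have hJ : (J2 F).map σ = J2 F := by
        ext i j
        fin_cases i <;> fin_cases j <;> simp [J2]
      have hJJ : J2 F * J2 F = -1 := by
        ext i j
        fin_cases i <;> fin_cases j <;> simp [J2, mul_apply]
      refine SUGeom.c5 (SUSub.of_descent hF hσ hf e P' (M := J2 F ⊗ₖ J2 F) ?_ (fun g hg => ?_)
        (Or.inl ?_) fun i => ?_)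
      · rw [kron_map, hJ, ← mul_kronecker_mul, hJJ, ← one_kronecker_one]
        ext ⟨i, j⟩ ⟨k, l⟩
        simp
      · obtain ⟨x, y, hxy⟩ := hel' g hg
        have h4 := hf.toSesq.frameGram_sim e P' (c := 1) fun u v => by
          rw [← hxy, hH g hg, one_mul]
        rw [hG', one_smul, ← one_kronecker_one] at h4
        obtain ⟨μ, -, h5, h6⟩ := tw_of_kron (by simp) (by simp) h4
        exact ⟨_, _, hxy, by
          rw [kron_map, ← mul_kronecker_mul, J2_mul_map σ (val_det_ne_zero x) h5,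
            J2_mul_map σ (val_det_ne_zero y) h6, smul_kronecker, kronecker_smul, smul_smul,
            mul_kronecker_mul]⟩
      · rw [hG', one_mul, kron_map, hJ, kron_transpose, J2_transpose]
        ext ⟨i, j⟩ ⟨k, l⟩
        simp
      · rw [hG', one_mul, kron_map, hJ]
        simp [J2_diag]
  · iterate 5 right
    left
    rw [hfun]
    exact ⟨b, a, _, P, _, _, hb, hab, isUnitaryFormPow_of_hform hσ h2,
      isUnitaryFormPow_of_hform hσ h1, hstr.2, hk.2⟩

lemma PowerCase.suGeom (hn : 2 ≤ Fintype.card ι) (hH : Isom f H) (h : PowerCase H) :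
    SUGeom q f H := by
  haveI := nonempty_of_two_le hn
  obtain ⟨t, m, e, P, A, c, δ, ht, hm, hc, hA, h1, h2, -, hG, hle, -, L, hLH, hL, habs, N, hperf,
    hsup, hmem, -⟩ := hf.powerCase hH h
  obtain rfl := h2 (qHom_ne hF hσ)
  by_cases h3 : 3 ≤ m
  · exact SUGeom.c7 hF hσ hf hH h3 ht h1 hc hG hle
  obtain rfl : m = 2 := by omega
  have hdet : (pt fun _ : Fin t => J2 F).det ≠ 0 :=
    det_pt_ne_zero fun _ => by rw [J2_det]; exact one_ne_zero
  have hs := (sesq_gform (σ := RingHom.id F) (fun _ => rfl) hdet).frame (frameVec e P).symm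
  refine SUGeom.of_real hF hσ hf hn habs hL (hH.mono hLH) (fixField_ne_top (qHom_ne hF hσ))
    (habs.realisableOver_of_two hf.toSesq hs (hH.mono hLH)
      (isom_of_fixesForm (fixesForm_iff_le.2 ?_)))
  rw [hsup]
  refine iSup_le fun i => fixesForm_of_perfect (hperf i) fun g hg => ?_
  obtain ⟨X, hX⟩ := (hmem i _).1 (mem_spanAlg hg)
  refine mem_similarityGroup_of_sim hs.nondeg (c := X.det) fun u v => ?_
  rw [hX]
  exact pull_sim e P _ (tw_pt_slot (RingHom.id F) (fun _ : Fin t => J2 F) i (tw_J2 X)) u v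

omit hF hσ hf in
lemma Sesq.mult_unique [Nonempty ι] (hf : Sesq σ f) {a b : F} (h : ∀ u v, a * f u v = b * f u v) :
    a = b := by
  obtain ⟨i⟩ := ‹Nonempty ι›
  obtain ⟨⟨x, hx⟩, -⟩ := hf.nondeg (Pi.single i 1) (by simp)
  exact mul_right_cancel₀ hx (h _ _)

omit hF hσ hf in
lemma sim_pow {x : GL ι F} {μ : F}
    (h : ∀ u v, f ((x : Matrix ι ι F) *ᵥ u) ((x : Matrix ι ι F) *ᵥ v) = μ * f u v) (k : ℕ) :
    ∀ u v, f (((x ^ k : GL ι F) : Matrix ι ι F) *ᵥ u) (((x ^ k : GL ι F) : Matrix ι ι F) *ᵥ v) =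
      μ ^ k * f u v := by
  induction k with
  | zero => simp
  | succ k ih =>
    intro u v
    rw [pow_succ, Units.val_mul, ← mulVec_mulVec, ← mulVec_mulVec, ih, h, pow_succ, mul_assoc]

lemma ExtraCase.suGeom (hn : 2 ≤ Fintype.card ι) (hH : Isom f H) (h : ExtraCase H) :
    SUGeom q f H := by
  haveI := nonempty_of_two_le hn
  obtain ⟨r, R, hR, hle, hfull⟩ := h.exists_data hn
  have hmul : ∀ x ∈ R, ∃ μ : Fˣ, σ μ = μ ∧ μ ^ (r * Nat.gcd 2 r) = 1 ∧
      ∀ u v, f ((x : Matrix ι ι F) *ᵥ u) ((x : Matrix ι ι F) *ᵥ v) = μ * f u v := by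
    intro x hx
    obtain ⟨l, hl, c, rfl⟩ := mem_sup_scalars.1 (hle hx)
    have h1 : ∀ u v, f (((scalGL ι c * l : GL ι F) : Matrix ι ι F) *ᵥ u)
        (((scalGL ι c * l : GL ι F) : Matrix ι ι F) *ᵥ v) = (c * σ c) * f u v := by
      intro u v
      rw [Units.val_mul, scalGL_val, smul_one_mul, smul_mulVec, smul_mulVec, hf.smul_left,
        hf.smul_right, hH l hl, mul_assoc]
    refine ⟨Units.mk0 (c * σ c) (mul_ne_zero c.ne_zero ((map_ne_zero σ).2 c.ne_zero)), ?_,
      Units.ext ?_, h1⟩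
    · simp [hf.invol, mul_comm]
    · refine hf.toSesq.mult_unique fun u v => ?_
      have := sim_pow h1 (r * Nat.gcd 2 r) u v
      rw [hR.pow _ hx] at this
      simpa using this.symm
  rcases hR.minimal_or_subfield (hR.card_center_dvd hfull) with ⟨p, e, he0, hmin⟩ | ⟨F₀, h0, h1⟩
  swap
  · refine SUGeom.c5 (hR.abs.subfield_unitary hF hn hσ hf hR.norm h0 (hR.realisableOver F₀ h1)
      fun g hg => ?_)
    obtain ⟨μ, -, h2, h3⟩ := hmul g hg
    exact ⟨μ, h1 μ (hfull μ h2), h3⟩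
  obtain ⟨hpp, hp, hcard, hdvd, hmin'⟩ := id hmin
  have hrp : r ≠ p := prime_ne_char hR.prime (hR.dvd_card_sub_one hn)
  obtain ⟨k, hk1, hk⟩ := hR.exists_card_eq_pow hn
  obtain ⟨j, hj0, hj⟩ := exists_q_eq_pow hF p
  have he : e = 2 * j := by
    rw [hF, hj, ← pow_mul] at hcard
    rw [← Nat.pow_right_injective hpp.two_le hcard, mul_comm]
  iterate 7 right
  left
  refine ⟨R, r, p, e, k, hR, fun x hx => ?_, fun hodd x hx u v => ?_, hrp, hmin, hk, hk1, ?_⟩
  · obtain ⟨μ, -, -, h3⟩ := hmul x hx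
    exact ⟨μ, h3⟩
  · obtain ⟨μ, h1, h2, h3⟩ := hmul x hx
    rw [gcd_two_of_odd hodd, mul_one] at h2
    have h4 : μ ^ (p ^ j - 1) = 1 := by
      rw [hσ, hj] at h1
      have h5 : p ^ j = p ^ j - 1 + 1 := by have := Nat.one_le_pow j p hpp.pos; omega
      rw [h5, pow_succ] at h1
      exact Units.ext (by simpa using mul_right_cancel₀ μ.ne_zero (h1.trans (one_mul _).symm))
    have h5 := hmin' j hj0 (by omega)
    rw [hR.card_center_odd hn hfull hodd] at h5
    have h6 := pow_gcd_eq_one.2 ⟨h2, h4⟩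
    rw [(Nat.Prime.coprime_iff_not_dvd hR.prime).2 h5, pow_one] at h6
    rw [h3, h6, Units.val_one, one_mul]
  · rcases hR.prime.eq_two_or_odd' with rfl | hodd
    · right
      have hpo : p % 2 = 1 := (hpp.eq_two_or_odd).resolve_left (Ne.symm hrp)
      have h4 : 4 ∣ p ^ 2 - 1 := by
        rw [dvd_pow_sub_one_iff hpp.pos (by norm_num)]
        have : p % 4 = 1 ∨ p % 4 = 3 := by omega
        rcases this with h | h <;> rw [h] <;> norm_num
      have hz : Nat.card (Subgroup.center R) = 4 := by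
        rw [hR.card_center_full hfull, hcard, he, pow_mul]
        exact Nat.gcd_eq_right (h4.trans (by simpa using Nat.sub_dvd_pow_sub_pow (p ^ 2) 1 j))
      refine ⟨rfl, ?_, hz, hR.card_eq_pow hk (k := 2) hz⟩
      by_contra h5
      exact hmin' 2 two_pos (by omega) (hz ▸ h4)
    · have hz := hR.card_center_odd hn hfull hodd
      exact Or.inl ⟨hodd, hz, hR.card_eq_pow hk (k := 1) (by rw [hz, pow_one])⟩

lemma QuasiCase.suGeom (hn : 2 ≤ Fintype.card ι) (hH : Isom f H) (h : QuasiCase H) :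
    SUGeom q f H ∨ InUnitaryResidualClass H := by
  haveI := nonempty_of_two_le hn
  obtain ⟨P, hPH, hP, habs, ⟨F₀, h0, h1⟩ | hcore⟩ := h.exists_core
  · exact Or.inl (SUGeom.of_real hF hσ hf hn habs hP (hH.mono hPH) h0 h1)
  have key : ∀ b, Sesq (RingHom.id F) b → ¬ FixesForm (matrixSet P) b := fun b h1 h2 =>
    hcore.no_subfield _ (fixField_ne_top (qHom_ne hF hσ))
      (habs.realisableOver_of_two hf.toSesq h1 (hH.mono hPH) (isom_of_fixesForm h2))
  refine Or.inr ⟨P, hcore, ?_, ?_⟩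
  · rintro ⟨Q, h1, h2⟩
    exact key _ (hform_of_symmetric (isSymmetricForm_polar h1)).toSesq (fixesForm_polar h2)
  · rintro ⟨b, h1, h2⟩
    exact key _ (hform_of_symplectic h1).toSesq h2

/-- Aschbacher's theorem, unitary case. -/
theorem asch_su (hn : 2 ≤ Fintype.card ι) (hH : Isom f H) :
    SUGeom q f H ∨ InUnitaryResidualClass H := by
  haveI := nonempty_of_two_le hn
  by_cases hirr : Irr H
  swap
  · rcases hf.reducible hH hirr with h | h | ⟨k, D, h1, h2, -⟩
    · exact Or.inl (Or.inl h)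
    · exact Or.inl (Or.inr (Or.inl h))
    · exact Or.inl (Or.inr (Or.inr (Or.inl ⟨2, k, D, h1, h2⟩)))
  by_cases hctr : ∀ L ≤ H, NormG H L → ∀ z ∈ ctr (spanAlg L), IsScal z
  swap
  · push Not at hctr
    obtain ⟨L, hLH, hL, z, hz, hz'⟩ := hctr
    have hadj : ∀ x ∈ ctr (spanAlg L), adj σ f x ∈ ctr (spanAlg L) :=
      fun x hx => hf.adj_mem_ctr (fun y hy => hf.adj_mem_spanAlg (hH.mono hLH) hy) hx
    left
    rcases hf.decomp_or_field hH hirr hL.normA.ctr (ctr_comm _) hadj with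
      ⟨t, m, D, h1, h2, -⟩ | h | hinv
    · exact Or.inr (Or.inr (Or.inl ⟨t, m, D, h1, h2⟩))
    · exact Or.inr (Or.inr (Or.inr (Or.inl h)))
    · iterate 4 right
      exact Or.inl (hf.field_unitary hF hσ hL.normA.ctr (ctr_comm _) hinv hadj ⟨z, hz, hz'⟩)
  rcases core hn hirr hctr with h | h | h | h
  · exact Or.inl (h.suGeom hF hσ hf hH)
  · exact Or.inl (h.suGeom hF hσ hf hn hH)
  · exact Or.inl (h.suGeom hF hσ hf hn hH)
  · exact h.suGeom hF hσ hf hn hH

end SU

lemma hermForm_eq {n q : ℕ} {σ : F →+* F} (hσ : ∀ x, σ x = x ^ q) :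
    hermForm n F q = gform σ 1 := by
  funext u v
  simp [hermForm, gform, dotProduct, hσ]

lemma hform_hermForm [Fintype F] {q : ℕ} (hF : Fintype.card F = q ^ 2) {σ : F →+* F}
    (hσ : ∀ x, σ x = x ^ q) (n : ℕ) : HForm σ 1 (hermForm n F q) := by
  rw [hermForm_eq hσ]
  exact hform_gform (qHom_invol hF hσ) (by simp) (Or.inl rfl) (by simp)

lemma SUGeom.inUnitaryClass [Fintype F] {n q : ℕ} (hn : 2 ≤ n) {H : Subgroup (GL (Fin n) F)}
    (hH : H ≤ GU n F q) (h : SUGeom q (hermForm n F q) H) :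
    ∃ M : Subgroup (GL (Fin n) F), InUnitaryClass n F q M ∧ H ≤ M := by
  rcases h with ⟨W, h0, h1, h⟩ | ⟨W, h0, h1, h2, h⟩ | ⟨t, k, D, h0, h⟩ | ⟨k, D, h0, h1, h2, h⟩ |
    ⟨r, K, h0, h1, h2, h3, h⟩ | ⟨a, b, e, P, f₁, f₂, h0, h1, h2, h3, h4, h⟩ |
    (⟨F₀, r, P, h0, h1, h2, h3, h⟩ | ⟨F₀, P, h0, h1, h2, h⟩ | ⟨F₀, P, ζ, h0, h1, h2, h3, h4, h5, h⟩) |
    ⟨R, r, p, e, k, h⟩ | ⟨k, t, e, P, f₁, h0, h1, h2, h3, h4, h⟩
  · exact ⟨_, Or.inl (Or.inl ⟨W, h0, h1, rfl⟩), le_inf h hH⟩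
  · exact ⟨_, Or.inl (Or.inr (Or.inl ⟨W, h0, h1, by simpa using h2, rfl⟩)), le_inf h hH⟩
  · exact ⟨_, Or.inl (Or.inr (Or.inr (Or.inl ⟨t, k, D, h0, rfl⟩))), le_inf h hH⟩
  · exact ⟨_, Or.inl (Or.inr (Or.inr (Or.inr (Or.inl ⟨k, D, by simpa using h0, h1, h2, rfl⟩)))),
      le_inf h hH⟩
  · exact ⟨_, Or.inr (Or.inl ⟨r, K, h0, h1, h2, h3, rfl⟩), le_inf h hH⟩
  · exact ⟨_, Or.inr (Or.inr (Or.inl ⟨a, b, e, P, f₁, f₂, h0, h1, h2, h3, h4, rfl⟩)), le_inf h hH⟩
  · exact ⟨_, Or.inl (Or.inr (Or.inr (Or.inr (Or.inr (Or.inl ⟨F₀, r, P, h0, h1, h2, h3, rfl⟩))))),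
      le_inf h hH⟩
  · exact ⟨_, Or.inl (Or.inr (Or.inr (Or.inr (Or.inr (Or.inr (Or.inl
      ⟨F₀, P, h0, h1, h2, rfl⟩)))))), le_inf h hH⟩
  · exact ⟨_, Or.inl (Or.inr (Or.inr (Or.inr (Or.inr (Or.inr (Or.inr (Or.inl
      ⟨F₀, P, ζ, by simpa using h0, h1, h2, h3, h4, h5, rfl⟩))))))), le_inf h hH⟩
  · refine ⟨_, Or.inl (Or.inr (Or.inr (Or.inr (Or.inr (Or.inr (Or.inr (Or.inr
      ⟨r, R, p, e, k, h.data.isSymplecticTypeGroup (by simpa using hn), absIrr_iff.1 h.data.abs,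
        h.sim, h.ne, h.min, ?_, rfl⟩))))))), le_inf h.data.norm.le_normalizer hH⟩
    exact h.type.imp_left fun h1 => ⟨h1.1, h1.2.1, h.pos, h1.2.2⟩
  · exact ⟨_, Or.inr (Or.inr (Or.inr ⟨k, t, e, P, f₁, h0, h1, h2, h3, h4, rfl⟩)), le_inf h hH⟩

end Cfsg.Agent.H7
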