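import Cfsg.Agent.H7.AschSU3b

set_option autoImplicit false
set_option linter.unusedSectionVars false
set_option linter.unusedVariables false
set_option linter.unnecessarySimpa false
set_option linter.style.haveILetI false
set_option linter.unusedSimpArgs false

/-! Small exceptions for `SU_3`. -/

namespace Cfsg.Agent.H7

open Cfsg Cfsg.Geo Matrix
open scoped MatrixGroups Kronecker commutatorElement

variable {ι : Type} [Fintype ι] [DecidableEq ι] {F : Type*} [Field F]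

lemma len35 : ∀ l ∈ L35, l.2.length = 3 := by decide +kernel

lemma len36 : ∀ l ∈ L36, l.2.length = 3 := by decide +kernel

lemma wf_L24 : ∀ M ∈ L24, wf 3 M := by decide +kernel

lemma su33_aux : ∀ a b c : F9, a ^ 3 = a → b ^ 3 = b → c ^ 3 = c → a * a + b * b + c * c = 1 →
    (b = 0 ∧ c = 0) ∨ (a = 0 ∧ c = 0) ∨ (a = 0 ∧ b = 0) := by decide +kernel

lemma ex35_code {σ : F →+* F} {d : ℕ → F} (hd : K25.Sound σ d) {Z : Matrix (Fin 3) (Fin 3) F}
    {α β : F} (h1 : Z * dm d 3 [[1, 0, 0], [0, 12, 0], [0, 0, 17]] =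
      α • (dm d 3 [[1, 0, 0], [0, 12, 0], [0, 0, 17]] * Z))
    (h2 : Z * dm d 3 [[0, 0, 1], [1, 0, 0], [0, 1, 0]] =
      β • (dm d 3 [[0, 0, 1], [1, 0, 0], [0, 1, 0]] * Z)) (h3 : Z * Z * Z = 1) (h4 : ¬ IsScal Z) :
    ∃ M ∈ L24, dm d 3 M = Z := by
  obtain ⟨a, ha, ha'⟩ := hd.surj (Z 0 0)
  obtain ⟨b, hb, hb'⟩ := hd.surj (Z 1 0)
  obtain ⟨c, hc, hc'⟩ := hd.surj (Z 2 0)
  obtain ⟨t, ht, rfl⟩ := hd.surj β
  have e0 := congrFun (congrFun h1 0) 0
  have e1 := congrFun (congrFun h1 1) 0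
  have e2 := congrFun (congrFun h1 2) 0
  simp only [mul_apply, Fin.sum_univ_three, dm_apply, Matrix.smul_apply, smul_eq_mul] at e0 e1 e2
  simp [hd.zero, hd.one] at e0 e1 e2
  have n1 : d 12 - 1 ≠ 0 := by
    rw [sub_ne_zero, ← hd.one]; exact (hd.ne _ _).1 (by decide +kernel)
  have n2 : d 17 - 1 ≠ 0 := by
    rw [sub_ne_zero, ← hd.one]; exact (hd.ne _ _).1 (by decide +kernel)
  have n3 : d 17 - d 12 ≠ 0 := by
    rw [sub_ne_zero]; exact (hd.ne _ _).1 (by decide +kernel)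
  have hZ : Z.det ≠ 0 := fun h0 => by
    have := congrArg det h3
    rw [det_mul, h0, mul_zero, det_one] at this
    exact zero_ne_one this
  have hY : (dm d 3 [[0, 0, 1], [1, 0, 0], [0, 1, 0]]).det = 1 :=
    (hd.isSU (hd.neg_one (m1 := 4) (by decide +kernel)) (by decide +kernel)).2.2
  have h5 : d t * (d t * d t) = 1 := by
    have := congrArg det h2
    rw [det_smul, det_mul, det_mul, hY, Fintype.card_fin] at this
    exact mul_right_cancel₀ hZ (by linear_combination -this)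
  have w1 : wf 3 (K25.smM t [[0, 0, 1], [1, 0, 0], [0, 1, 0]]) := wf_smM (by decide) t
  have h6 := hd.cyc_tr (C := [[0, 0, 1], [1, 0, 0], [0, 1, 0]]) (by decide) w1 (w := [a, b, c])
    (w₀ := [1, 0, 0]) rfl rfl (X := Z) (by rw [h2, hd.smM, smul_mul_assoc]) (by
      ext i
      fin_cases i <;> simp [dv, mulVec, dotProduct, Fin.sum_univ_three, hd.zero, hd.one, ha', hb', hc'])
    (by decide +kernel)
  have w2 := wf_tr (K25.wf_cyc w1 (w := [a, b, c]) rfl)
  have h7 := imp_iff.1 (imp_iff.1 (allLt_iff.1 (imp_iff.1 (imp_iff.1 (allLt_iff.1 (imp_iff.1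
    (allLt_iff.1 (allLt_iff.1 ex35a a ha) b hb) (by
      rw [hd.eq, hd.mul, hd.zero, ha', hb']
      exact mul_left_cancel₀ n1 (by linear_combination d 12 * Z 1 0 * e0 - Z 0 0 * e1))) c hc) (by
      rw [hd.eq, hd.mul, hd.zero, ha', hc']
      exact mul_left_cancel₀ n2 (by linear_combination d 17 * Z 2 0 * e0 - Z 0 0 * e2))) (by
      rw [hd.eq, hd.mul, hd.zero, hb', hc']
      exact mul_left_cancel₀ n3 (by linear_combination d 17 * Z 2 0 * e1 - d 12 * Z 1 0 * e2))) t ht)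
      (by rw [hd.eq, hd.mul, hd.mul, h5, hd.one]))
    (by rw [hd.meq_iff (wf_mm (wf_mm w2 _) _) (wf_idM 3), hd.mm' (wf_mm w2 _), hd.mm' w2, h6, h3,
      hd.idM])
  rw [Bool.or_eq_true, lany_iff, lany_iff] at h7
  rcases h7 with ⟨s, -, h7⟩ | ⟨M, hM, h7⟩
  · exact absurd ⟨d s, by rw [← h6, hd.of_meq 3 _ _ h7, hd.smM, hd.idM]⟩ h4
  · exact ⟨M, hM, by rw [← h6, hd.of_meq 3 _ _ h7]⟩

section SU

variable [Fintype F] {q : ℕ} (hF : Fintype.card F = q ^ 2) {σ : F →+* F} (hσ : ∀ x, σ x = x ^ q)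
  {f : (ι → F) → (ι → F) → F} (hf : HForm σ 1 f) {H : Subgroup (GL ι F)}
include hF hσ hf

lemma su35_frames (hq : q = 5) (hH : IsMaximalIn (SUf f) H) {D : Fin 3 → Submodule F (ι → F)}
    (hD : IsNondegenerateMDecomposition f 1 D) (h : H ≤ decompositionStabilizer D) : False := by
  subst hq
  obtain ⟨e, P, hG, hDe, hel⟩ := hf.mono_on hF hσ hD
  obtain ⟨d, hd⟩ := exists_sound25 hF hσ
  have hm := hd.neg_one (m1 := 4) (by decide +kernel)
  refine hd.false_of_code hf.toSesq hm hG hH h (setL d 3 L35) (fun g hg => ?_)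
    (A := [[1, 1, 2], [1, 2, 1], [2, 1, 1]]) (B := [[8, 19, 4], [23, 0, 21], [8, 11, 4]])
    (by decide +kernel) (by decide +kernel) (fun a ha => ?_)
    (hd.presF (TI := TI35) tab35 (by decide) (by decide +kernel)) (w := [0, 0, 1]) le_rfl
    (hd.inS 3 (by decide +kernel)) (hd.notS 3 len35 rfl (by decide +kernel))
  · obtain ⟨s, c, h1, h2, h3⟩ := hel g ⟨h hg, hH.1.le hg⟩
    obtain ⟨A, h4, h5, h6⟩ := hd.allMono hm mono35 s h1 (by rw [det_mono, h2])
    exact ⟨_, h3, h5 ▸ hd.presF tab35 h4 h6⟩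
  · rw [hDe]
    refine not_mem_decomp_id ha (i := 0) (j := 1) (k := 0) (by decide) ?_ ?_ <;>
      exact hd.zero ▸ (hd.ne 1 0).1 (by decide +kernel)

lemma su35_so (hq : q = 5) (hn : Fintype.card ι = 3) (hH : IsMaximalIn (SUf f) H)
    {F₀ : Subfield F} {P : GL ι F} (h1 : Fintype.card F = Nat.card F₀ ^ 2)
    (h2 : IsFormRationalStructure f F₀ 1 P) (h : H ≤ subfieldSubgroup F₀ P) : False := by
  subst hq
  obtain ⟨d, hd⟩ := exists_sound25 hF hσ
  have hm := hd.neg_one (m1 := 4) (by decide +kernel)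
  have hR : K25.realOK [0, 1, 2, 3, 4] = true := by decide +kernel
  obtain ⟨e, P', hG, hel⟩ := real_frame hF hσ hf (by decide) hn h1 h2 fun c => hd.witOK hR wit35
  refine hd.false_of_code hf.toSesq hm hG hH h (setL d 3 L35) (fun g hg => ?_)
    (A := [[1, 0, 0], [0, 12, 0], [0, 0, 17]]) (B := [[8, 19, 4], [23, 0, 21], [8, 11, 4]])
    (by decide +kernel) (by decide +kernel) (fun a ha h3 => ?_)
    (hd.presF (TI := TI35) tab35 (by decide) (by decide +kernel)) (w := [0, 0, 1]) le_rfl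
    (hd.inS 3 (by decide +kernel)) (hd.notS 3 len35 rfl (by decide +kernel))
  · obtain ⟨X, hX⟩ := (frameEquiv e P').surjective g
    obtain ⟨c, hc, h3⟩ := hel g (h hg) X hX.symm
    have h5 := hf.toSesq.tw_of_isom hX.symm (mem_SUf.1 (hH.1.le hg)).1
    rw [hG] at h5
    obtain ⟨s, hs, h6, h7, h8⟩ := hd.nrmOK (by decide +kernel) h5
      (by rw [← det_frameEquiv e P', hX, (mem_SUf.1 (hH.1.le hg)).2]) hc h3
    obtain ⟨A, h9, h10, h11⟩ := hd.allO3 hf.invol hm hR so35 h6 h7 h8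
    refine ⟨X, hX.symm, fun w hw => ?_⟩
    have := setL_smul s⁻¹ (hd.presF tab35 h9 h11 w hw)
    rwa [h10, smul_mulVec, smul_smul, inv_mul_cancel₀ hs, one_smul] at this
  · obtain ⟨c, hc, h4⟩ := hel a h3 _ ha
    have h5 : σ (c * d 1) = c * d 1 := h4 0 0
    have h6 : σ (c * d 12) = c * d 12 := h4 1 1
    rw [hd.one, mul_one] at h5
    rw [map_mul, h5, ← hd.conj] at h6
    exact (hd.ne _ _).1 (by decide +kernel) (mul_left_cancel₀ hc h6)

lemma su33_so (hq : q = 3) (hn : Fintype.card ι = 3) (hH : IsMaximalIn (SUf f) H)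
    {F₀ : Subfield F} {P : GL ι F} (h1 : Fintype.card F = Nat.card F₀ ^ 2)
    (h2 : IsFormRationalStructure f F₀ 1 P) (h : H ≤ subfieldSubgroup F₀ P) :
    ∃ D : Fin 3 → Submodule F (ι → F), IsNondegenerateMDecomposition f 1 D ∧
      H = decompositionStabilizer D ⊓ SUf f := by
  subst hq
  obtain ⟨d, hd⟩ := exists_sound9 hF hσ
  obtain ⟨φ⟩ := exists_equiv_F9 hF
  have hR : K9.realOK [0, 1, 2] = true := by decide +kernel
  obtain ⟨e, P', hG, hel⟩ := real_frame hF hσ hf (by decide) hn h1 h2 fun c => hd.witOK hR wit33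
  have key := hf.exists_frames (H := H) (by omega) (c := 1) (by rw [hG, one_smul]) fun g hg => by
    obtain ⟨X, hX⟩ := (frameEquiv e P').surjective g
    obtain ⟨c, hc, h3⟩ := hel g (h hg) X hX.symm
    have h5 := hf.toSesq.tw_of_isom hX.symm (mem_SUf.1 (hH.1.le hg)).1
    rw [hG] at h5
    obtain ⟨s, hs, h6, -, h8⟩ := hd.nrmOK (by decide +kernel) h5
      (by rw [← det_frameEquiv e P', hX, (mem_SUf.1 (hH.1.le hg)).2]) hc h3
    refine ⟨X, hX.symm, fun y => ?_⟩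
    have h9 := cols_of_tw (h6.trans (one_smul F _).symm) y
    simp only [h8, Fin.sum_univ_three] at h9
    have h10 := su33_aux (φ ((s • X) 0 y)) (φ ((s • X) 1 y)) (φ ((s • X) 2 y))
      (by rw [← map_pow, ← hσ, h8]) (by rw [← map_pow, ← hσ, h8]) (by rw [← map_pow, ← hσ, h8])
      (by rw [← map_mul, ← map_mul, ← map_mul, ← map_add, ← map_add, h9, map_one])
    simp only [map_eq_zero, Matrix.smul_apply, smul_eq_mul, mul_eq_zero, hs, false_or] at h10
    rcases h10 with h10 | h10 | h10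
    · exact ⟨0, fun x hx => by fin_cases x <;> simp_all⟩
    · exact ⟨1, fun x hx => by fin_cases x <;> simp_all⟩
    · exact ⟨2, fun x hx => by fin_cases x <;> simp_all⟩
  rw [hn] at key
  obtain ⟨D, hD, h3⟩ := key
  exact ⟨D, hD, eq_inf_of_max hH h3 (SU_not_le_decomp hF hσ hf hn.ge (by omega) hD)⟩

lemma ex3_frame (hn : Fintype.card ι = 3) (h3 : (3 : F) ≠ 0) {c : F} (hc : c * c + c + 1 = 0)
    {x y : Matrix ι ι F} (hx : x * x * x = 1) (hy : y * y * y = 1) (hxy : x * y = c • (y * x))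
    (t1 : x.trace = 0) (t2 : (x * x).trace = 0) (ix : ∀ u v, f (x *ᵥ u) (x *ᵥ v) = f u v)
    (iy : ∀ u v, f (y *ᵥ u) (y *ᵥ v) = f u v) :
    ∃ (e : ι ≃ Fin 3) (P : GL ι F), frameGram f e P = 1 ∧
      x = frameEquiv e P !![1, 0, 0; 0, c, 0; 0, 0, c * c] ∧
      y = frameEquiv e P !![0, 0, 1; 1, 0, 0; 0, 1, 0] := by
  have hc1 : c - 1 ≠ 0 := fun h => h3 (by linear_combination hc - (c + 2) * h)
  have hc0 : c ≠ 0 := fun h => by simp [h] at hc
  have hc2 : c * c - 1 ≠ 0 := fun h => h3 (by linear_combination (2 - c) * hc + (c - 1) * h)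
  obtain ⟨u, hu⟩ : ∃ u, (1 + x + x * x) *ᵥ u ≠ 0 := by
    by_contra h
    push Not at h
    have := congrArg trace (mat_eq_zero_of_mulVec h)
    rw [trace_add, trace_add, t1, t2, trace_one, hn, trace_zero] at this
    exact h3 (by simpa using this)
  have hv : x *ᵥ ((1 + x + x * x) *ᵥ u) = (1 + x + x * x) *ᵥ u := by
    rw [mulVec_mulVec, mul_add, mul_add, ← mul_assoc, hx, mul_one]
    congr 1
    abel
  generalize (1 + x + x * x) *ᵥ u = v at hu hv
  have k : ∀ w, x *ᵥ (y *ᵥ w) = c • (y *ᵥ (x *ᵥ w)) := fun w => by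
    rw [mulVec_mulVec, mulVec_mulVec, hxy, smul_mulVec]
  have ky : ∀ w, y *ᵥ (y *ᵥ (y *ᵥ w)) = w := fun w => by
    rw [mulVec_mulVec, mulVec_mulVec, hy, one_mulVec]
  have key : ∀ w, x *ᵥ w = w → x *ᵥ (y *ᵥ w) = c • (y *ᵥ w) ∧
      x *ᵥ (y *ᵥ (y *ᵥ w)) = (c * c) • (y *ᵥ (y *ᵥ w)) ∧ f (y *ᵥ w) w = 0 ∧
      f (y *ᵥ (y *ᵥ w)) w = 0 := fun w hw => by
    have a1 : x *ᵥ (y *ᵥ w) = c • (y *ᵥ w) := by rw [k, hw]
    have a2 : x *ᵥ (y *ᵥ (y *ᵥ w)) = (c * c) • (y *ᵥ (y *ᵥ w)) := by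
      rw [k, a1, mulVec_smul, smul_smul]
    refine ⟨a1, a2, mul_left_cancel₀ hc1 ?_, mul_left_cancel₀ hc2 ?_⟩
    · have := ix (y *ᵥ w) w
      rw [a1, hw, hf.smul_left] at this
      linear_combination this
    · have := ix (y *ᵥ (y *ᵥ w)) w
      rw [a2, hw, hf.smul_left] at this
      linear_combination this
  obtain ⟨a1, a2, a3, a4⟩ := key v hv
  have hvv : f v v ≠ 0 := fun h0 => by
    have n1 : y *ᵥ v ≠ 0 := fun h => hu (by rw [← ky v, h, mulVec_zero, mulVec_zero])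
    have n2 : y *ᵥ (y *ᵥ v) ≠ 0 := fun h => hu (by rw [← ky v, h, mulVec_zero])
    have hli : LinearIndependent F ![v, y *ᵥ v, y *ᵥ (y *ᵥ v)] := by
      rw [Fintype.linearIndependent_iff]
      intro g hg
      simp only [Fin.sum_univ_three, cons_val_zero, cons_val_one, cons_val] at hg
      have g1 := congrArg (x *ᵥ ·) hg
      simp only [mulVec_add, mulVec_smul, hv, a1, a2, mulVec_zero] at g1
      have g2 := congrArg (x *ᵥ ·) g1
      simp only [mulVec_add, mulVec_smul, hv, a1, a2, mulVec_zero] at g2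
      have b0 : (3 * g 0) • v = 0 := by
        linear_combination (norm := skip) hg + g1 + g2
        have : g 0 • v + g 1 • y *ᵥ v + g 2 • y *ᵥ y *ᵥ v +
          (g 0 • v + g 1 • c • y *ᵥ v + g 2 • (c * c) • y *ᵥ y *ᵥ v) +
          (g 0 • v + g 1 • c • c • y *ᵥ v + g 2 • (c * c) • (c * c) • y *ᵥ y *ᵥ v) =
          (3 * g 0) • v + (g 1 * (c * c + c + 1)) • y *ᵥ v +
          (g 2 * ((c * c + c + 1) * (c * c - c + 1))) • y *ᵥ y *ᵥ v := by module
        rw [this, hc]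
        simp
      have b0' : g 0 = 0 := by simpa [h3, hu] using b0
      rw [b0'] at hg g1
      have b2 : ((c * c - c) * g 2) • y *ᵥ (y *ᵥ v) = 0 := by
        linear_combination (norm := module) g1 - c • hg
      have b2' : g 2 = 0 := by
        have : c * c - c ≠ 0 := fun h => mul_ne_zero hc0 hc1 (by linear_combination h)
        simpa [this, n2, -mulVec_mulVec] using b2
      rw [b2'] at hg
      intro i
      fin_cases i
      · exact b0'
      · simpa [n1] using hg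
      · exact b2'
    have hsp := hli.span_eq_top_of_card_eq_finrank' (by simp [hn])
    refine hu (hf.toSesq.eq_zero_of_left fun w => ?_)
    have hw : w ∈ Submodule.span F (Set.range ![v, y *ᵥ v, y *ᵥ (y *ᵥ v)]) := hsp ▸ trivial
    obtain ⟨g, rfl⟩ := (Submodule.mem_span_range_iff_exists_fun F).1 hw
    simp [Fin.sum_univ_three, hf.add_left, hf.smul_left, h0, a3, a4, -mulVec_mulVec]
  obtain ⟨l, hl⟩ := hf.exists_unit hF hσ hvv (map_one σ)
  have hv' : x *ᵥ (l • v) = l • v := by rw [mulVec_smul, hv]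
  generalize l • v = w at hl hv'
  obtain ⟨b1, b2, b3, b4⟩ := key w hv'
  have hb : ∀ i j : Fin 3, f (![w, y *ᵥ w, y *ᵥ (y *ᵥ w)] i) (![w, y *ᵥ w, y *ᵥ (y *ᵥ w)] j) =
      if i = j then 1 else 0 := fun i j => by
    fin_cases i <;> fin_cases j <;>
      simp [iy, hl, b3, b4, hf.eq_zero_comm b3, hf.eq_zero_comm b4, -mulVec_mulVec]
  have hli := hf.toSesq.linearIndependent_of_orthonormal hb
  obtain ⟨e, P, hP⟩ := exists_frame _ hli (hli.span_eq_top_of_card_eq_finrank' (by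
    simp [hn])).ge
  refine ⟨e, P, frameGram_eq_one hP hb, eq_frameEquiv _ _ fun i => ?_, eq_frameEquiv _ _ fun i => ?_⟩
  · simp only [hP, Fin.sum_univ_three]
    fin_cases i <;> simp [hv', b1, b2, -mulVec_mulVec]
  · simp only [hP, Fin.sum_univ_three]
    fin_cases i <;> simp [ky, -mulVec_mulVec]

lemma su35_extra (hq : q = 5) (hn : Fintype.card ι = 3) (hH : IsMaximalIn (SUf f) H)
    {R : Subgroup (GL ι F)} {p e k : ℕ} (hR : SUExtra f H R 3 p e k) : False := by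
  subst hq
  haveI := nonempty_of_two_le (ι := ι) (by omega)
  obtain ⟨d, hd⟩ := exists_sound25 hF hσ
  have hm := hd.neg_one (m1 := 4) (by decide +kernel)
  have h3 : (3 : F) ≠ 0 := by exact_mod_cast hR.data.cast_ne_zero (by omega)
  have hw : d 12 * d 12 = d 17 := by rw [← hd.mul, ← hd.eq]; decide +kernel
  have hw' : d 12 * d 12 + d 12 + 1 = 0 := by
    rw [← hd.mul, ← hd.add, ← hd.one, ← hd.add, ← hd.zero, ← hd.eq]; decide +kernel
  have hpow : ∀ z ∈ R, (z : Matrix ι ι F) * z * z = 1 := fun z hz => by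
    have := congrArg Units.val (hR.data.pow z hz)
    rwa [show 3 * Nat.gcd 2 3 = 3 from rfl, pow_three', Units.val_mul, Units.val_mul] at this
  have hcomm : ∀ z ∈ R, ∀ z' ∈ R, ∃ c : F, (z : Matrix ι ι F) * z' = c • ((z' : Matrix ι ι F) * z) :=
    fun z hz z' hz' => by
      obtain ⟨c, hc⟩ := exists_comm_scal (hR.data.comm z hz z' hz')
      exact ⟨c, by rw [← Units.val_mul, hc, Units.val_mul, scalGL_val, smul_one_mul, Units.val_mul]⟩
  obtain ⟨x, hx, y, hy, hxy⟩ : ∃ x ∈ R, ∃ y ∈ R,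
      (x : Matrix ι ι F) * y = d 12 • ((y : Matrix ι ι F) * x) := by
    obtain ⟨x, hx, y, hy, c, hc1, hc3, hxy⟩ :=
      exists_root_of_comm (by omega) hR.data.abs hR.data.comm hR.data.pow_scal
    have h4 : (x : Matrix ι ι F) * y = (c : F) • ((y : Matrix ι ι F) * x) := by
      rw [← Units.val_mul, hxy, Units.val_mul, scalGL_val, smul_one_mul, Units.val_mul]
    have h5 : (c : F) ^ 3 = 1 := by rw [← Units.val_pow_eq_pow_val, hc3, Units.val_one]
    have h6 : (c : F) - 1 ≠ 0 := fun h => hc1 (Units.ext (sub_eq_zero.1 h))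
    have h7 : ((c : F) - d 12) * (c * d 12 - 1) = 0 := mul_left_cancel₀ h6 (by
      linear_combination d 12 * h5 - ((c : F) - 1) * c * hw')
    rcases mul_eq_zero.1 h7 with h | h
    · exact ⟨x, hx, y, hy, by rw [h4, sub_eq_zero.1 h]⟩
    · exact ⟨y, hy, x, hx, by rw [h4, smul_smul, mul_comm (d 12), sub_eq_zero.1 h, one_smul]⟩
  have hc1 : d 12 - 1 ≠ 0 := fun h => h3 (by linear_combination hw' - (d 12 + 2) * h)
  have hns : ¬ IsScal (x : Matrix ι ι F) ∧ ¬ IsScal (y : Matrix ι ι F) := by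
    rw [← not_or]
    intro h
    have h4 : (x : Matrix ι ι F) * y = y * x := h.elim (fun h => h.comm _) fun h => (h.comm _).symm
    have h5 : (d 12 - 1) • ((y * x : GL ι F) : Matrix ι ι F) = 0 := by
      rw [Units.val_mul, sub_smul, ← hxy, h4, one_smul, sub_self]
    exact (y * x).ne_zero ((smul_eq_zero.1 h5).resolve_left hc1)
  obtain ⟨e, P, hG, hxe, hye⟩ := ex3_frame hF hσ hf hn h3 hw' (hpow x hx) (hpow y hy) hxy
    (hR.data.trace_eq_zero hx fun h => hns.1 (isScal_of_mem_scalars h))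
    (hR.data.trace_eq_zero (R.mul_mem hx hx) fun h => hns.1 (by
      obtain ⟨s, hs⟩ := isScal_of_mem_scalars h
      have h4 := hpow x hx
      rw [← Units.val_mul, hs, smul_one_mul] at h4
      have hs0 : s ≠ 0 := by
        rintro rfl
        rw [zero_smul] at h4
        exact zero_ne_one h4
      exact ⟨s⁻¹, by rw [← h4, smul_smul, inv_mul_cancel₀ hs0, one_smul]⟩))
    (hR.isom (by decide) x hx) (hR.isom (by decide) y hy)
  have hX0 : dm d 3 [[1, 0, 0], [0, 12, 0], [0, 0, 17]] = !![1, 0, 0; 0, d 12, 0; 0, 0, d 12 * d 12] := by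
    ext i j
    fin_cases i <;> fin_cases j <;> simp [dm_apply, hd.zero, hd.one, hw]
  have hY0 : dm d 3 [[0, 0, 1], [1, 0, 0], [0, 1, 0]] = !![0, 0, 1; 1, 0, 0; 0, 1, 0] := by
    ext i j
    fin_cases i <;> fin_cases j <;> simp [dm_apply, hd.zero, hd.one]
  rw [← hX0] at hxe
  rw [← hY0] at hye
  have key : ∀ g ∈ subgroupNormalizer R, ∀ G, (g : Matrix ι ι F) = frameEquiv e P G → ∀ z ∈ R,
      ¬ IsScal (z : Matrix ι ι F) → ∀ Z, (z : Matrix ι ι F) = frameEquiv e P Z →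
        ∃ M ∈ L24, G * Z = dm d 3 M * G := by
    intro g hg G hG z hz hzs Z hZ
    have h4 := normG_of_le_normalizer le_rfl g hg z hz
    obtain ⟨Z', hZ'⟩ := (frameEquiv e P).surjective ((g * z * g⁻¹ : GL ι F) : Matrix ι ι F)
    obtain ⟨α, hα⟩ := hcomm _ h4 x hx
    obtain ⟨β, hβ⟩ := hcomm _ h4 y hy
    obtain ⟨M, hM, h5⟩ := ex35_code hd (Z := Z') (α := α) (β := β)
      ((frameEquiv e P).injective (by rw [map_mul, map_smul, map_mul, hZ', ← hxe, hα]))
      ((frameEquiv e P).injective (by rw [map_mul, map_smul, map_mul, hZ', ← hye, hβ]))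
      ((frameEquiv e P).injective (by rw [map_mul, map_mul, hZ', map_one, hpow _ h4]))
      (fun h5 => hzs (by rw [← isScal_cj_iff g, cj_val, ← hZ']; exact isScal_frameEquiv e P h5))
    exact ⟨M, hM, (frameEquiv e P).injective (by
      rw [map_mul, map_mul, h5, hZ', ← hG, ← hZ, ← cj_val, cj_mul_val])⟩
  refine hd.false_of_code hf.toSesq hm hG hH hR.data.norm.le_normalizer (setL d 3 L36)
    (fun g hg => ?_) (A := [[1, 2, 18], [2, 1, 18], [13, 13, 2]])
    (B := [[12, 3, 12], [4, 17, 3], [3, 17, 4]]) (by decide +kernel) (by decide +kernel)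
    (fun a ha h4 => ?_) (hd.presF (TI := TI35) tab36 (by decide) (by decide +kernel))
    (w := [1, 1, 5]) le_rfl (hd.inS 3 (by decide +kernel))
    (hd.notS 3 len36 rfl (by decide +kernel))
  · obtain ⟨X, hX⟩ := (frameEquiv e P).surjective g
    have h5 := hf.toSesq.tw_of_isom hX.symm (mem_SUf.1 (hH.1.le hg)).1
    rw [hG] at h5
    have h6 : X.det = 1 := by rw [← det_frameEquiv e P, hX, (mem_SUf.1 (hH.1.le hg)).2]
    obtain ⟨M, hM, h7⟩ := key g (hR.data.norm.le_normalizer hg) X hX.symm x hx hns.1 _ hxe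
    obtain ⟨N, hN, h8⟩ := key g (hR.data.norm.le_normalizer hg) X hX.symm y hy hns.2 _ hye
    obtain ⟨p, hp, h9, h10⟩ := hd.allV 3 _ ex35b (X *ᵥ dv d 3 [1, 0, 0])
    have h11 := hd.cyc_tr (by decide) (wf_L24 N hN) hp (w₀ := [1, 0, 0]) rfl h8 h9
      (by decide +kernel)
    have h12 := imp_iff.1 (imp_iff.1 (lall_iff.1 (imp_iff.1 (imp_iff.1 h10 (by
      rw [hd.eq, hd.hm 3 _ _ hp.le, h9, dot_isom h5, ← hd.hm 3 _ _ le_rfl, ← hd.eq]
      decide +kernel)) (lany_iff.2 ⟨M, hM, hd.veq_of 3 _ _ (by simp [CF.mv, (wf_L24 M hM).1]) hp (by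
        rw [hd.mv 3 _ _ hp.le, h9, mulVec_mulVec, ← h7, ← mulVec_mulVec, ← hd.mv 3 _ _ le_rfl,
          hd.of_veq 3 _ [1, 0, 0] (by decide +kernel)])⟩)) N hN) (by
      rw [hd.eq, hd.hm 3 _ _ hp.le, hd.mv 3 _ _ hp.le, h9, mulVec_mulVec, ← h8, ← mulVec_mulVec,
        dot_isom h5, ← hd.mv 3 _ _ le_rfl, ← hd.hm 3 _ _ le_rfl, ← hd.eq]
      decide +kernel)) (by rw [hd.eq, hd.dt hm, h11, h6, hd.one])
    exact ⟨X, hX.symm, h11 ▸ hd.presF tab36 (wf_tr (K25.wf_cyc (wf_L24 N hN) hp)) h12⟩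
  · obtain ⟨M, hM, h5⟩ := key a h4 _ ha x hx hns.1 _ hxe
    have w1 : wf 3 [[1, 2, 18], [2, 1, 18], [13, 13, 2]] := by decide
    rw [← hd.mm' w1, ← hd.mm' (wf_L24 M hM), ← hd.meq_iff (wf_mm w1 _) (wf_mm (wf_L24 M hM) _)] at h5
    have h6 : lall L24 (fun M => !K25.meq (K25.mm 3 [[1, 2, 18], [2, 1, 18], [13, 13, 2]]
      [[1, 0, 0], [0, 12, 0], [0, 0, 17]]) (K25.mm 3 M [[1, 2, 18], [2, 1, 18], [13, 13, 2]])) =
        true := by decide +kernel
    simpa [h5] using lall_iff.1 h6 M hM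

end SU

end Cfsg.Agent.H7
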