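import Cfsg.Agent.H7.AschCode2

set_option autoImplicit false
set_option linter.unusedSectionVars false
set_option linter.unusedVariables false
set_option linter.unnecessarySimpa false
set_option linter.style.haveILetI false
set_option linter.unusedSimpArgs false

/-! Small exceptions for `SU_4`. -/

namespace Cfsg.Agent.H7

open Cfsg Cfsg.Geo Matrix
open scoped MatrixGroups Kronecker commutatorElement

variable {ι : Type} [Fintype ι] [DecidableEq ι] {F : Type*} [Field F]

section Bm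
variable {T α : Type} [Fintype T] [DecidableEq T] [Fintype α] [DecidableEq α]

lemma bm_mul (s s' : Equiv.Perm T) (a a' : T → Matrix α α F) :
    bm s a * bm s' a' = bm (s * s') fun i => a (s' i) * a' i := by
  ext ⟨k, i⟩ ⟨l, j⟩
  simp only [mul_apply, bm_apply, Fintype.sum_prod_type, mul_ite, mul_zero, Finset.sum_ite_eq',
    Finset.mem_univ, if_true, ite_mul, zero_mul, Equiv.Perm.mul_apply]
  split_ifs <;> simp

lemma bm_transpose (s : Equiv.Perm T) (a : T → Matrix α α F) :
    (bm s a)ᵀ = bm s⁻¹ fun i => (a (s⁻¹ i))ᵀ := by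
  ext ⟨k, i⟩ ⟨l, j⟩
  simp only [transpose_apply, bm_apply, Equiv.Perm.eq_inv_iff_eq]
  by_cases h : j = s i
  · subst h; simp
  · rw [if_neg h, if_neg (Ne.symm h)]

lemma bm_map (σ : F →+* F) (s : Equiv.Perm T) (a : T → Matrix α α F) :
    (bm s a).map σ = bm s fun i => (a i).map σ := by
  ext ⟨k, i⟩ ⟨l, j⟩
  simp [bm_apply, apply_ite σ]

lemma bm_one (a : T → Matrix α α F) : bm 1 a = blockDiagonal a := by
  ext ⟨k, i⟩ ⟨l, j⟩
  simp only [bm_apply, blockDiagonal_apply, Equiv.Perm.one_apply]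
  by_cases h : i = j
  · subst h; simp
  · simp [h]

lemma bm_inj {s s' : Equiv.Perm T} {a a' : T → Matrix α α F} (h : bm s a = bm s' a')
    (hs : s = s') (i : T) : a i = a' i := by
  subst hs
  ext k l
  simpa [bm_apply] using congrFun (congrFun h (k, s i)) (l, i)

end Bm

lemma J2_conj (X : Matrix (Fin 2) (Fin 2) F) :
    X * J2 F * Xᵀ = X.det • J2 F ∧ Xᵀ * J2 F * X = X.det • J2 F := by
  constructor <;> ext i j <;> fin_cases i <;> fin_cases j <;>
    simp [J2, mul_apply, det_fin_two, Fin.sum_univ_two] <;> ring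

lemma J2_sq : J2 F * J2 F = -1 := by
  ext i j
  fin_cases i <;> fin_cases j <;> simp [J2, mul_apply]

lemma J2_map (σ : F →+* F) : (J2 F).map σ = J2 F := by
  ext i j
  fin_cases i <;> fin_cases j <;> simp [J2]

lemma det_map' (σ : F →+* F) (X : Matrix ι ι F) : (X.map σ).det = σ X.det :=
  (RingHom.map_det σ X).symm

section SU

variable [Fintype F] {q : ℕ} (hF : Fintype.card F = q ^ 2) {σ : F →+* F} (hσ : ∀ x, σ x = x ^ q)
  {f : (ι → F) → (ι → F) → F} (hf : HForm σ 1 f) {H : Subgroup (GL ι F)}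
include hF hσ hf

lemma SUSub.of_bilinear [Nonempty ι] (hI : Isom f H) {κ : Type} [Fintype κ] [DecidableEq κ]
    (e : ι ≃ κ) (P : GL ι F) {N B : Matrix κ κ F} (hN : N.map σ * N = 1)
    (hB : frameGram f e P * N = B)
    (hH : ∀ g ∈ H, ∃ (X : Matrix κ κ F) (c : F), (g : Matrix ι ι F) = frameEquiv e P X ∧
      tw (RingHom.id F) B X = c • B) (hs : Bᵀ = B ∨ Bᵀ = -B) (hd : ∀ i, B i i = 0) :
    SUSub q f H := by
  refine SUSub.of_descent hF hσ hf e P (M := N.map σ) (by rw [map_map_invol hf.invol, hN])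
    (fun g hg => ?_) (by rwa [map_map_invol hf.invol, hB]) (by rwa [map_map_invol hf.invol, hB])
  obtain ⟨X, c, h1, h2⟩ := hH g hg
  refine ⟨X, σ c, h1, ?_⟩
  have h3 := hf.toSesq.tw_of_isom h1 (hI g hg)
  have h4 : N * X = c • (X.map σ * N) := by
    refine mul_left_cancel_det (z := Xᵀ * frameGram f e P) ?_ ?_
    · rw [det_mul, det_transpose, ← det_frameEquiv e P X, ← h1]
      exact mul_ne_zero (val_det_ne_zero g) (hf.toSesq.frameGram_det e P)
    · rw [tw, RingHom.coe_id, Matrix.map_id] at h2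
      rw [tw] at h3
      rw [Matrix.mul_smul, ← mul_assoc _ (X.map σ), h3, hB, ← h2, ← hB]
      simp only [mul_assoc]
  have h5 := congrArg (fun Z => Z.map σ) h4
  simpa only [Matrix.map_mul, map_smul_ringHom, map_map_invol hf.invol] using h5

omit hf in
lemma sq_eq_one_of_fixed (hq : q ≤ 3) {x : F} (hx : x ≠ 0) (h : σ x = x) : x * x = 1 := by
  have := two_le_q hF
  rw [hσ] at h
  interval_cases q
  · rw [mul_left_cancel₀ hx (show x * x = x * 1 by linear_combination h), one_mul]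
  · exact mul_left_cancel₀ hx (by linear_combination h)

lemma su4_pair (hq : q ≤ 3) (hH : H ≤ SUf f) {D : Fin 2 → Submodule F (ι → F)}
    (hD : IsMDecomposition 2 D) (hts : ∀ i, IsTotallySingularFor f (D i))
    (h : H ≤ decompositionStabilizer D) : SUSub q f H := by
  have hmul := IsMDecomposition.mul_eq hD
  haveI := nonempty_of_two_le (ι := ι) (by omega)
  obtain ⟨e, P, hDe, hel⟩ := IsMDecomposition.exists_frame hD
  let τ : Equiv.Perm (Fin 2) := Equiv.swap 0 1
  obtain ⟨Γ, hG⟩ : ∃ Γ : Matrix (Fin 2) (Fin 2) F, frameGram f e P = bm τ ![(Γ.map σ)ᵀ, Γ] := by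
    refine ⟨Matrix.of fun k l => frameGram f e P (k, 0) (l, 1), ?_⟩
    have h0 : ∀ k l i, frameGram f e P (k, i) (l, i) = 0 := fun k l i =>
      hts i _ (hDe ▸ single_mem_blockSub e P Prod.snd (k, i) 1) _
        (hDe ▸ single_mem_blockSub e P Prod.snd (l, i) 1)
    ext ⟨k, i⟩ ⟨l, j⟩
    fin_cases i <;> fin_cases j
    · simpa [bm_apply, τ] using h0 k l 0
    · simp [bm_apply, τ]
    · simp [bm_apply, τ, frameGram_apply, ← hf.herm1]
    · simpa [bm_apply, τ] using h0 k l 1
  have hγ : Γ.det ≠ 0 := det_ne_zero_of_bm (hG ▸ hf.toSesq.frameGram_det e P) 1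
  have hσγ : σ Γ.det ≠ 0 := (map_ne_zero σ).2 hγ
  have hττ : τ * τ = 1 := Equiv.swap_mul_self _ _
  refine SUSub.of_bilinear hF hσ hf ((isom_SUf f).mono hH) e P
    (N := bm τ ![-(J2 F * Γᵀ), (σ Γ.det)⁻¹ • (J2 F * Γ.map σ)])
    (B := blockDiagonal fun i => (![-Γ.det, 1] i) • J2 F) ?_ ?_ (fun g hg => ?_) (Or.inr ?_)
    fun i => ?_
  · rw [bm_map, bm_mul, hττ, bm_one, ← blockDiagonal_one]
    congr 1
    funext i
    fin_cases i
    · simp only [τ, Fin.zero_eta, Equiv.swap_apply_left, cons_val_one, cons_val_zero,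
        map_smul_ringHom, Matrix.map_mul, J2_map, map_map_invol hf.invol, map_inv₀, hf.invol,
        mul_neg, smul_mul_assoc, Pi.one_apply]
      rw [mul_assoc, ← mul_assoc Γ, (J2_conj Γ).1, Matrix.mul_smul, J2_sq, smul_smul,
        inv_mul_cancel₀ hγ]
      simp
    · simp only [τ, Fin.mk_one, Equiv.swap_apply_right, cons_val_one, cons_val_zero,
        Matrix.map_neg _ (map_neg σ), Matrix.map_mul, J2_map, transpose_map, neg_mul,
        Matrix.mul_smul, Pi.one_apply]
      rw [mul_assoc, ← mul_assoc (Γ.map σ)ᵀ, (J2_conj _).2, Matrix.mul_smul, J2_sq, det_map']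
      simp [smul_smul, hσγ]
  · rw [hG, bm_mul, hττ, bm_one]
    congr 1
    funext i
    fin_cases i
    · simp only [τ, Fin.zero_eta, Equiv.swap_apply_left, cons_val_one, cons_val_zero, mul_neg,
        neg_smul]
      rw [← mul_assoc, (J2_conj Γ).1]
    · simp only [τ, Fin.mk_one, Equiv.swap_apply_right, cons_val_one, cons_val_zero,
        Matrix.mul_smul]
      rw [← mul_assoc, (J2_conj _).2, det_map', smul_smul, inv_mul_cancel₀ hσγ]
  · obtain ⟨s, a, ha, h1⟩ := hel g (h hg)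
    have h2 := hf.toSesq.tw_of_isom h1 (mem_SUf.1 (hH hg)).1
    have h3 := (mem_SUf.1 (hH hg)).2
    rw [h1, det_frameEquiv, det_bm, Fintype.card_fin, pow_two, sign_cast_sq, one_mul,
      Fin.prod_univ_two] at h3
    rw [hG, tw, bm_transpose, bm_map, bm_mul, bm_mul] at h2
    have key : ∀ c : F, (∀ i, (a i).det * ![-Γ.det, 1] (s i) = c * ![-Γ.det, 1] i) →
        ∃ (X : Matrix _ _ F) (c : F), (g : Matrix ι ι F) = frameEquiv e P X ∧
          tw (RingHom.id F) (blockDiagonal fun i => (![-Γ.det, 1] i) • J2 F) X =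
            c • blockDiagonal fun i => (![-Γ.det, 1] i) • J2 F := fun c hc =>
      ⟨_, c, h1, by
        rw [tw_bm]
        exact blockDiagonal_smul_eq fun i => by
          rw [tw_smul, tw_J2, smul_smul, smul_smul, mul_comm, hc]⟩
    have hs : s = 1 ∨ s = τ := by
      clear key h1 h2
      revert s
      decide
    rcases hs with rfl | rfl
    · have h4 := congrArg det (bm_inj h2 (by simp) 1)
      simp only [τ, inv_one, Equiv.Perm.one_apply, Equiv.swap_apply_right, cons_val_one,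
        cons_val_zero, det_mul, det_transpose, det_map'] at h4
      have h5 : σ (a 1).det = (a 1).det :=
        mul_left_cancel₀ (mul_ne_zero (ha 0) hγ) (by linear_combination h4 - Γ.det * h3)
      have h6 := sq_eq_one_of_fixed hF hσ hq (ha 1) h5
      refine key (a 1).det fun i => ?_
      fin_cases i
      · simp only [Fin.zero_eta, Equiv.Perm.one_apply]
        rw [mul_right_cancel₀ (ha 1) (h3.trans h6.symm)]
      · rfl
    · have h4 := congrArg det (bm_inj h2 (by simp) 1)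
      simp only [τ, Equiv.swap_inv, Equiv.swap_apply_right, Equiv.swap_apply_left, cons_val_one,
        cons_val_zero, det_mul, det_transpose, det_map'] at h4
      have h5 : σ (Γ.det * (a 1).det) = Γ.det * (a 1).det := by
        rw [map_mul]
        exact mul_left_cancel₀ (ha 0) (by linear_combination h4 - Γ.det * h3)
      have h6 := sq_eq_one_of_fixed hF hσ hq (mul_ne_zero hγ (ha 1)) h5
      refine key (-((a 1).det * Γ.det)) fun i => ?_
      fin_cases i
      · simp only [τ, Fin.zero_eta, Equiv.swap_apply_left, cons_val_one, cons_val_zero]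
        exact mul_left_cancel₀ (ha 1) (by linear_combination h3 - h6)
      · simp [τ]
  · rw [blockDiagonal_transpose, ← blockDiagonal_neg]
    congr 1
    funext i
    simp [J2_transpose]
  · simp [blockDiagonal_apply, J2_diag]

end SU

/-- the sixty points -/
def Sb43 (l : List ℕ) : Bool := !K9.eqb (K9.hm l l) 0 && (!K9.eqb (K9.dot (K9.nm l) (K9.nm l)) 0 &&
  K9.eqb (K9.mu (K9.pr l) (K9.mu (K9.pr l) (K9.pr l))) (K9.pr l))

lemma su43_chk : K9.allV 4 (fun l => imp (Sb43 l)
    (Sb43 (K9.mv [[4, 4, 0, 0], [4, 8, 0, 0], [0, 0, 4, 8], [0, 0, 4, 4]] l))) = true := by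
  decide +kernel

lemma su43_frames [Fintype F] {q : ℕ} (hF : Fintype.card F = q ^ 2) {σ : F →+* F}
    (hσ : ∀ x, σ x = x ^ q) {f : (ι → F) → (ι → F) → F} (hf : HForm σ 1 f) {H : Subgroup (GL ι F)}
    (hq : q = 3) (hH : IsMaximalIn (SUf f) H) {D : Fin 4 → Submodule F (ι → F)}
    (hD : IsNondegenerateMDecomposition f 1 D) (h : H ≤ decompositionStabilizer D) : False := by
  subst hq
  obtain ⟨e, P, hG, hDe, hel⟩ := hf.mono_on hF hσ hD
  obtain ⟨d, hd⟩ := exists_sound9 hF hσ
  have hS : ∀ l : List ℕ, l.length = 4 → (Sb43 l = true ↔ (fun w : Fin 4 → F =>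
      ∑ i, w i * σ (w i) ≠ 0 ∧ ∑ i, (w i * σ (w i)) * (w i * σ (w i)) ≠ 0 ∧
        (∏ i, w i) * ((∏ i, w i) * ∏ i, w i) = ∏ i, w i) (dv d 4 l)) := fun l hl => by
    simp only [Sb43, Bool.and_eq_true, Bool.not_eq_true', hd.ne, hd.eq, hd.mul, hd.pr 4 l hl,
      hd.hm 4 l l hl.le, hd.dot 4 _ (K9.nm l) (by simp [CF.nm, hl]), hd.nm, hd.zero]
    rfl
  refine hd.false_of_code hf.toSesq (hd.neg_one (m1 := 2) (by decide +kernel)) hG hH h
    (fun w : Fin 4 → F =>
      ∑ i, w i * σ (w i) ≠ 0 ∧ ∑ i, (w i * σ (w i)) * (w i * σ (w i)) ≠ 0 ∧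
        (∏ i, w i) * ((∏ i, w i) * ∏ i, w i) = ∏ i, w i)
    (fun g hg => ?_) (A := [[4, 4, 0, 0], [4, 8, 0, 0], [0, 0, 4, 8], [0, 0, 4, 4]])
    (B := [[4, 3, 3, 0], [3, 4, 3, 0], [3, 3, 4, 0], [0, 0, 0, 1]]) (by decide +kernel)
    (by decide +kernel) (fun a ha => ?_) (hd.pres_of hS (by decide) su43_chk) (w := [0, 0, 1, 0])
    le_rfl ((hS [0, 0, 1, 0] rfl).1 (by decide +kernel))
    (fun h1 => absurd ((hS (K9.mv [[4, 3, 3, 0], [3, 4, 3, 0], [3, 3, 4, 0], [0, 0, 0, 1]]
      [0, 0, 1, 0]) rfl).2 h1) (by decide +kernel))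
  · obtain ⟨s, c, h1, h2, h3⟩ := hel g ⟨h hg, hH.1.le hg⟩
    refine ⟨_, h3, fun w hw => ?_⟩
    have h4 : (∏ i, c i) * ∏ i, c i = 1 := by
      have := sign_cast_sq (F := F) s
      linear_combination (-(∏ i, c i) ^ 2) * this + (((Equiv.Perm.sign s : ℤ) : F) * ∏ i, c i + 1) * h2
    have h5 : ∀ i, c i * w i * σ (c i * w i) = w i * σ (w i) := fun i => by
      rw [map_mul]; linear_combination (w i * σ (w i)) * h1 i
    rw [sum_mono s c w (fun x => x * σ x), sum_mono s c w (fun x => x * σ x * (x * σ x)), prod_mono]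
    simp only [h5]
    exact ⟨hw.1, hw.2.1, by linear_combination (∏ i, c i) * (∏ i, w i) ^ 3 * h4 + (∏ i, c i) * hw.2.2⟩
  · rw [hDe]
    refine not_mem_decomp_id ha (i := 0) (j := 1) (k := 0) (by decide) ?_ ?_ <;>
      exact hd.zero ▸ (hd.ne 4 0).1 (by decide +kernel)

end Cfsg.Agent.H7
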