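import Cfsg.Agent.H7.AschField

set_option autoImplicit false
set_option linter.unusedSectionVars false
set_option linter.unusedVariables false
set_option linter.unnecessarySimpa false
set_option linter.style.haveILetI false
set_option linter.unusedSimpArgs false

/-! Small exceptions for `SU_6`. -/

namespace Cfsg.Agent.H7

open Cfsg Cfsg.Geo Matrix
open scoped MatrixGroups Kronecker commutatorElement

variable {ι : Type} [Fintype ι] [DecidableEq ι] {F : Type*} [Field F]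

/-- the 126 points -/
def Sb62 (l : List ℕ) : Bool := Nat.beq (K4.wt l) 2 || K4.eqb (K4.pr l) 1

lemma su62_chk : K4.allV 6 (fun l => imp (Sb62 l)
    (Sb62 (K4.mv [[0, 1, 1, 1, 1, 1], [1, 0, 1, 1, 1, 1], [1, 1, 0, 1, 1, 1], [1, 1, 1, 0, 1, 1],
      [1, 1, 1, 1, 0, 1], [1, 1, 1, 1, 1, 0]] l))) = true := by
  decide +kernel

lemma two_eq_zero_of_card_four [Fintype F] (hF : Fintype.card F = 2 ^ 2) : (2 : F) = 0 :=
  two_eq_zero_of_not_odd (by rw [hF]; decide)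

lemma su62_frames [Fintype F] {q : ℕ} (hF : Fintype.card F = q ^ 2) {σ : F →+* F}
    (hσ : ∀ x, σ x = x ^ q) {f : (ι → F) → (ι → F) → F} (hf : HForm σ 1 f) {H : Subgroup (GL ι F)}
    (hq : q = 2) (hH : IsMaximalIn (SUf f) H) {D : Fin 6 → Submodule F (ι → F)}
    (hD : IsNondegenerateMDecomposition f 1 D) (h : H ≤ decompositionStabilizer D) : False := by
  classical
  subst hq
  obtain ⟨e, P, hG, hDe, hel⟩ := hf.mono_on hF hσ hD
  obtain ⟨d, hd⟩ := exists_sound4 hF hσ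
  have hS : ∀ l : List ℕ, l.length = 6 → (Sb62 l = true ↔ (fun w : Fin 6 → F =>
      (∑ i, if w i = 0 then 0 else 1) = 2 ∨ ∏ i, w i = 1) (dv d 6 l)) := fun l hl => by
    simp only [Sb62, Bool.or_eq_true, Nat.beq_eq, hd.eq, hd.pr 6 l hl, hd.wt 6 l hl, hd.one]
  refine hd.false_of_code hf.toSesq (hd.neg_one (m1 := 1) (by decide +kernel)) hG hH h
    (fun w : Fin 6 → F => (∑ i, if w i = 0 then 0 else 1) = 2 ∨ ∏ i, w i = 1) (fun g hg => ?_)
    (A := [[0, 1, 1, 1, 1, 1], [1, 0, 1, 1, 1, 1], [1, 1, 0, 1, 1, 1], [1, 1, 1, 0, 1, 1],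
      [1, 1, 1, 1, 0, 1], [1, 1, 1, 1, 1, 0]])
    (B := [[0, 1, 1, 1, 0, 0], [1, 0, 1, 1, 0, 0], [1, 1, 0, 1, 0, 0], [1, 1, 1, 0, 0, 0],
      [0, 0, 0, 0, 1, 0], [0, 0, 0, 0, 0, 1]]) (by decide +kernel)
    (by decide +kernel) (fun a ha => ?_) (hd.pres_of hS (by decide) su62_chk)
    (w := [0, 0, 0, 1, 0, 1]) le_rfl ((hS [0, 0, 0, 1, 0, 1] rfl).1 (by decide +kernel))
    (fun h1 => absurd ((hS (K4.mv [[0, 1, 1, 1, 0, 0], [1, 0, 1, 1, 0, 0], [1, 1, 0, 1, 0, 0],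
      [1, 1, 1, 0, 0, 0], [0, 0, 0, 0, 1, 0], [0, 0, 0, 0, 0, 1]] [0, 0, 0, 1, 0, 1]) rfl).2 h1)
      (by decide +kernel))
  · obtain ⟨s, c, h1, h2, h3⟩ := hel g ⟨h hg, hH.1.le hg⟩
    refine ⟨_, h3, fun w hw => ?_⟩
    have h0 := two_eq_zero_of_card_four hF
    have h4 : ∏ i, c i = 1 := by
      rcases Int.units_eq_one_or (Equiv.Perm.sign s) with h5 | h5 <;> rw [h5] at h2
      · simpa using h2
      · have : -∏ i, c i = 1 := by simpa using h2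
        linear_combination (∏ i, c i) * h0 + this
    have h5 : ∀ i, c i ≠ 0 := fun i h5 => by simpa [h5] using h1 i
    rw [sum_mono s c w (fun x => if x = 0 then 0 else 1), prod_mono, h4, one_mul]
    simpa only [mul_eq_zero, h5, false_or] using hw
  · rw [hDe]
    refine not_mem_decomp_id ha (i := 1) (j := 2) (k := 0) (by decide) ?_ ?_ <;>
      exact hd.zero ▸ (hd.ne 1 0).1 (by decide +kernel)

lemma su62_aux1 : ∀ w t : F4, w ^ 2 + w + 1 = 0 → ∃ x y z : F4,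
    x * x ^ 2 + y * y ^ 2 + z * z ^ 2 + x * y ^ 2 * t ^ 2 + y * x ^ 2 * t + y * z ^ 2 * t ^ 2 +
      z * y ^ 2 * t + x * z ^ 2 * (w ^ 2 * t) + z * x ^ 2 * (w * t ^ 2) = 1 ∧
    x * x ^ 2 * t + x * y ^ 2 + x * z ^ 2 * t ^ 2 + y * x ^ 2 * (w * t ^ 2) + y * y ^ 2 * t +
      y * z ^ 2 + z * w * x ^ 2 + z * w * y ^ 2 * t ^ 2 + z * w * z ^ 2 * (w ^ 2 * t) = 0 := by
  decide +kernel

lemma su62_aux2 : ∀ w m a b c : F4, w ^ 2 + w + 1 = 0 → m ^ 3 = 1 →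
    c * c ^ 2 + m * b * (m * b) ^ 2 + m ^ 2 * a * (m ^ 2 * a) ^ 2 = 1 →
    c * (m * b) ^ 2 + m * b * (m ^ 2 * a) ^ 2 + m ^ 2 * a * (m ^ 3 * w * c) ^ 2 = 0 →
    (m ^ 6 * (3 * w * a * b * c - a ^ 3 - w * b ^ 3 - w ^ 2 * c ^ 3)) ^ 2 = 1 →
    b = 0 ∧ c = 0 := by
  decide +kernel

/-- twisted circulant matrices -/
def circ3 (w m x y z : F) : Matrix (Fin 3) (Fin 3) F :=
  !![x, m * w * z, m ^ 2 * w * y; y, m * x, m ^ 2 * w * z; z, m * y, m ^ 2 * x]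

/-- the antidiagonal permutation matrix -/
def E3 (F : Type*) [Field F] : Matrix (Fin 3) (Fin 3) F := !![0, 0, 1; 0, 1, 0; 1, 0, 0]

lemma tw_E3J (X : Matrix (Fin 3 × Fin 2) (Fin 3 × Fin 2) F) (a b : Fin 3 × Fin 2) :
    tw (RingHom.id F) (E3 F ⊗ₖ J2 F) X a b =
      X (0, 0) a * X (2, 1) b + X (1, 0) a * X (1, 1) b + X (2, 0) a * X (0, 1) b -
      (X (0, 1) a * X (2, 0) b + X (1, 1) a * X (1, 0) b + X (2, 1) a * X (0, 0) b) := by
  simp [tw, mul_apply, Fintype.sum_prod_type, Fin.sum_univ_three, Fin.sum_univ_two, E3, J2]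
  ring

lemma tw_circ3 (w m : F) (x y z : Fin 2 → Fin 2 → F) : ∃ a b c : F,
    tw (RingHom.id F) (E3 F ⊗ₖ J2 F)
      (Matrix.of fun k l : Fin 3 × Fin 2 => circ3 w m (x k.2 l.2) (y k.2 l.2) (z k.2 l.2) k.1 l.1) =
    !![c, m * b, m ^ 2 * a; m * b, m ^ 2 * a, m ^ 3 * w * c; m ^ 2 * a, m ^ 3 * w * c,
      m ^ 4 * w * b] ⊗ₖ J2 F := by
  refine ⟨x 0 0 * x 1 1 + w * (y 0 0 * z 1 1 + z 0 0 * y 1 1) -
      (x 1 0 * x 0 1 + w * (y 1 0 * z 0 1 + z 1 0 * y 0 1)),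
    x 0 0 * y 1 1 + y 0 0 * x 1 1 + w * z 0 0 * z 1 1 -
      (x 1 0 * y 0 1 + y 1 0 * x 0 1 + w * z 1 0 * z 0 1),
    x 0 0 * z 1 1 + y 0 0 * y 1 1 + z 0 0 * x 1 1 -
      (x 1 0 * z 0 1 + y 1 0 * y 0 1 + z 1 0 * x 0 1), ?_⟩
  ext ⟨i, s⟩ ⟨j, t⟩
  rw [tw_E3J]
  fin_cases i <;> fin_cases j <;> fin_cases s <;> fin_cases t <;> simp [circ3, J2] <;> ring

lemma eq_circ3 {w m : F} {X : Matrix (Fin 3 × Fin 2) (Fin 3 × Fin 2) F}
    (h : X * (!![0, 0, w; 1, 0, 0; 0, 1, 0] ⊗ₖ (1 : Matrix (Fin 2) (Fin 2) F)) =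
      m • ((!![0, 0, w; 1, 0, 0; 0, 1, 0] ⊗ₖ (1 : Matrix (Fin 2) (Fin 2) F)) * X)) :
    X = Matrix.of fun k l : Fin 3 × Fin 2 => circ3 w m (X (0, k.2) (0, l.2)) (X (1, k.2) (0, l.2))
      (X (2, k.2) (0, l.2)) k.1 l.1 := by
  have h1 : ∀ i s j t, ∑ l, X (i, s) (l, t) * !![0, 0, w; 1, 0, 0; 0, 1, 0] l j =
      m * ∑ l, !![0, 0, w; 1, 0, 0; 0, 1, 0] i l * X (l, s) (j, t) := fun i s j t => by
    simpa [mul_apply, Fintype.sum_prod_type, one_apply] using congrFun (congrFun h (i, s)) (j, t)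
  ext ⟨i, s⟩ ⟨j, t⟩
  have a0 := h1 0 s 0 t
  have a1 := h1 1 s 0 t
  have a2 := h1 2 s 0 t
  have b0 := h1 0 s 1 t
  have b1 := h1 1 s 1 t
  have b2 := h1 2 s 1 t
  simp [Fin.sum_univ_three] at a0 a1 a2 b0 b1 b2
  fin_cases i <;> fin_cases j <;> simp [circ3, a0, a1, a2, b0, b1, b2] <;> ring

section SU

variable [Fintype F] (hF : Fintype.card F = 2 ^ 2) {σ : F →+* F} (hσ : ∀ x, σ x = x ^ 2)
  {f : (ι → F) → (ι → F) → F} (hf : HForm σ 1 f)
include hF hσ hf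

lemma su62_vec {w : F} (hw : w ^ 2 + w + 1 = 0) {θ : Matrix ι ι F}
    (h3 : ∀ u, θ *ᵥ θ *ᵥ θ *ᵥ u = w • u) (hθ : ∀ u v, f (θ *ᵥ u) (θ *ᵥ v) = f u v) {u : ι → F}
    (hu : f u u = 1) : ∃ x y z : F, ∀ v, v = x • u + y • θ *ᵥ u + z • θ *ᵥ θ *ᵥ u →
      ∀ i j : Fin 3, f (![v, θ *ᵥ v, θ *ᵥ θ *ᵥ v] i) (![v, θ *ᵥ v, θ *ᵥ θ *ᵥ v] j) =
        if i = j then 1 else 0 := by
  obtain ⟨φ⟩ := exists_equiv_F4 hF
  obtain ⟨x, y, z, h1, h2⟩ := su62_aux1 (φ w) (φ (f (θ *ᵥ u) u))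
    (by rw [← map_pow, ← map_add, ← map_one φ, ← map_add, hw, map_zero])
  obtain ⟨x, rfl⟩ := φ.surjective x
  obtain ⟨y, rfl⟩ := φ.surjective y
  obtain ⟨z, rfl⟩ := φ.surjective z
  simp only [← map_pow, ← map_mul, ← map_add, map_eq_zero, EmbeddingLike.map_eq_one_iff] at h1 h2
  have key : ∀ a b, f (θ *ᵥ θ *ᵥ a) b = w * f a (θ *ᵥ b) := fun a b => by
    rw [← hθ, h3, hf.smul_left]
  have t1 : f u (θ *ᵥ u) = f (θ *ᵥ u) u ^ 2 := by rw [hf.herm1, hσ]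
  have t2 : f u (θ *ᵥ θ *ᵥ u) = w ^ 2 * f (θ *ᵥ u) u := by
    rw [hf.herm1, key, map_mul, ← hf.herm1, hσ]
  refine ⟨x, y, z, fun v hv => ?_⟩
  have v0 : f v v = 1 := by
    rw [← h1, hv]
    simp only [hf.add_left, hf.add_right, hf.smul_left, hf.smul_right, hσ, hθ, key u u, hu, t1, t2]
    ring
  have v1 : f (θ *ᵥ v) v = 0 := by
    rw [← h2, hv]
    simp only [mulVec_add, mulVec_smul, h3, hf.add_left, hf.add_right, hf.smul_left, hf.smul_right,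
      hσ, hθ, key u u, hu, t1, t2]
    ring
  have v2 : f v (θ *ᵥ v) = 0 := hf.eq_zero_comm v1
  have v3 : f (θ *ᵥ θ *ᵥ v) v = 0 := by rw [key, v2, mul_zero]
  intro i j
  fin_cases i <;> fin_cases j <;> simp [hθ, v0, v1, v2, v3, hf.eq_zero_comm v3, -mulVec_mulVec]

lemma su62_frame (hn : Fintype.card ι = 6) {w : F} (hw : w ^ 2 + w + 1 = 0) {θ : Matrix ι ι F}
    (h3 : ∀ u, θ *ᵥ θ *ᵥ θ *ᵥ u = w • u) (hθ : ∀ u v, f (θ *ᵥ u) (θ *ᵥ v) = f u v) :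
    ∃ (e : ι ≃ Fin 3 × Fin 2) (P : GL ι F), frameGram f e P = 1 ∧
      θ = frameEquiv e P (!![0, 0, w; 1, 0, 0; 0, 1, 0] ⊗ₖ (1 : Matrix (Fin 2) (Fin 2) F)) := by
  have hw0 : σ w ≠ 0 := by
    rw [map_ne_zero]
    rintro rfl
    simp at hw
  obtain ⟨u, hu, -⟩ := hf.exists_extend hF hσ (α := Fin 0) (by simp [hn]) (v := Fin.elim0)
    fun i => i.elim0
  obtain ⟨x, y, z, hv⟩ := su62_vec hF hσ hf hw h3 hθ hu
  replace hv := hv _ rfl
  generalize x • u + y • θ *ᵥ u + z • θ *ᵥ θ *ᵥ u = v at hv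
  obtain ⟨u', hu', hp⟩ := hf.exists_extend hF hσ (by simp [hn]) hv
  obtain ⟨x', y', z', hv'⟩ := su62_vec hF hσ hf hw h3 hθ hu'
  have key : ∀ a, (∀ i, f a (![v, θ *ᵥ v, θ *ᵥ θ *ᵥ v] i) = 0) →
      ∀ i, f (θ *ᵥ a) (![v, θ *ᵥ v, θ *ᵥ θ *ᵥ v] i) = 0 := fun a ha i => by
    fin_cases i
    · have := (hθ _ _).trans (ha 2)
      simp only [cons_val, h3, hf.smul_right, mul_eq_zero, hw0, false_or] at this
      exact this
    · exact (hθ _ _).trans (ha 0)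
    · exact (hθ _ _).trans (ha 1)
  obtain ⟨v', hv', hp'⟩ : ∃ v', (∀ i j : Fin 3, f (![v', θ *ᵥ v', θ *ᵥ θ *ᵥ v'] i)
      (![v', θ *ᵥ v', θ *ᵥ θ *ᵥ v'] j) = if i = j then 1 else 0) ∧
      ∀ i, f v' (![v, θ *ᵥ v, θ *ᵥ θ *ᵥ v] i) = 0 := ⟨_, hv' _ rfl, fun i => by
    simp only [hf.add_left, hf.smul_left, hp i, key _ hp i, key _ (key _ hp) i]
    ring⟩
  have hp'' : ∀ i j, f (![v', θ *ᵥ v', θ *ᵥ θ *ᵥ v'] i) (![v, θ *ᵥ v, θ *ᵥ θ *ᵥ v] j) = 0 := by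
    intro i j
    fin_cases i
    · exact hp' j
    · exact key _ hp' j
    · exact key _ (key _ hp') j
  let b : Fin 3 × Fin 2 → ι → F := fun k =>
    ![![v, θ *ᵥ v, θ *ᵥ θ *ᵥ v], ![v', θ *ᵥ v', θ *ᵥ θ *ᵥ v']] k.2 k.1
  have hb : ∀ k l, f (b k) (b l) = if k = l then 1 else 0 := by
    rintro ⟨i, s⟩ ⟨j, t⟩
    fin_cases s <;> fin_cases t
    · simpa [b] using hv i j
    · simpa [b] using hf.eq_zero_comm (hp'' j i)
    · simpa [b] using hp'' i j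
    · simpa [b] using hv' i j
  have hli := hf.toSesq.linearIndependent_of_orthonormal hb
  obtain ⟨e, P, hP⟩ := exists_frame _ hli (hli.span_eq_top_of_card_eq_finrank' (by
    simp [hn])).ge
  refine ⟨e, P, frameGram_eq_one hP hb, eq_frameEquiv _ _ ?_⟩
  rintro ⟨i, s⟩
  simp only [hP, Fintype.sum_prod_type, Fin.sum_univ_three, Fin.sum_univ_two]
  fin_cases i <;> fin_cases s <;> simp [b, h3, -mulVec_mulVec]

end SU

lemma su62_field [Fintype F] {q : ℕ} (hF : Fintype.card F = q ^ 2) {σ : F →+* F}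
    (hσ : ∀ x, σ x = x ^ q) {f : (ι → F) → (ι → F) → F} (hf : HForm σ 1 f) {H : Subgroup (GL ι F)}
    (hq : q = 2) (hn : Fintype.card ι = 6) (hH : H ≤ SUf f) {K : Subalgebra F (Matrix ι ι F)}
    (hK : IsFieldSubalgebra 3 K) (hadj : IsAdjointClosedFor f K) (h : H ≤ subalgebraNormalizer K) :
    SUSub q f H := by
  subst hq
  haveI := nonempty_of_two_le (ι := ι) (by omega)
  obtain ⟨φ⟩ := exists_equiv_F4 hF
  have h2 := two_eq_zero_of_card_four hF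
  obtain ⟨w, hw⟩ : ∃ w : F, w ^ 2 + w + 1 = 0 := by
    obtain ⟨w, hw⟩ : ∃ w : F4, w ^ 2 + w + 1 = 0 := by decide
    exact ⟨φ.symm w, by rw [← map_pow, ← map_add, ← map_one φ.symm, ← map_add, hw, map_zero]⟩
  have hw3 : w ^ 3 = 1 := by linear_combination (w - 1) * hw
  obtain ⟨θ, hθK, hθ3, hconj⟩ : ∃ θ ∈ K, θ ^ 3 = w • 1 ∧
      ∀ y ∈ K, y ^ 3 = w • 1 → ∃ m : F, m ^ 3 = 1 ∧ y = m • θ := by
    letI : Field K := (isField_of_subalgebra hK.comm hK.inv).toField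
    haveI := Fintype.ofFinite K
    obtain ⟨θ, hθ⟩ := exists_pow_eq_of_pow_eq_one (F := K) (a := 21) (b := 3)
      (by rw [← Nat.card_eq_fintype_card, IsFieldSubalgebra.card hK, hF]; norm_num)
      (d := algebraMap F K w) (by
        rw [← map_pow, show 21 = 3 * 7 from rfl, pow_mul, hw3, one_pow, map_one])
    refine ⟨θ, θ.2, ?_, fun y hy hy3 => ?_⟩
    · rw [← SubmonoidClass.coe_pow, hθ, ← Algebra.algebraMap_eq_smul_one]; rfl
    have hy3' : (⟨y, hy⟩ : K) ^ 3 = algebraMap F K w := Subtype.ext (by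
      rw [SubmonoidClass.coe_pow]
      exact hy3.trans (Algebra.algebraMap_eq_smul_one w).symm)
    have hw' : algebraMap F K w ^ 2 + algebraMap F K w + 1 = 0 := by
      rw [← map_pow, ← map_add, ← map_one (algebraMap F K), ← map_add, hw, map_zero]
    generalize hz : (⟨y, hy⟩ : K) = z at hy3'
    have hyz : y = z := congrArg Subtype.val hz
    have : (z - algebraMap F K 1 * θ) * (z - algebraMap F K w * θ) *
        (z - algebraMap F K (w ^ 2) * θ) = 0 := by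
      rw [map_one, map_pow]
      linear_combination hy3' - hθ + (-z ^ 2 * θ + z * θ ^ 2 * algebraMap F K w -
        θ ^ 3 * (algebraMap F K w - 1)) * hw'
    have key : ∀ m : F, z - algebraMap F K m * θ = 0 → y = m • θ := fun m hm => by
      rw [hyz, sub_eq_zero.1 hm, ← Algebra.smul_def]; rfl
    rcases mul_eq_zero.1 this with h | h
    · rcases mul_eq_zero.1 h with h | h
      · exact ⟨1, one_pow 3, key _ h⟩
      · exact ⟨w, hw3, key _ h⟩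
    · exact ⟨w ^ 2, by rw [← pow_mul, mul_comm, pow_mul, hw3, one_pow], key _ h⟩
  have hθ := hf.isom_of_pow hF hσ hK hadj hθK three_ne_zero (by norm_num) (c := w)
    (by rw [hσ, ← pow_succ', hw3]) hθ3
  obtain ⟨e, P, hG, hθe⟩ := su62_frame hF hσ hf hn hw (fun u => by
    rw [mulVec_mulVec, mulVec_mulVec, ← pow_three', hθ3, smul_mulVec, one_mulVec]) hθ
  have hE : E3 F * E3 F = 1 := by
    ext i j
    fin_cases i <;> fin_cases j <;> simp [E3, mul_apply, Fin.sum_univ_three]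
  have hEt : (E3 F)ᵀ = E3 F := by
    ext i j
    fin_cases i <;> fin_cases j <;> simp [E3]
  have hEσ : (E3 F).map σ = E3 F := by
    ext i j
    fin_cases i <;> fin_cases j <;> simp [E3]
  have hm1 : (-1 : Matrix (Fin 2) (Fin 2) F) = 1 := by
    rw [neg_eq_iff_add_eq_zero, ← two_smul F, h2, zero_smul]
  have hBt : (E3 F ⊗ₖ J2 F)ᵀ = -(E3 F ⊗ₖ J2 F) := by
    rw [kron_transpose, hEt, J2_transpose]
    ext a b
    simp
  refine SUSub.of_bilinear hF hσ hf ((isom_SUf f).mono hH) e P (N := E3 F ⊗ₖ J2 F)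
    (B := E3 F ⊗ₖ J2 F) ?_ (by rw [hG, one_mul]) (fun g hg => ?_) (Or.inr hBt) fun i => ?_
  · rw [kron_map, hEσ, J2_map, ← mul_kronecker_mul, hE, J2_sq, hm1, one_kronecker_one]
  · obtain ⟨m, hm, h1⟩ := hconj (cj g θ) ((h hg θ).1 hθK) (by rw [← map_pow, hθ3, map_smul, map_one])
    obtain ⟨X, hX⟩ := (frameEquiv e P).surjective g
    have h3 := eq_circ3 (X := X) (w := w) (m := m) ((frameEquiv e P).injective (by
      rw [map_mul, map_smul, map_mul, ← hθe, hX, ← smul_mul_assoc, ← h1, cj_mul_val]))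
    obtain ⟨a, b, c, h4⟩ := tw_circ3 w m (fun s t => X (0, s) (0, t)) (fun s t => X (1, s) (0, t))
      fun s t => X (2, s) (0, t)
    rw [← h3] at h4
    have h5 := hf.toSesq.tw_of_isom hX.symm (mem_SUf.1 (hH hg)).1
    have h6 : X.det = 1 := by rw [← det_frameEquiv e P, hX, (mem_SUf.1 (hH hg)).2]
    rw [hG] at h5
    have h7 : tw σ 1 (tw (RingHom.id F) (E3 F ⊗ₖ J2 F) X) = 1 := by
      have : tw σ 1 (E3 F ⊗ₖ J2 F) = 1 := by
        rw [tw, hBt, mul_one, kron_map, hEσ, J2_map, neg_mul, ← mul_kronecker_mul, hE, J2_sq, hm1,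
          one_kronecker_one, neg_eq_iff_add_eq_zero, ← two_smul F, h2, zero_smul]
      change tw σ 1 (Xᵀ * (E3 F ⊗ₖ J2 F) * X) = 1
      rw [tw_mul, tw_mul, tw_transpose_one h5, this, h5]
    have h8 : (tw (RingHom.id F) (E3 F ⊗ₖ J2 F) X).det = 1 := by
      rw [tw, RingHom.coe_id, Matrix.map_id, det_mul, det_mul, det_transpose, h6, det_kronecker,
        J2_det, one_pow, Fintype.card_fin, pow_two, ← det_mul, hE, det_one]
      ring
    rw [h4] at h7 h8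
    have h9 := congrFun (congrFun h7 (0, 1)) (0, 1)
    have h10 := congrFun (congrFun h7 (0, 1)) (1, 1)
    simp only [tw, mul_one, mul_apply, Fintype.sum_prod_type, Fin.sum_univ_three, Fin.sum_univ_two,
      transpose_apply, map_apply, kroneckerMap_apply, J2, hσ] at h9 h10
    rw [det_kronecker, J2_det, one_pow, mul_one, Fintype.card_fin, det_fin_three] at h8
    obtain ⟨hb, hc⟩ := su62_aux2 (φ w) (φ m) (φ a) (φ b) (φ c)
      (by rw [← map_pow, ← map_add, ← map_one φ, ← map_add, hw, map_zero])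
      (by rw [← map_pow, hm, map_one])
      (by
        simp only [← map_pow, ← map_mul, ← map_add, EmbeddingLike.map_eq_one_iff]
        simpa using h9)
      (by
        simp only [← map_pow, ← map_mul, ← map_add, map_eq_zero]
        simpa using h10)
      (by
        rw [← map_ofNat φ 3]
        simp only [← map_pow, ← map_mul, ← map_sub, EmbeddingLike.map_eq_one_iff]
        rw [← h8]
        simp
        ring)
    rw [map_eq_zero] at hb hc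
    refine ⟨X, m ^ 2 * a, hX.symm, ?_⟩
    rw [h4, hb, hc, ← smul_kronecker]
    congr 1
    ext i j
    fin_cases i <;> fin_cases j <;> simp [E3]
  · simp [J2_diag]

end Cfsg.Agent.H7
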