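import Cfsg.Agent.H7.AschSU

set_option autoImplicit false
set_option linter.unusedSectionVars false
set_option linter.unusedVariables false
set_option linter.unnecessarySimpa false
set_option linter.style.haveILetI false
set_option linter.unusedSimpArgs false

/-! Maximal subgroups of special unitary groups. -/

namespace Cfsg.Agent.H7

open Cfsg Cfsg.Geo Matrix
open scoped MatrixGroups Kronecker commutatorElement

variable {ι : Type} [Fintype ι] [DecidableEq ι] {F : Type*} [Field F]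

/-- the isometries of determinant one -/
def SUf (f : (ι → F) → (ι → F) → F) : Subgroup (GL ι F) :=
  preserving (Units.coeHom (Matrix ι ι F)) f ⊓ specialLinear ι F

lemma mem_SUf {f : (ι → F) → (ι → F) → F} {g : GL ι F} : g ∈ SUf f ↔
    (∀ u v, f ((g : Matrix ι ι F) *ᵥ u) ((g : Matrix ι ι F) *ᵥ v) = f u v) ∧
      (g : Matrix ι ι F).det = 1 :=
  and_congr Iff.rfl mem_specialLinear_iff

lemma isom_SUf (f : (ι → F) → (ι → F) → F) : Isom f (SUf f) := fun g hg => (mem_SUf.1 hg).1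

lemma Sesq.exists_perp_mem {σ : F →+* F} {f : (ι → F) → (ι → F) → F} (hf : Sesq σ f)
    {U : Submodule F (ι → F)} (hU : 2 ≤ Module.finrank F U) (a : ι → F) :
    ∃ b ∈ U, b ≠ 0 ∧ f b a = 0 := by
  let L : U →ₗ[F] F :=
    { toFun := fun y => f y a
      map_add' := fun a b => hf.add_left _ _ _
      map_smul' := fun c a => hf.smul_left _ _ _ }
  obtain ⟨y, hy, hy0⟩ := Submodule.exists_mem_ne_zero_of_ne_bot
    (LinearMap.ker_ne_bot_of_finrank_lt (f := L) (by simp; omega))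
  exact ⟨y, y.2, fun h => hy0 (Subtype.ext h), LinearMap.mem_ker.1 hy⟩

lemma Sesq.mem_SUf_of_frame {σ : F →+* F} {f : (ι → F) → (ι → F) → F} (hf : Sesq σ f)
    {κ : Type} [Fintype κ] [DecidableEq κ] {e : ι ≃ κ} {P g : GL ι F} {X : Matrix κ κ F}
    (hg : (g : Matrix ι ι F) = frameEquiv e P X)
    (h1 : tw σ (frameGram f e P) X = frameGram f e P) (h2 : X.det = 1) : g ∈ SUf f :=
  mem_SUf.2 ⟨fun u v => by
    rw [hg, hf.sim_of_frameGram e P (c := 1) (by rw [h1, one_smul]), one_mul],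
    by rw [hg, det_frameEquiv, h2]⟩

lemma Sesq.tw_of_isom {σ : F →+* F} {f : (ι → F) → (ι → F) → F} (hf : Sesq σ f)
    {κ : Type} [Fintype κ] [DecidableEq κ] {e : ι ≃ κ} {P g : GL ι F} {X : Matrix κ κ F}
    (hg : (g : Matrix ι ι F) = frameEquiv e P X)
    (h : ∀ u v, f ((g : Matrix ι ι F) *ᵥ u) ((g : Matrix ι ι F) *ᵥ v) = f u v) :
    tw σ (frameGram f e P) X = frameGram f e P := by
  rw [hf.frameGram_sim e P (c := 1) fun u v => by rw [← hg, h, one_mul], one_smul]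

/-- unitary transvections -/
lemma HForm.exists_utv {σ : F →+* F} {f : (ι → F) → (ι → F) → F} (hf : HForm σ 1 f) {u : ι → F}
    (hu : f u u = 0) {c : F} (hc : c + σ c = 0) :
    ∃ (φ : ι → F) (h : φ ⬝ᵥ u = 0), (∀ x, φ ⬝ᵥ x = c * f x u) ∧ tv u φ h ∈ SUf f ∧
      (u ≠ 0 → c ≠ 0 → φ ≠ 0) := by
  have h1 : ∀ x, (fun i => c * f (Pi.single i 1) u) ⬝ᵥ x = c * f x u := by
    intro x
    conv_rhs => rw [pi_eq_sum_univ' x, hf.sum_left, Finset.mul_sum]
    refine Finset.sum_congr rfl fun i _ => ?_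
    rw [hf.smul_left]
    ring
  refine ⟨_, by rw [h1, hu, mul_zero], h1, mem_SUf.2 ⟨fun x y => ?_, tv_det _⟩, fun h0 hc0 h => ?_⟩
  · rw [tv_mulVec, tv_mulVec, h1, h1, hf.add_left, hf.add_right, hf.add_right, hf.smul_left,
      hf.smul_left, hf.smul_right, hf.smul_right, hu, map_mul, ← hf.herm1 y u]
    linear_combination (f x u * f u y) * hc
  · obtain ⟨x, hx⟩ := (hf.nondeg u h0).1
    have := h1 x
    rw [h, zero_dotProduct] at this
    exact mul_ne_zero hc0 hx this.symm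

lemma exists_perm_of_cols {κ : Type} [Fintype κ] [DecidableEq κ] {X : Matrix κ κ F}
    (hX : X.det ≠ 0) (h : ∀ y, ∃ x, ∀ x', x' ≠ x → X x' y = 0) :
    ∃ π : Equiv.Perm κ, ∀ x y, x ≠ π y → X x y = 0 := by
  choose π hπ using h
  have hs : Function.Surjective π := by
    intro x
    by_contra hx
    push Not at hx
    exact hX (det_eq_zero_of_row_eq_zero x fun y => hπ y x (hx y).symm)
  exact ⟨Equiv.ofBijective π (Finite.surjective_iff_bijective.1 hs), fun x y hxy => hπ y x hxy⟩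

lemma cols_of_tw {σ : F →+* F} {X : Matrix ι ι F} {c : F} (h : tw σ 1 X = c • 1) (j : ι) :
    ∑ i, X i j * σ (X i j) = c := by
  have := congrFun (congrFun h j) j
  simpa [tw, mul_apply] using this

section SU

variable [Fintype F] {q : ℕ} (hF : Fintype.card F = q ^ 2) {σ : F →+* F} (hσ : ∀ x, σ x = x ^ q)
  {f : (ι → F) → (ι → F) → F} (hf : HForm σ 1 f) {H : Subgroup (GL ι F)}
include hF hσ hf

lemma HForm.exists_utv' {u : ι → F} (hu : f u u = 0) (h0 : u ≠ 0) :
    ∃ (φ : ι → F) (h : φ ⬝ᵥ u = 0) (c : F), c ≠ 0 ∧ (∀ x, φ ⬝ᵥ x = c * f x u) ∧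
      tv u φ h ∈ SUf f ∧ φ ≠ 0 := by
  obtain ⟨c, hc0, hc⟩ := exists_trace_zero hf.invol (qHom_ne hF hσ)
  obtain ⟨φ, h, h1, h2, h3⟩ := hf.exists_utv hu hc
  exact ⟨φ, h, c, hc0, h1, h2, h3 h0 hc0⟩

lemma HForm.exists_iso_not_mem (hn : 2 ≤ Fintype.card ι) {U : Submodule F (ι → F)} (hU : U ≠ ⊤) :
    ∃ u, u ∉ U ∧ f u u = 0 := by
  by_contra hall
  push Not at hall
  have hmem : ∀ u, f u u = 0 → u ∈ U := fun u hu => by
    by_contra h
    exact hall u h hu
  obtain ⟨v, -, hv⟩ := hf.exists_orthonormal hF hσ hf.nondegOn_top (Fintype.card ι) (by simp)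
  have hsp := (hf.linearIndependent_of_orthonormal hv).span_eq_top_of_card_eq_finrank' (by simp)
  obtain ⟨l, hl⟩ := exists_norm_eq hF hσ (d := -1) (by simp)
  obtain ⟨a, ha⟩ := qHom_ne hF hσ
  have ha0 : a ≠ 0 := by rintro rfl; simp at ha
  have hσa : σ a ≠ 0 := (map_ne_zero σ).2 ha0
  have hl0 : l ≠ 0 := by rintro rfl; simp at hl
  apply hU
  rw [eq_top_iff, ← hsp, Submodule.span_le]
  rintro _ ⟨j, rfl⟩
  haveI : Nontrivial (Fin (Fintype.card ι)) := Fin.nontrivial_iff_two_le.2 hn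
  obtain ⟨i, hij⟩ := exists_ne j
  have key : ∀ m : F, m * σ m = -1 → v i + m • v j ∈ U := fun m hm => hmem _ (by
    rw [hf.self_add, hf.self_smul, hf.smul_right, hv, hv, hv, hm]
    simp [hij])
  have h1 := U.sub_mem (key l hl) (key (l * (a / σ a)) (by
    rw [map_mul, map_div₀, hf.invol]
    field_simp
    linear_combination hl))
  rw [add_sub_add_left_eq_sub, ← sub_smul] at h1
  refine (U.smul_mem_iff ?_).1 h1
  intro h
  apply ha
  field_simp at h
  exact mul_left_cancel₀ hl0 (by linear_combination h)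

lemma SU_not_le_stab (hn : 2 ≤ Fintype.card ι) {W : Submodule F (ι → F)} (h0 : W ≠ ⊥)
    (h1 : W ≠ ⊤) : ¬ SUf f ≤ subspaceStabilizer W := by
  intro h
  have hp : perp hf.toSesq W ≠ ⊤ := by
    intro h2
    obtain ⟨w, hw, hw0⟩ := Submodule.exists_mem_ne_zero_of_ne_bot h0
    exact hw0 (hf.eq_zero_of_left fun x => (h2 ▸ Submodule.mem_top : x ∈ perp hf.toSesq W) w hw)
  obtain ⟨u, hu, hu', huu⟩ : ∃ u, u ∉ W ∧ u ∉ perp hf.toSesq W ∧ f u u = 0 := by
    obtain ⟨a, ha, haa⟩ := hf.exists_iso_not_mem hF hσ hn h1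
    obtain ⟨b, hb, hbb⟩ := hf.exists_iso_not_mem hF hσ hn hp
    by_cases h2 : a ∈ perp hf.toSesq W
    swap
    · exact ⟨a, ha, h2, haa⟩
    by_cases h3 : b ∈ W
    swap
    · exact ⟨b, h3, hb, hbb⟩
    refine ⟨a + b, fun h4 => ha ?_, fun h4 => hb ?_, ?_⟩
    · simpa using W.sub_mem h4 h3
    · simpa using (perp hf.toSesq W).sub_mem h4 h2
    · rw [hf.self_add, haa, hbb, h2 b h3]
      simp
  obtain ⟨φ, hφ, c, hc, h2, h3, -⟩ := hf.exists_utv' hF hσ huu (by rintro rfl; exact hu W.zero_mem)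
  rw [mem_perp] at hu'
  push Not at hu'
  obtain ⟨w, hw, hw'⟩ := hu'
  exact hu (tv_mem_stab hφ (h h3) hw (by
    rw [h2]; exact mul_ne_zero hc fun h4 => hw' (hf.eq_zero_comm h4)))

lemma SU_not_le_decomp_aux {t m : ℕ} {D : Fin t → Submodule F (ι → F)}
    (hD : IsNondegenerateMDecomposition f m D) {S : Finset (Fin t)} {v : Fin t → ι → F}
    (hv : ∀ i, v i ∈ D i) (hv0 : ∀ i ∈ S, v i ≠ 0) (hS : 2 ≤ S.card) (hS' : m = 1 → 3 ≤ S.card)
    (h0 : ∑ i ∈ S, f (v i) (v i) = 0) : ¬ SUf f ≤ decompositionStabilizer D := by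
  intro h
  have h1 : f (∑ k ∈ S, v k) (∑ k ∈ S, v k) = 0 := by
    rw [hf.sum_left, ← h0]
    refine Finset.sum_congr rfl fun i hi => ?_
    rw [hf.sum_right, Finset.sum_eq_single_of_mem i hi]
    exact fun j _ hj => hD.orthogonal i j hj.symm _ (hv i) _ (hv j)
  have h2 : ∑ k ∈ S, v k ≠ 0 := by
    intro h2
    obtain ⟨i, hi⟩ := Finset.card_pos.1 (show 0 < S.card by omega)
    have := IsMDecomposition.not_mem_sup hD.decomp hv hv0 (i := i) (j := i)
      (by rw [h2]; exact Submodule.zero_mem _)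
    have := Finset.card_le_card this
    simp at this
    omega
  obtain ⟨φ, hφ, c, hc, -, h3, h4⟩ := hf.exists_utv' hF hσ h1 h2
  exact tv_not_mem_decomp h4 hD.decomp hv hv0 hS hS' rfl hφ (h h3)

omit hf in
lemma exists_fixed_ne (hq : 3 ≤ q) : ∃ b : F, σ b = b ∧ b ≠ 0 ∧ b ≠ -1 := by
  by_contra hall
  push Not at hall
  have h1 : Nat.card (fixField σ) ≤ Nat.card Bool := by
    classical
    refine Nat.card_le_card_of_injective (fun x => decide (x.1 = 0)) fun x y hxy => ?_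
    apply Subtype.ext
    by_cases h0 : x.1 = 0
    · have : y.1 = 0 := by simpa [h0] using hxy
      rw [h0, this]
    · have h1 : y.1 ≠ 0 := by simpa [h0] using hxy
      rw [hall _ x.2 h0, hall _ y.2 h1]
  rw [card_fixField_q hF hσ] at h1
  simp at h1
  omega

lemma HForm.exists_val {U : Submodule F (ι → F)} (hU : IsNondegenerateOn f U) (h0 : U ≠ ⊥) {d : F}
    (hd : σ d = d) : ∃ v ∈ U, f v v = d := by
  obtain ⟨w, hw, hw0⟩ := Submodule.exists_mem_ne_zero_of_ne_bot h0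
  obtain ⟨x, hx, hxw⟩ := (hU w hw hw0).1
  obtain ⟨y, hy, hyy⟩ := hf.exists_aniso (qHom_ne hF hσ) hx hw hxw
  obtain ⟨c, hc⟩ := hf.exists_unit hF hσ hyy hd
  exact ⟨_, U.smul_mem c hy, hc⟩

lemma SU_not_le_decomp (hn : 3 ≤ Fintype.card ι) (hex : ¬ (Fintype.card ι = 3 ∧ q = 2))
    {t m : ℕ} {D : Fin t → Submodule F (ι → F)} (hD : IsNondegenerateMDecomposition f m D) :
    ¬ SUf f ≤ decompositionStabilizer D := by
  have hmul := IsMDecomposition.mul_eq hD.decomp
  have ht := hD.decomp.two_le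
  by_cases hm : 2 ≤ m
  · choose v hv hv0 hvv using fun i => hf.exists_iso_of_pair hF hσ (U := D i)
      (by rw [hD.decomp.finrank_eq]; exact hm)
    exact SU_not_le_decomp_aux hF hσ hf hD (S := Finset.univ) hv (fun i _ => hv0 i)
      (by simpa using ht) (by omega) (by simp [hvv])
  obtain rfl : m = 1 := by have := hD.decomp.pos; omega
  have hne : ∀ i, D i ≠ ⊥ := fun i h => by
    have := hD.decomp.finrank_eq i
    rw [h] at this
    simp at this
  have key : ∀ (S : Finset (Fin t)) (d : Fin t → F), 3 ≤ S.card → (∀ i, σ (d i) = d i) →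
      (∀ i, d i ≠ 0) → ∑ i ∈ S, d i = 0 → ¬ SUf f ≤ decompositionStabilizer D := by
    intro S d h1 h2 h3 h4
    choose v hv hvv using fun i => hf.exists_val hF hσ (hD.nondegenerate i) (hne i) (h2 i)
    exact SU_not_le_decomp_aux hF hσ hf hD hv (fun i _ h => h3 i (by
      rw [← hvv, h, hf.zero_left])) (by omega) (fun _ => h1) (by simpa [hvv] using h4)
  by_cases hq : 3 ≤ q
  · obtain ⟨b, hb, hb0, hb1⟩ := exists_fixed_ne hF hσ hq
    obtain ⟨i0, i1, i2, h01, h02, h12⟩ : ∃ i0 i1 i2 : Fin t, i0 ≠ i1 ∧ i0 ≠ i2 ∧ i1 ≠ i2 :=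
      ⟨⟨0, by omega⟩, ⟨1, by omega⟩, ⟨2, by omega⟩, by simp, by simp, by simp⟩
    refine key {i0, i1, i2} (fun i => if i = i0 then 1 else if i = i1 then b else -1 - b) ?_
      (fun i => ?_) (fun i => ?_) ?_
    · rw [Finset.card_eq_three.2 ⟨i0, i1, i2, h01, h02, h12, rfl⟩]
    · split_ifs <;> simp [hb]
    · split_ifs
      · exact one_ne_zero
      · exact hb0
      · exact fun h => hb1 (by linear_combination -h)
    · rw [Finset.sum_insert (by simp [h01, h02]), Finset.sum_insert (by simp [h12]),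
        Finset.sum_singleton]
      simp [h01.symm, h02.symm, h12.symm]
  · have hq2 : q = 2 := by have := two_le_q hF; omega
    obtain ⟨S, -, hS⟩ := Finset.exists_subset_card_eq (s := (Finset.univ : Finset (Fin t))) (n := 4)
      (by simp; omega)
    refine key S (fun _ => 1) (by omega) (fun _ => map_one σ) (fun _ => one_ne_zero) ?_
    rw [Finset.sum_const, hS, nsmul_one]
    exact natCast_card_eq_zero (by rw [hF, hq2]; norm_num)

lemma SU_not_le_pair (hn : 3 ≤ Fintype.card ι) {k : ℕ} {D : Fin 2 → Submodule F (ι → F)}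
    (hD : IsMDecomposition k D) (hts : ∀ i, IsTotallySingularFor f (D i)) :
    ¬ SUf f ≤ decompositionStabilizer D := by
  intro h
  have hmul := IsMDecomposition.mul_eq hD
  obtain ⟨a, ha, ha0⟩ := IsMDecomposition.exists_ne_zero hD 1
  obtain ⟨b, hb, hb0, hba⟩ := hf.toSesq.exists_perp_mem (U := D 0) (by rw [hD.finrank_eq]; omega) a
  have h1 : f (b + a) (b + a) = 0 := by
    rw [hf.self_add, hts 0 b hb b hb, hts 1 a ha a ha, hba]
    simp
  have h2 : b + a ≠ 0 := fun h2 => ha0 (IsMDecomposition.disjoint hD (i := 0) (j := 1) (by decide)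
    (by rw [eq_neg_of_add_eq_zero_right h2]; exact (D 0).neg_mem hb) ha)
  obtain ⟨φ, hφ, c, hc, -, h3, h4⟩ := hf.exists_utv' hF hσ h1 h2
  refine tv_not_mem_decomp h4 hD (S := Finset.univ) (v := ![b, a]) (fun i => ?_) (fun i _ => ?_)
    (by simp) (by omega) (by simp) hφ (h h3)
  · fin_cases i
    · exact hb
    · exact ha
  · fin_cases i
    · exact hb0
    · exact ha0

lemma exists_utv_SU (hn : 2 ≤ Fintype.card ι) : ∃ (u φ : ι → F) (h : φ ⬝ᵥ u = 0), u ≠ 0 ∧ φ ≠ 0 ∧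
    tv u φ h ∈ SUf f := by
  obtain ⟨u, -, hu0, hu⟩ := hf.exists_iso_of_pair hF hσ (U := ⊤) (by simpa using hn)
  obtain ⟨φ, h, c, -, -, h1, h2⟩ := hf.exists_utv' hF hσ hu hu0
  exact ⟨u, φ, h, hu0, h2, h1⟩

lemma SU_not_le_subfield (hn : 3 ≤ Fintype.card ι) {F₀ : Subfield F} (h0 : F₀ ≠ ⊤) (P : GL ι F) :
    ¬ SUf f ≤ subfieldSubgroup F₀ P := by
  intro h
  obtain ⟨τ, -, hτ⟩ := exists_fixHom F₀
  let T : (ι → F) → ι → F := fun x =>
    (P : Matrix ι ι F) *ᵥ (τ ∘ (((P⁻¹ : GL ι F) : Matrix ι ι F) *ᵥ x))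
  have hTa : ∀ x y, T (x + y) = T x + T y := fun x y => by
    simp only [T, ← mulVec_add]
    congr 1
    ext i
    simp [mulVec_add]
  have hTs : ∀ (c : F) x, T (c • x) = τ c • T x := fun c x => by
    simp only [T, ← mulVec_smul]
    congr 1
    ext i
    simp [mulVec_smul]
  have hT : ∀ x, f x x = 0 → x ≠ 0 → ∃ a : F, a ≠ 0 ∧ T x = a • x := by
    intro x hx hx0
    obtain ⟨φ, hφ, c, -, -, h1, h2⟩ := hf.exists_utv' hF hσ hx hx0
    obtain ⟨s, hs, h3⟩ := tv_subfield hn hφ h2 (h h1)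
    have hτs : τ s ≠ 0 := (map_ne_zero τ).2 hs
    refine ⟨s / τ s, div_ne_zero hs hτs, ?_⟩
    conv_rhs => rw [← val_mulVec_inv P x, ← mulVec_smul]
    simp only [T]
    congr 1
    ext i
    have := (hτ _).2 (h3 i)
    rw [map_mul] at this
    simp only [Function.comp_apply, Pi.smul_apply, smul_eq_mul]
    field_simp
    linear_combination this
  obtain ⟨e, -, he⟩ := hf.exists_orthonormal hF hσ hf.nondegOn_top 3 (by simpa using hn)
  obtain ⟨l, hl⟩ := exists_norm_eq hF hσ (d := -1) (by simp)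
  obtain ⟨c, hc⟩ := exists_trace_eq hf.invol (qHom_ne hF hσ) (d := -1) (by simp)
  set u := e 0 + l • e 1 with hu
  set v := e 0 + c • u with hv
  have hue : ∀ i, f u (e i) = if i = 0 then 1 else if i = 1 then l else 0 := fun i => by
    rw [hu, hf.add_left, hf.smul_left, he, he]
    fin_cases i <;> simp
  have huu : f u u = 0 := by
    rw [hu, hf.self_add, hf.self_smul, hf.smul_right, he, he, he, hl]
    simp
  have huv : f u v = 1 := by rw [hv, hf.add_right, hf.smul_right, huu, hue]; simp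
  have hvv : f v v = 0 := by
    rw [hv, hf.self_add, hf.self_smul, huu, hf.smul_right, hf.herm1 u, hue, he]
    simp only [if_true, map_one, mul_one, hf.invol]
    linear_combination hc
  have huw : f u (e 2) = 0 := by rw [hue]; simp
  have hvw : f v (e 2) = 0 := by rw [hv, hf.add_left, hf.smul_left, huw, he]; simp
  have hwv : f (e 2) v = 0 := hf.eq_zero_comm hvw
  have hww : f (e 2) (e 2) = 1 := by rw [he]; simp
  clear_value u v
  obtain ⟨α, hα, hTu⟩ := hT u huu (by rintro h1; rw [h1, hf.zero_left] at huv; simp at huv)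
  obtain ⟨β, -, hTv⟩ := hT v hvv (by rintro h1; rw [h1, hf.zero_right] at huv; simp at huv)
  have key : ∀ m : F, τ m * f (T (e 2)) (e 2) = m * α + m * τ m * f (T (e 2)) v := by
    intro m
    obtain ⟨μ, hμ⟩ := exists_trace_eq hf.invol (qHom_ne hF hσ) (d := -(m * σ m))
      (by simp [hf.invol, mul_comm])
    have h1 : f (u + m • e 2 + μ • v) v = 1 := by
      rw [hf.add_left, hf.add_left, hf.smul_left, hf.smul_left, huv, hwv, hvv]; simp
    obtain ⟨a, -, ha⟩ := hT (u + m • e 2 + μ • v) (by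
      rw [hf.self_add, hf.self_add, hf.self_smul, hf.self_smul, hf.smul_right, hf.smul_right,
        hf.add_left, hf.smul_left, huu, hww, hvv, huw, huv, hwv]
      simp only [mul_zero, map_zero, add_zero, mul_one, zero_add, hf.invol]
      linear_combination hμ) (by rintro h2; rw [h2, hf.zero_left] at h1; simp at h1)
    rw [hTa, hTa, hTs, hTs, hTu, hTv] at ha
    have h2 := congrArg (fun z => f z v) ha
    have h3 := congrArg (fun z => f z (e 2)) ha
    simp only [hf.add_left, hf.smul_left, huv, hvv, hwv, huw, hvw, hww] at h2 h3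
    linear_combination h3 - m * h2
  apply h0
  rw [eq_top_iff]
  intro m _
  rw [← hτ]
  have k1 := key 1
  have k2 := fun x => key (x + 1)
  simp only [map_one, map_add] at k1 k2
  have k3 : ∀ x, (x + τ x) * f (T (e 2)) v = 0 := fun x => by
    linear_combination key x + k1 - k2 x
  by_cases hA : f (T (e 2)) v = 0
  · have := key m
    rw [hA] at this k1
    exact mul_right_cancel₀ hα (by linear_combination this - τ m * k1)
  · have k4 := fun x => (mul_eq_zero.1 (k3 x)).resolve_right hA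
    have k5 := k4 1
    rw [map_one] at k5
    linear_combination k4 m - m * k5

lemma SU_not_le_extra (hn : 3 ≤ Fintype.card ι) (hex : ¬ (Fintype.card ι = 3 ∧ q = 2))
    {R : Subgroup (GL ι F)} {r p e k : ℕ} (hR : SUExtra f H R r p e k) :
    ¬ SUf f ≤ subgroupNormalizer R := by
  intro h
  have hn2 : 2 ≤ Fintype.card ι := by omega
  haveI := nonempty_of_two_le hn2
  have key : ∀ u, f u u = 0 → u ≠ 0 → ∀ x ∈ R, (∀ c : F, (x : Matrix ι ι F) *ᵥ u ≠ c • u) →
      ∀ c : F, c ≠ 0 → c + σ c = 0 → Fintype.card ι ≤ 4 ∧ c * c * (f ((x : Matrix ι ι F) *ᵥ u) u *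
        f (((x⁻¹ : GL ι F) : Matrix ι ι F) *ᵥ u) u) = Fintype.card ι := by
    intro u hu hu0 x hx hxu c hc0 hc
    obtain ⟨φ, hφ, h1, h2, h3⟩ := hf.exists_utv hu hc
    obtain ⟨h4, h5⟩ := hR.data.tv_trace hn hφ (h3 hu0 hc0) (h h2) hx hxu
    exact ⟨h4, by rw [← h5, h1, h1]; ring⟩
  obtain ⟨c, hc0, hc⟩ := exists_trace_zero hf.invol (qHom_ne hF hσ)
  obtain ⟨u, -, hu0, hu⟩ := hf.exists_iso_of_pair hF hσ (U := ⊤) (by simpa using hn2)
  obtain ⟨x, hx, hxu⟩ := hR.data.exists_not_eigen hn2 hu0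
  obtain ⟨h4, h1⟩ := key u hu hu0 x hx hxu c hc0 hc
  have hcard := hR.data.card_ne_zero
  have hq : q ≤ 3 := by
    have h2 : ∀ b : fixField σ, (b : F) ^ 3 = b := fun b => by
      by_cases hb : (b : F) = 0
      · rw [hb]; simp
      have := (key u hu hu0 x hx hxu (c * b) (mul_ne_zero hc0 hb) (by
        rw [map_mul, mem_fixField.1 b.2]; linear_combination (b : F) * hc)).2
      rw [← h1] at this hcard
      exact mul_left_cancel₀ hcard (by linear_combination (b : F) * this)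
    rw [← card_fixField_q hF hσ]
    refine le_trans ?_ (card_pow_fixed_le F (s := 3) (by norm_num))
    exact Nat.card_le_card_of_injective (fun b => ⟨b.1, h2 b⟩)
      fun a b hab => Subtype.ext (congrArg (fun z : {x : F // x ^ 3 = x} => z.1) hab)
  have hq2 := two_le_q hF
  have hqF : ((q : F)) = 0 := by
    have := natCast_card_eq_zero hF
    rwa [Nat.cast_pow, pow_eq_zero_iff two_ne_zero] at this
  obtain rfl : q = 3 := by
    by_contra h3
    obtain rfl : q = 2 := by omega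
    rw [show Fintype.card ι = 2 * 2 by omega, Nat.cast_mul, hqF, zero_mul] at hcard
    exact hcard rfl
  have hn4 : Fintype.card ι = 4 := by
    by_contra h3
    rw [show Fintype.card ι = 3 by omega] at hcard
    exact hcard hqF
  obtain rfl : r = 2 := prime_pow_eq hR.data.prime hR.pos hR.card.symm Nat.prime_two
    (by rw [hn4]; norm_num)
  have h2 : (2 : F) ≠ 0 := by exact_mod_cast hR.data.cast_ne_zero hn2
  obtain ⟨x, hx, y, hy, c', hc1, hc2, hxy⟩ :=
    exists_root_of_comm hn2 hR.data.abs hR.data.comm hR.data.pow_scal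
  have hc' : (c' : F) = -1 := by
    have := congrArg Units.val hc2
    rw [Units.val_pow_eq_pow_val, Units.val_one, pow_two, mul_self_eq_one_iff] at this
    exact this.resolve_left fun h => hc1 (Units.ext h)
  have hxy' : ∀ v, (x : Matrix ι ι F) *ᵥ ((y : Matrix ι ι F) *ᵥ v) =
      -((y : Matrix ι ι F) *ᵥ ((x : Matrix ι ι F) *ᵥ v)) := fun v => by
    rw [mulVec_mulVec, ← Units.val_mul, hxy, Units.val_mul, scalGL_val, hc', smul_one_mul,
      smul_mulVec, Units.val_mul, ← mulVec_mulVec, neg_one_smul]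
  obtain ⟨d, hd⟩ := exists_scalGL (hR.data.pow_scal x hx)
  obtain ⟨α, hα⟩ := exists_pow_eq_of_pow_eq_one (F := F) (a := 4) (b := 2) (by rw [hF]; norm_num)
    (d := d) (by
      have := hR.data.pow x hx
      change x ^ (2 * 2) = 1 at this
      rw [pow_mul, hd, ← scalGL_pow, scalGL_eq_one_iff] at this
      rw [← Units.val_pow_eq_pow_val, show 4 = 2 * 2 from rfl, pow_mul, this, one_pow,
        Units.val_one])
  have hα0 : α ≠ 0 := by
    rintro rfl
    exact d.ne_zero (by rw [← hα]; simp)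
  have hxx : ∀ v, (x : Matrix ι ι F) *ᵥ ((x : Matrix ι ι F) *ᵥ v) = (α * α) • v := fun v => by
    rw [mulVec_mulVec, ← Units.val_mul, ← pow_two, hd, scalGL_val, smul_mulVec, one_mulVec,
      ← hα, pow_two]
  let V : F → Submodule F (ι → F) := fun a => LinearMap.ker (Matrix.toLin' (x : Matrix ι ι F) -
    a • LinearMap.id)
  have hV : ∀ a v, v ∈ V a ↔ (x : Matrix ι ι F) *ᵥ v = a • v := fun a v => by
    simp [V, sub_eq_zero]
  have hle : ∀ a, Module.finrank F (V a) ≤ Module.finrank F (V (-a)) := fun a => by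
    rw [← finrank_map_val y]
    refine Submodule.finrank_mono ?_
    rintro _ ⟨v, hv, rfl⟩
    rw [hV, Matrix.toLin'_apply, hxy', (hV a v).1 hv, mulVec_smul, neg_smul]
  have hsup : V α ⊔ V (-α) = ⊤ := by
    rw [eq_top_iff]
    intro v _
    have : v = (2 * α)⁻¹ • (α • v + (x : Matrix ι ι F) *ᵥ v) +
        (2 * α)⁻¹ • (α • v - (x : Matrix ι ι F) *ᵥ v) := by
      rw [← smul_add, add_add_sub_cancel, ← add_smul, smul_smul, ← two_mul,
        inv_mul_cancel₀ (mul_ne_zero h2 hα0), one_smul]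
    rw [this]
    refine Submodule.add_mem_sup (Submodule.smul_mem _ _ ?_) (Submodule.smul_mem _ _ ?_)
    · rw [hV, mulVec_add, mulVec_smul, hxx]; module
    · rw [hV, mulVec_sub, mulVec_smul, hxx]; module
  have h5 := Submodule.finrank_add_le_finrank_add_finrank (V α) (V (-α))
  rw [hsup, finrank_top, Module.finrank_fintype_fun_eq_card] at h5
  have h6 := hle α
  have h7 := hle (-α)
  rw [neg_neg] at h7
  obtain ⟨a, ha, ha0, haa⟩ := hf.exists_iso_of_pair hF hσ (U := V α) (by omega)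
  rw [hV] at ha
  obtain ⟨μ, hμ⟩ := hR.sim hx
  obtain ⟨b, hb, hb0, hbb, hba⟩ : ∃ b ∈ V (-α), b ≠ 0 ∧ f b b = 0 ∧ f b a = 0 := by
    by_cases h8 : (μ : F) = α * σ α
    · obtain ⟨b, hb, hb0, hbb⟩ := hf.exists_iso_of_pair hF hσ (U := V (-α)) (by omega)
      refine ⟨b, hb, hb0, hbb, ?_⟩
      have := hμ b a
      rw [(hV _ _).1 hb, ha, hf.smul_left, hf.smul_right, h8] at this
      exact mul_left_cancel₀ (mul_ne_zero h2 (mul_ne_zero hα0 ((map_ne_zero σ).2 hα0)))
        (by linear_combination -this)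
    · obtain ⟨b, hb, hb0, hba⟩ := hf.toSesq.exists_perp_mem (U := V (-α)) (by omega) a
      refine ⟨b, hb, hb0, ?_, hba⟩
      have := hμ b b
      rw [(hV _ _).1 hb, hf.self_smul, map_neg] at this
      exact mul_left_cancel₀ (sub_ne_zero.2 h8) (by linear_combination -this)
  rw [hV] at hb
  have hab := hf.eq_zero_comm hba
  have h9 : ∀ s t : F, s • a + t • b = 0 → s = 0 ∧ t = 0 := by
    intro s t hst
    have h10 := congrArg ((x : Matrix ι ι F) *ᵥ ·) hst
    simp only [mulVec_add, mulVec_smul, ha, hb, mulVec_zero] at h10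
    have h11 : (2 * α * s) • a = 0 := by linear_combination (norm := module) h10 + α • hst
    have h12 : (2 * α * t) • b = 0 := by linear_combination (norm := module) α • hst - h10
    exact ⟨by simpa [h2, hα0, ha0] using h11, by simpa [h2, hα0, hb0] using h12⟩
  have := (key (a + b) (by rw [hf.self_add, haa, hbb, hab]; simp)
    (fun h10 => one_ne_zero (h9 1 1 (by simpa using h10)).1) x hx (fun s hs => by
      rw [mulVec_add, ha, hb] at hs
      obtain ⟨h10, h11⟩ := h9 (α - s) (-α - s) (by linear_combination (norm := module) hs)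
      exact mul_ne_zero h2 hα0 (by linear_combination h10 - h11)) c hc0 hc).2
  rw [mulVec_add, ha, hb, hf.add_left, hf.smul_left, hf.smul_left, hf.add_right, hf.add_right,
    haa, hab, hba, hbb] at this
  exact hR.data.card_ne_zero (by rw [← this]; simp)

/-- orthonormal frame adapted to a non-degenerate decomposition -/
lemma HForm.decomp_on {t m : ℕ} {D : Fin t → Submodule F (ι → F)}
    (hD : IsNondegenerateMDecomposition f m D) :
    ∃ (e : ι ≃ Fin m × Fin t) (P : GL ι F), frameGram f e P = 1 ∧ D = blockSub e P Prod.snd ∧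
      ∀ g ∈ decompositionStabilizer D, ∃ (s : Equiv.Perm (Fin t))
        (a : Fin t → Matrix (Fin m) (Fin m) F),
        (∀ i, (a i).det ≠ 0) ∧ (g : Matrix ι ι F) = frameEquiv e P (bm s a) := by
  choose b hb hbb using fun i => hf.exists_orthonormal hF hσ (hD.nondegenerate i) m
    (hD.decomp.finrank_eq i).ge
  obtain ⟨e, P, h1, h2, h3⟩ := IsMDecomposition.exists_frame_of_basis hD.decomp (Fintype.card_fin m)
    (fun i => hf.linearIndependent_of_orthonormal (hbb i)) hb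
  refine ⟨e, P, frameGram_eq_one (v := fun x => b x.2 x.1) (fun x => h1 _ _) fun x y => ?_, h2, h3⟩
  by_cases h : x.2 = y.2
  · rw [h, hbb]
    simp [Prod.ext_iff, h]
  · rw [hD.orthogonal _ _ h _ (hb _ _) _ (hb _ _), if_neg fun h' => h (by rw [h'])]

/-- orthonormal frame adapted to a non-degenerate frame -/
lemma HForm.mono_on {t : ℕ} {D : Fin t → Submodule F (ι → F)}
    (hD : IsNondegenerateMDecomposition f 1 D) :
    ∃ (e : ι ≃ Fin t) (P : GL ι F), frameGram f e P = 1 ∧ D = blockSub e P id ∧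
      ∀ g ∈ decompositionStabilizer D ⊓ SUf f, ∃ (s : Equiv.Perm (Fin t)) (d : Fin t → F),
        (∀ i, d i * σ (d i) = 1) ∧ ((Equiv.Perm.sign s : ℤ) : F) * ∏ i, d i = 1 ∧
          (g : Matrix ι ι F) = frameEquiv e P (mono s d) := by
  choose b hb hbb using fun i => hf.exists_orthonormal hF hσ (hD.nondegenerate i) 1
    (hD.decomp.finrank_eq i).ge
  obtain ⟨e, P, h1, h2, h3⟩ := IsMDecomposition.exists_mono hD.decomp (v := fun i => b i 0)
    (fun i => hb i 0) fun i h => by simpa [h, hf.zero_left] using hbb i 0 0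
  have hG : frameGram f e P = 1 := frameGram_eq_one h1 fun x y => by
    by_cases h : x = y
    · rw [h, hbb]
      simp
    · rw [hD.orthogonal _ _ h _ (hb _ _) _ (hb _ _), if_neg h]
  refine ⟨e, P, hG, h2, fun g hg => ?_⟩
  obtain ⟨s, d, -, h4⟩ := h3 g hg.1
  have h5 := hf.toSesq.tw_of_isom h4 (mem_SUf.1 hg.2).1
  have h6 := (mem_SUf.1 hg.2).2
  rw [hG, tw_mono] at h5
  rw [h4, det_frameEquiv, det_mono] at h6
  exact ⟨s, d, fun i => by simpa using congrFun (congrFun h5 i) i, h6, h4⟩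

omit hF hσ in
lemma HForm.exists_frames {κ : Type} [Fintype κ] [DecidableEq κ] (hn : 2 ≤ Fintype.card ι)
    {e : ι ≃ κ} {P : GL ι F} {c : F} (hG : frameGram f e P = c • 1)
    (h : ∀ g ∈ H, ∃ X, (g : Matrix ι ι F) = frameEquiv e P X ∧
      ∀ y, ∃ x, ∀ x', x' ≠ x → X x' y = 0) :
    ∃ D : Fin (Fintype.card ι) → Submodule F (ι → F), IsNondegenerateMDecomposition f 1 D ∧
      H ≤ decompositionStabilizer D := by
  let β : κ ≃ Fin (Fintype.card ι) := e.symm.trans (Fintype.equivFin ι)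
  refine ⟨blockSub e P β, hf.toSesq.nondeg_blockSub hn one_pos (card_equiv_eq β) fun x y hxy => ?_,
    fun g hg => ?_⟩
  · rw [hG, Matrix.smul_apply, one_apply_ne fun h => hxy (by rw [h]), smul_zero]
  · obtain ⟨X, h1, h2⟩ := h g hg
    obtain ⟨π, hπ⟩ := exists_perm_of_cols (by
      rw [← det_frameEquiv e P, ← h1]; exact val_det_ne_zero g) h2
    exact mem_decomp_blockSub (card_equiv_eq β) h1 (s := β.symm.trans (π.trans β))
      fun x y hxy => hπ x y fun h => hxy (by simp [h])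

omit hf in
lemma col_two (hq : q = 2) {a b c : F} (hc : c ≠ 0) (h : a * σ a + b * σ b = c) :
    a = 0 ∨ b = 0 := by
  subst hq
  by_contra h1
  push Not at h1
  have h2 : ∀ x : F, x ≠ 0 → x * σ x = 1 := fun x hx => by
    rw [hσ, ← pow_succ']
    exact pow_card_sub_one (k := 3) (by rw [hF]; norm_num) hx
  have h4 : ((4 : ℕ) : F) = 0 := natCast_card_eq_zero (by rw [hF]; norm_num)
  rw [h2 a h1.1, h2 b h1.2] at h
  refine hc (pow_eq_zero_iff two_ne_zero |>.1 ?_)
  rw [← h]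
  push_cast at h4
  linear_combination h4

omit hf in
lemma cols_two (hq : q = 2) {X : Matrix (Fin 2) (Fin 2) F} {c : F} (hc : c ≠ 0)
    (h : tw σ 1 X = c • 1) (y : Fin 2) : ∃ x, ∀ x', x' ≠ x → X x' y = 0 := by
  have := cols_of_tw h y
  rw [Fin.sum_univ_two] at this
  rcases col_two hF hσ hq hc this with h1 | h1
  · exact ⟨1, fun x hx => by rw [show x = 0 by omega, h1]⟩
  · exact ⟨0, fun x hx => by rw [show x = 1 by omega, h1]⟩

lemma planes_two (hq : q = 2) (hH : Isom f H) {t : ℕ} {D : Fin t → Submodule F (ι → F)}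
    (hD : IsNondegenerateMDecomposition f 2 D) (h : H ≤ decompositionStabilizer D) :
    ∃ D : Fin (Fintype.card ι) → Submodule F (ι → F), IsNondegenerateMDecomposition f 1 D ∧
      H ≤ decompositionStabilizer D := by
  obtain ⟨e, P, hG, -, h1⟩ := hf.decomp_on hF hσ hD
  have hmul := IsMDecomposition.mul_eq hD.decomp
  have ht := hD.decomp.two_le
  refine hf.exists_frames (by omega) (c := 1) (by rw [hG, one_smul]) fun g hg => ?_
  obtain ⟨s, a, -, h2⟩ := h1 g (h hg)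
  refine ⟨_, h2, fun y => ?_⟩
  have h3 := hf.toSesq.tw_of_isom h2 (hH g hg)
  rw [hG, ← blockDiagonal_one, tw_bm] at h3
  obtain ⟨x, hx⟩ := cols_two hF hσ hq one_ne_zero
    ((congrFun (blockDiagonal_injective h3) y.2).trans (one_smul _ _).symm) y.1
  refine ⟨(x, s y.2), fun x' hx' => ?_⟩
  rw [bm_apply]
  split_ifs with h4
  · exact hx _ fun h5 => hx' (Prod.ext h5 h4)
  · rfl

lemma tensor_two_su (hq : q = 2) (hH : Isom f H) {b : ℕ} (hb : 1 ≤ b) {e : ι ≃ Fin 2 × Fin b}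
    {P : GL ι F} {f₁ : (Fin 2 → F) → (Fin 2 → F) → F} {f₂ : (Fin b → F) → (Fin b → F) → F}
    (h1 : IsUnitaryFormPow q f₁) (h2 : IsUnitaryFormPow q f₂)
    (h3 : IsTensorFormStructure (fun x : F => x ^ q) f f₁ f₂ e P)
    (h : H ≤ tensorProductSubgroup 2 b e P) :
    ∃ D : Fin 2 → Submodule F (ι → F), IsNondegenerateMDecomposition f b D ∧
      H ≤ decompositionStabilizer D := by
  haveI : Nonempty (Fin b) := ⟨⟨0, hb⟩⟩
  have hfun : (fun x : F => x ^ q) = σ := funext fun x => (hσ x).symm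
  rw [hfun] at h3
  obtain ⟨c, hc, hG⟩ := frameGram_of_isTensorFormStructure h3
  have k1 := hform_of_isUnitaryFormPow hσ hf.invol h1
  have k2 := hform_of_isUnitaryFormPow hσ hf.invol h2
  obtain ⟨P', hG', h4⟩ := hf.tensor_on hF hσ
    (by rwa [← show f₁ = _ from funext fun u => funext fun v => k1.eq_gform u v])
    (by rwa [← show f₂ = _ from funext fun u => funext fun v => k2.eq_gform u v]) hG
  have hβ : ∀ i, Fintype.card {x : Fin 2 × Fin b // x.1 = i} = b := fun i => by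
    rw [card_fst_eq, Fintype.card_fin]
  refine ⟨blockSub e P' Prod.fst, hf.toSesq.nondeg_blockSub le_rfl hb hβ fun x y hxy => ?_,
    fun g hg => ?_⟩
  · rw [hG', Matrix.smul_apply, one_apply_ne fun h => hxy (by rw [h]), smul_zero]
  · obtain ⟨x, y, hxy⟩ := (mem_tensorProductSubgroup_iff e P g).1 (h hg)
    obtain ⟨x', y', h5⟩ := h4 x y
    rw [h5] at hxy
    have h6 := hf.toSesq.tw_of_isom hxy (hH g hg)
    rw [hG', tw_smul] at h6
    have h7 := smul_right_injective _ hc h6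
    rw [← one_kronecker_one] at h7
    obtain ⟨μ, hμ, h8, -⟩ := tw_of_kron (by simp) (by simp) h7
    obtain ⟨π, hπ⟩ := exists_perm_of_cols (val_det_ne_zero x') (cols_two hF hσ hq hμ h8)
    exact mem_decomp_blockSub hβ hxy (s := π) fun u v huv => by
      rw [kroneckerMap_apply, hπ _ _ huv, zero_mul]

end SU

/-- The subfield classes in the unitary case. -/
def SUSubMax [Fintype F] (q : ℕ) (f : (ι → F) → (ι → F) → F) (H : Subgroup (GL ι F)) : Prop :=
  (∃ (F₁ : Subfield F) (r : ℕ) (P : GL ι F), r.Prime ∧ Odd r ∧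
    Fintype.card F = Nat.card F₁ ^ r ∧ IsFormRationalStructure f F₁ 1 P ∧
    H = subfieldSubgroup F₁ P ⊓ SUf f) ∨
  (Odd q ∧ ∃ (F₁ : Subfield F) (P : GL ι F), Fintype.card F = Nat.card F₁ ^ 2 ∧
    IsFormRationalStructure f F₁ 1 P ∧ H = subfieldSubgroup F₁ P ⊓ SUf f) ∨
  (Even (Fintype.card ι) ∧ ∃ (F₁ : Subfield F) (P : GL ι F) (ζ : F),
    Fintype.card F = Nat.card F₁ ^ 2 ∧ ζ ≠ 0 ∧ ζ + ζ ^ q = 0 ∧
    IsFormRationalStructure f F₁ ζ P ∧
    (∀ u : ι → F, (∀ i, u i ∈ F₁) →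
      f ((P : Matrix ι ι F) *ᵥ u) ((P : Matrix ι ι F) *ᵥ u) = 0) ∧
    H = subfieldSubgroup F₁ P ⊓ SUf f)

/-- the geometric maximal subgroups of the special unitary group -/
def SUMax [Fintype F] (q : ℕ) (f : (ι → F) → (ι → F) → F) (H : Subgroup (GL ι F)) : Prop :=
  (∃ W : Submodule F (ι → F), W ≠ ⊥ ∧ IsTotallySingularFor f W ∧
    H = subspaceStabilizer W ⊓ SUf f) ∨
  (∃ W : Submodule F (ι → F), W ≠ ⊥ ∧ IsNondegenerateOn f W ∧
    2 * Module.finrank F W < Fintype.card ι ∧ H = subspaceStabilizer W ⊓ SUf f) ∨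
  (∃ (t k : ℕ) (D : Fin t → Submodule F (ι → F)), IsNondegenerateMDecomposition f k D ∧ 2 ≤ t ∧
    1 ≤ k ∧ t * k = Fintype.card ι ∧ (k = 2 → 3 ≤ q) ∧ H = decompositionStabilizer D ⊓ SUf f) ∨
  (∃ (k : ℕ) (D : Fin 2 → Submodule F (ι → F)), 2 * k = Fintype.card ι ∧
    IsMDecomposition k D ∧ (∀ i, IsTotallySingularFor f (D i)) ∧
    H = decompositionStabilizer D ⊓ SUf f) ∨
  (∃ (r : ℕ) (K : Subalgebra F (Matrix ι ι F)), r.Prime ∧ Odd r ∧ r ∣ Fintype.card ι ∧
    IsFieldSubalgebra r K ∧ IsAdjointClosedFor f K ∧ H = subalgebraNormalizer K ⊓ SUf f) ∨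
  (∃ (n₁ n₂ : ℕ) (e : ι ≃ Fin n₁ × Fin n₂) (P : GL ι F)
    (f₁ : (Fin n₁ → F) → (Fin n₁ → F) → F) (f₂ : (Fin n₂ → F) → (Fin n₂ → F) → F),
    2 ≤ n₁ ∧ n₁ < n₂ ∧ n₁ * n₂ = Fintype.card ι ∧ (n₁ = 2 → 3 ≤ q) ∧ IsUnitaryFormPow q f₁ ∧
    IsUnitaryFormPow q f₂ ∧ IsTensorFormStructure (fun x : F => x ^ q) f f₁ f₂ e P ∧
    H = tensorProductSubgroup n₁ n₂ e P ⊓ SUf f) ∨
  SUSubMax q f H ∨
  (∃ (R : Subgroup (GL ι F)) (r p e k : ℕ), SUExtra f H R r p e k ∧
    H = subgroupNormalizer R ⊓ SUf f) ∨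
  (∃ (k t : ℕ) (e : ι ≃ (Fin t → Fin k)) (P : GL ι F) (f₁ : (Fin k → F) → (Fin k → F) → F),
    3 ≤ k ∧ 2 ≤ t ∧ k ^ t = Fintype.card ι ∧ ¬ (q = 2 ∧ k = 3) ∧ IsUnitaryFormPow q f₁ ∧
    IsTensorPowerFormStructure (fun x : F => x ^ q) f f₁ e P ∧
    H = tensorWreathSubgroup k t e P ⊓ SUf f)

section Max

variable [Fintype F] {q : ℕ} (hF : Fintype.card F = q ^ 2) {σ : F →+* F} (hσ : ∀ x, σ x = x ^ q)
  {f : (ι → F) → (ι → F) → F} (hf : HForm σ 1 f) {H : Subgroup (GL ι F)}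
include hF hσ hf

lemma SUSub.max (hn : 3 ≤ Fintype.card ι) (hH : IsMaximalIn (SUf f) H) (h : SUSub q f H) :
    SUSubMax q f H := by
  rcases h with ⟨F₀, r, P, h0, h1, h2, h3, h⟩ | ⟨F₀, P, h0, h1, h2, h⟩ |
    ⟨F₀, P, ζ, h0, h1, h2, h3, h4, h5, h⟩
  · exact Or.inl ⟨F₀, r, P, h0, h1, h2, h3, eq_inf_of_max hH h
      (SU_not_le_subfield hF hσ hf hn (ne_top_of_card_pow h0.two_le h2) P)⟩
  · exact Or.inr (Or.inl ⟨h0, F₀, P, h1, h2, eq_inf_of_max hH h
      (SU_not_le_subfield hF hσ hf hn (ne_top_of_card_pow le_rfl h1) P)⟩)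
  · exact Or.inr (Or.inr ⟨h0, F₀, P, ζ, h1, h2, h3, h4, h5, eq_inf_of_max hH h
      (SU_not_le_subfield hF hσ hf hn (ne_top_of_card_pow le_rfl h1) P)⟩)

theorem max_SU (hn : 3 ≤ Fintype.card ι) (hex : ¬ (Fintype.card ι = 3 ∧ q = 2))
    (hH : IsMaximalIn (SUf f) H) : SUMax q f H ∨ InUnitaryResidualClass H := by
  have hn2 : 2 ≤ Fintype.card ι := by omega
  haveI := nonempty_of_two_le hn2
  have hI : Isom f H := (isom_SUf f).mono hH.1.le
  have hq := two_le_q hF
  obtain ⟨u, φ, hφu, hu, hφ, hm⟩ := exists_utv_SU hF hσ hf hn2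
  have c2 : ∀ (t k : ℕ) (D : Fin t → Submodule F (ι → F)), IsNondegenerateMDecomposition f k D →
      H ≤ decompositionStabilizer D → (k = 2 → 3 ≤ q) → SUMax q f H := fun t k D hD h h1 =>
    Or.inr (Or.inr (Or.inl ⟨t, k, D, hD, hD.decomp.two_le, hD.decomp.pos,
      IsMDecomposition.mul_eq hD.decomp, h1,
      eq_inf_of_max hH h (SU_not_le_decomp hF hσ hf hn hex hD)⟩))
  rcases asch_su hF hσ hf hn2 hI with h | h
  swap
  · exact Or.inr h
  left
  rcases h with ⟨W, h0, h1, h⟩ | ⟨W, h0, h1, h2, h⟩ | ⟨t, k, D, h0, h⟩ | ⟨k, D, h0, h1, h2, h⟩ |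
    ⟨r, K, h0, h1, h2, h3, h⟩ | ⟨a, b, e, P, f₁, f₂, h0, h1, h2, h3, h4, h⟩ | h |
    ⟨R, r, p, e, k, h⟩ | ⟨k, t, e, P, f₁, h0, h1, h2, h3, h4, h⟩
  · refine Or.inl ⟨W, h0, h1, eq_inf_of_max hH h (SU_not_le_stab hF hσ hf hn2 h0 ?_)⟩
    rintro rfl
    exact hu (hf.eq_zero_of_left fun x => h1 x trivial u trivial)
  · refine Or.inr (Or.inl ⟨W, h0, h1, h2, eq_inf_of_max hH h (SU_not_le_stab hF hσ hf hn2 h0 ?_)⟩)
    rintro rfl
    simp at h2
    omega
  · by_cases e1 : k = 2 ∧ q = 2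
    · obtain ⟨rfl, hq2⟩ := e1
      obtain ⟨D', h1, h2⟩ := planes_two hF hσ hf hq2 hI h0 h
      exact c2 _ _ D' h1 h2 (by omega)
    · exact c2 t k D h0 h (by omega)
  · exact Or.inr (Or.inr (Or.inr (Or.inl ⟨k, D, h0, h1, h2,
      eq_inf_of_max hH h (SU_not_le_pair hF hσ hf hn h1 h2)⟩)))
  · iterate 4 right
    exact Or.inl ⟨r, K, h0, h1, IsFieldSubalgebra.dvd_card h2, h2, h3, eq_inf_of_max hH h
      fun h' => tv_not_mem_field hn hφu hu hφ h0.two_le h2 (h' hm)⟩
  · by_cases e1 : a = 2 ∧ q = 2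
    · obtain ⟨rfl, hq2⟩ := e1
      obtain ⟨D', h5, h6⟩ := tensor_two_su hF hσ hf hq2 hI (by omega) h2 h3 h4 h
      exact c2 _ _ D' h5 h6 (by omega)
    iterate 5 right
    exact Or.inl ⟨a, b, e, P, f₁, f₂, h0, h1, by simpa using (Fintype.card_congr e).symm, by omega,
      h2, h3, h4, eq_inf_of_max hH h
        fun h' => tv_not_mem_tensor hφu hu hφ h0 (by omega) e P (h' hm)⟩
  · iterate 6 right
    exact Or.inl (h.max hF hσ hf hn hH)
  · iterate 7 right
    exact Or.inl ⟨R, r, p, e, k, h, eq_inf_of_max hH h.data.norm.le_normalizer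
      (SU_not_le_extra hF hσ hf hn hex h)⟩
  · iterate 8 right
    exact ⟨k, t, e, P, f₁, h0, h1, by simpa using (Fintype.card_congr e).symm, h2, h3, h4,
      eq_inf_of_max hH h fun h' => tv_not_mem_wreath hφu hu hφ (by omega) h1 (Or.inl h0) e P (h' hm)⟩

omit hσ hf in
/-- arithmetic of class 6 for odd `r` -/
lemma SUExtra.field_odd {R : Subgroup (GL ι F)} {r p e k : ℕ} (h : SUExtra f H R r p e k)
    (hr : r ≠ 2) : p.Prime ∧ CharP F p ∧ Nat.card (Subgroup.center R) = r ∧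
      Nat.card R = r ^ (1 + 2 * k) ∧ ∃ j, 0 < j ∧ q = p ^ j ∧ 2 * j ∣ r - 1 ∧
        (p % r) ^ (2 * j) % r = 1 ∧ ∀ d, 0 < d → d < 2 * j → (p % r) ^ d % r ≠ 1 := by
  obtain ⟨-, hz, hc⟩ := h.type.resolve_right fun h' => hr h'.1
  have hm := h.min
  rw [hz] at hm
  obtain ⟨hp, hch, hcard, h1, h2⟩ := id hm
  obtain ⟨j, hj0, hj⟩ := exists_q_eq_pow hF p
  obtain rfl : e = 2 * j := by
    rw [hF, hj, ← pow_mul] at hcard
    rw [← Nat.pow_right_injective hp.two_le hcard, mul_comm]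
  refine ⟨hp, hch, hz, hc, j, hj0, hj,
    IsMinimalFieldFor.dvd_of_pow hm (dvd_pow_sub_one_of_prime h.data.prime hp h.ne),
    (dvd_pow_sub_one_iff hp.pos h.data.prime.one_lt).1 h1, fun d hd hd' h3 =>
      h2 d hd hd' ((dvd_pow_sub_one_iff hp.pos h.data.prime.one_lt).2 h3)⟩

omit hσ hf in
/-- arithmetic of class 6 for `r = 2` -/
lemma SUExtra.field_two {R : Subgroup (GL ι F)} {p e k : ℕ} (h : SUExtra f H R 2 p e k) :
    p.Prime ∧ q = p ∧ p % 4 = 3 ∧ Nat.card (Subgroup.center R) = 4 ∧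
      Nat.card R = 2 ^ (2 + 2 * k) := by
  obtain ⟨-, rfl, hz, hc⟩ := h.type.resolve_left fun h' => absurd h'.1 (by decide)
  have hm := h.min
  rw [hz] at hm
  obtain ⟨hp, hch, hcard, h1, h2⟩ := hm
  have h3 := h2 1 one_pos (by norm_num)
  have hpo : p % 2 = 1 := (hp.eq_two_or_odd).resolve_left (Ne.symm h.ne)
  rw [pow_one] at h3
  refine ⟨hp, Nat.pow_left_injective two_ne_zero (hF.symm.trans hcard), by omega, hz, hc⟩

end Max

end Cfsg.Agent.H7
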