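import Cfsg.Agent.H7.AschSU3
import Cfsg.Agent.H8.M3Iface

/-! Containment analysis in dimension three: general tools, monomial groups, unipotent groups,
residual groups. -/

set_option autoImplicit false
set_option linter.unusedSectionVars false
set_option linter.unusedVariables false
set_option linter.unnecessarySimpa false
set_option linter.style.haveILetI false
set_option linter.unusedSimpArgs false

namespace Cfsg.Agent.H7

open Cfsg Cfsg.Geo Matrix
open scoped MatrixGroups Kronecker commutatorElement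

variable {F : Type*} [Field F]

/-- three by three matrices -/
abbrev M3 (F : Type*) := Matrix (Fin 3) (Fin 3) F
/-- the general linear group in dimension three -/
abbrev G3 (F : Type*) [Field F] := GL (Fin 3) F

lemma max_of_cases {G : Type*} [Group G] [Finite G] {K M : Subgroup G} (hM : M ≤ K)
    (hne : ¬ K ≤ M) (h : ∀ H, IsMaximalIn K H → M ≤ H → H ≤ M) : IsMaximalIn K M := by
  refine ⟨lt_of_le_not_ge hM hne, fun L h1 h2 => ?_⟩
  by_cases hL : L = K
  · exact Or.inr hL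
  left
  obtain ⟨H, hLH, hH⟩ := Finite.exists_le_maximal (p := fun H : Subgroup G => H < K)
    (lt_of_le_of_ne h2 hL)
  have hmax : IsMaximalIn K H := ⟨hH.1, fun N h3 h4 => by
    by_cases hN : N = K
    · exact Or.inr hN
    · exact Or.inl (le_antisymm (hH.2 (lt_of_le_of_ne h4 hN) h3) h3)⟩
  exact le_antisymm (hLH.trans (h H hmax (h1.trans hLH))) h1

lemma le_of_frames [Finite F] {M H : Subgroup (G3 F)} {e e' : Fin 3 ≃ Fin 3} {P P' : G3 F}
    (h : ∀ X : G3 F, frameGL e P X ∈ M ↔ frameGL e' P' X ∈ H) (hle : M ≤ H) : H ≤ M := by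
  refine (Subgroup.eq_of_le_of_card_ge hle (le_of_eq (Nat.card_congr ?_))).ge
  refine Equiv.subtypeEquiv ((frameGL e' P').symm.trans (frameGL e P)).toEquiv fun g => ?_
  have := h ((frameGL e' P').symm g)
  rw [MulEquiv.apply_symm_apply] at this
  exact this.symm

lemma trace_frameEquiv (e : Fin 3 ≃ Fin 3) (P : G3 F) (X : M3 F) :
    (frameEquiv e P X).trace = X.trace := by
  rw [frameEquiv_apply, cj_apply, trace_mul_cycle, Units.inv_mul, one_mul]
  exact Equiv.sum_comp e fun i => X i i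

/-- `X` is the matrix in the frame `(e, P)` of a member of `M` -/
def InF (e : Fin 3 ≃ Fin 3) (P : G3 F) (M : Subgroup (G3 F)) (X : M3 F) : Prop :=
  ∃ g ∈ M, (g : M3 F) = frameEquiv e P X

lemma InF.mono {e : Fin 3 ≃ Fin 3} {P : G3 F} {M H : Subgroup (G3 F)} {X : M3 F}
    (h : InF e P M X) (hle : M ≤ H) : InF e P H X :=
  let ⟨g, hg, h⟩ := h; ⟨g, hle hg, h⟩

lemma inF_of {e : Fin 3 ≃ Fin 3} {P : G3 F} {M : Subgroup (G3 F)} {X : M3 F} (hX : X.det ≠ 0)
    (h : ∀ g : G3 F, (g : M3 F) = frameEquiv e P X → g ∈ M) : InF e P M X :=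
  ⟨frameElt e P X hX, h _ rfl, rfl⟩

lemma InF.mul {e : Fin 3 ≃ Fin 3} {P : G3 F} {M : Subgroup (G3 F)} {X Y : M3 F}
    (h : InF e P M X) (h' : InF e P M Y) : InF e P M (X * Y) :=
  let ⟨g, hg, h⟩ := h
  let ⟨g', hg', h'⟩ := h'
  ⟨g * g', M.mul_mem hg hg', by rw [Units.val_mul, h, h', map_mul]⟩

lemma val_inv_of_frame {e : Fin 3 ≃ Fin 3} {P g : G3 F} {X Y : M3 F}
    (h : (g : M3 F) = frameEquiv e P X) (hXY : X * Y = 1) :
    ((g⁻¹ : G3 F) : M3 F) = frameEquiv e P Y :=
  Units.inv_eq_of_mul_eq_one_right (by rw [h, ← map_mul, hXY, map_one])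

lemma exists_eigen_of_det {x : M3 F} {c : F} (h : (x - c • 1).det = 0) :
    ∃ v : Fin 3 → F, v ≠ 0 ∧ x *ᵥ v = c • v := by
  obtain ⟨v, hv, h⟩ := exists_mulVec_eq_zero_iff.2 h
  refine ⟨v, hv, ?_⟩
  rw [sub_mulVec, smul_mulVec, one_mulVec] at h
  exact sub_eq_zero.1 h

lemma pow_three_of_scal {g : G3 F} (hd : (g : M3 F).det = 1) {k : ℕ}
    (h : IsScal ((g ^ k : G3 F) : M3 F)) : g ^ (3 * k) = 1 := by
  obtain ⟨c, hc⟩ := h
  have h1 : c ^ 3 = 1 := by
    have := congrArg det hc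
    rw [Units.val_pow_eq_pow_val, det_pow, hd, one_pow, det_smul, det_one] at this
    simpa using this.symm
  apply Units.ext
  rw [mul_comm, pow_mul, Units.val_pow_eq_pow_val, hc, smul_pow, one_pow, h1, one_smul, Units.val_one]

/-! ### Monomial groups -/

lemma mono_mul {T : Type} [Fintype T] [DecidableEq T] (s s' : Equiv.Perm T) (d d' : T → F) :
    mono s d * mono s' d' = mono (s * s') fun i => d (s' i) * d' i := by
  ext x y
  simp only [mul_apply, mono_apply, mul_ite, mul_zero, Finset.sum_ite_eq', Finset.mem_univ, if_true]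
  by_cases h : x = s (s' y)
  · rw [if_pos h, if_pos (show x = (s * s') y from h)]
  · rw [if_neg h, if_neg (show ¬ x = (s * s') y from h), zero_mul]

lemma mono_one {T : Type} [Fintype T] [DecidableEq T] (d : T → F) : mono 1 d = diagonal d := by
  ext x y
  by_cases h : x = y
  · subst h
    simp [mono_apply]
  · simp [mono_apply, h]

lemma exists_perm_hom {D : Fin 3 → Submodule F (Fin 3 → F)} (hD : IsMDecomposition 1 D) :
    ∃ (e : Fin 3 ≃ Fin 3) (P : G3 F) (π : decompositionStabilizer D →* Equiv.Perm (Fin 3)),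
      ∀ g : decompositionStabilizer D, ∃ d : Fin 3 → F, (∀ i, d i ≠ 0) ∧
        ((g : G3 F) : M3 F) = frameEquiv e P (mono (π g) d) := by
  choose v hv hv0 using IsMDecomposition.exists_ne_zero hD
  obtain ⟨e, P, -, -, h⟩ := IsMDecomposition.exists_mono hD hv hv0
  choose s d hd hs using fun g : decompositionStabilizer D => h g g.2
  refine ⟨e, P, MonoidHom.mk' s fun a b => ?_, fun g => ⟨d g, hd g, hs g⟩⟩
  have h1 := hs (a * b)
  rw [Subgroup.coe_mul, Units.val_mul, hs, hs, ← map_mul, mono_mul] at h1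
  have h2 := (frameEquiv e P).injective h1
  ext i
  have h3 := congrFun (congrFun h2 (s (a * b) i)) i
  simp only [mono_apply, if_true] at h3
  split_ifs at h3 with h4
  · rw [h4]
  · exact absurd h3.symm (hd _ _)

section MonoLaws

variable {D : Fin 3 → Submodule F (Fin 3 → F)} {e : Fin 3 ≃ Fin 3} {P : G3 F}
  {π : decompositionStabilizer D →* Equiv.Perm (Fin 3)}
  (hπ : ∀ g : decompositionStabilizer D, ∃ d : Fin 3 → F, (∀ i, d i ≠ 0) ∧
    ((g : G3 F) : M3 F) = frameEquiv e P (mono (π g) d))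
include hπ

lemma mono_unip {g : decompositionStabilizer D} (h1 : π g = 1)
    (h : (((g : G3 F) : M3 F) - 1) ^ 3 = 0) : g = 1 := by
  obtain ⟨d, -, hg⟩ := hπ g
  rw [h1, mono_one] at hg
  rw [hg, ← map_one (frameEquiv e P), ← map_sub, ← map_pow, map_eq_zero_iff _
    (frameEquiv e P).injective, ← diagonal_one, diagonal_sub, diagonal_pow] at h
  have h2 : d = 1 := by
    ext i
    have := congrFun (congrFun h i) i
    simpa [sub_eq_zero] using this
  apply Subtype.ext
  apply Units.ext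
  rw [hg, h2]
  exact (congrArg _ diagonal_one).trans (map_one _)

lemma mono_tv {g : decompositionStabilizer D}
    (h : (((g : G3 F) : M3 F) - 1) * (((g : G3 F) : M3 F) - 1) = 0) : π g * π g = 1 := by
  obtain ⟨d, hd, hg⟩ := hπ g
  rw [hg, ← map_one (frameEquiv e P), ← map_sub, ← map_mul, map_eq_zero_iff _
    (frameEquiv e P).injective, sub_mul, mul_sub, mul_sub, mono_mul] at h
  ext i
  by_contra hi
  have hi' : (π g * π g) i ≠ i := fun h => hi (by rw [h]; rfl)
  have hi'' : (π g * π g) i ≠ π g i := fun h => hi' (by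
    have : π g i = i := (π g).injective h
    rw [h, this])
  have := congrFun (congrFun h ((π g * π g) i)) i
  have h1 : π g (π g i) ≠ i := hi'
  have h2 : π g i ≠ i := fun h => h1 (by rw [h, h])
  simp [mono_apply, h1, h2, one_apply, hd] at this

lemma mono_sign {g : decompositionStabilizer D}
    (h : (((g : G3 F) : M3 F) - 1) * (((g : G3 F) : M3 F) - 1) = 0) (hg : g ≠ 1) :
    Equiv.Perm.sign (π g) = -1 := by
  have h1 := mono_tv hπ h
  have h2 : π g ≠ 1 := fun h2 => hg (mono_unip hπ h2 (by rw [pow_succ, pow_two, h, zero_mul]))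
  have : ∀ s : Equiv.Perm (Fin 3), s * s = 1 → s ≠ 1 → Equiv.Perm.sign s = -1 := by decide
  exact this _ h1 h2

end MonoLaws

section Decomp

variable {D : Fin 3 → Submodule F (Fin 3 → F)} (hD : IsMDecomposition 1 D)
include hD

lemma decomp_eigen {g : G3 F} (hg : g ∈ decompositionStabilizer D) :
    ∃ (v : Fin 3 → F) (c : F), v ≠ 0 ∧ ((g ^ 6 : G3 F) : M3 F) *ᵥ v = c • v := by
  obtain ⟨e, P, π, hπ⟩ := exists_perm_hom hD
  obtain ⟨d, -, h⟩ := hπ (⟨g, hg⟩ ^ 6)
  have : ∀ s : Equiv.Perm (Fin 3), s ^ 6 = 1 := by decide +kernel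
  rw [map_pow, this, mono_one] at h
  refine ⟨frameVec e P (Pi.single 0 1), d 0, by simp, ?_⟩
  rw [show ((g ^ 6 : G3 F) : M3 F) = _ from h, frameEquiv_mulVec, ← map_smul]
  congr 1
  ext i
  fin_cases i <;> simp [mulVec_diagonal]

lemma decomp_comm_tv {a b T : G3 F} (ha : a ∈ decompositionStabilizer D)
    (hb : b ∈ decompositionStabilizer D) (hT : a * b = T * (b * a))
    (h : ((T : M3 F) - 1) * ((T : M3 F) - 1) = 0) : T = 1 := by
  obtain ⟨e, P, π, hπ⟩ := exists_perm_hom hD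
  have hT' : T ∈ decompositionStabilizer D := by
    rw [show T = a * b * (b * a)⁻¹ by rw [hT]; group]
    exact mul_mem (mul_mem ha hb) (inv_mem (mul_mem hb ha))
  by_contra h1
  have h2 := mono_sign hπ (g := ⟨T, hT'⟩) h (fun h2 => h1 (congrArg Subtype.val h2))
  have h3 : (⟨a, ha⟩ * ⟨b, hb⟩ : decompositionStabilizer D) = ⟨T, hT'⟩ * (⟨b, hb⟩ * ⟨a, ha⟩) :=
    Subtype.ext hT
  have h4 := congrArg (fun g => Equiv.Perm.sign (π g)) h3
  simp only [map_mul, h2] at h4
  rw [mul_comm (Equiv.Perm.sign (π ⟨b, hb⟩))] at h4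
  have h5 := mul_right_cancel ((one_mul _).trans h4)
  exact absurd h5 (by decide)

lemma decomp_three_tv {a b : G3 F} (ha : a ∈ decompositionStabilizer D)
    (hb : b ∈ decompositionStabilizer D) (h1 : ((a : M3 F) - 1) * ((a : M3 F) - 1) = 0)
    (h2 : ((b : M3 F) - 1) * ((b : M3 F) - 1) = 0)
    (h3 : (((a * b : G3 F) : M3 F) - 1) * (((a * b : G3 F) : M3 F) - 1) = 0) (a1 : a ≠ 1)
    (b1 : b ≠ 1) (ab1 : a * b ≠ 1) : False := by
  obtain ⟨e, P, π, hπ⟩ := exists_perm_hom hD
  have k1 := mono_sign hπ (g := ⟨a, ha⟩) h1 (fun h2 => a1 (congrArg Subtype.val h2))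
  have k2 := mono_sign hπ (g := ⟨b, hb⟩) h2 (fun h2 => b1 (congrArg Subtype.val h2))
  have k3 := mono_sign hπ (g := ⟨a * b, mul_mem ha hb⟩) h3 (fun h2 => ab1 (congrArg Subtype.val h2))
  have k4 : π ⟨a * b, mul_mem ha hb⟩ = π ⟨a, ha⟩ * π ⟨b, hb⟩ := π.map_mul ⟨a, ha⟩ ⟨b, hb⟩
  rw [k4, map_mul, k1, k2] at k3
  exact absurd k3 (by decide)

lemma decomp_unip {U : Subgroup (G3 F)} (hU : U ≤ decompositionStabilizer D)
    (h : ∀ g ∈ U, ((g : M3 F) - 1) ^ 3 = 0) : Nat.card U ∣ 6 := by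
  obtain ⟨e, P, π, hπ⟩ := exists_perm_hom hD
  have := Subgroup.card_dvd_of_injective (π.comp (Subgroup.inclusion hU))
    ((injective_iff_map_eq_one _).2 fun g hg => by
      have := mono_unip hπ (g := Subgroup.inclusion hU g) hg (h g g.2)
      exact Subtype.ext (congrArg Subtype.val this :))
  simpa [Fintype.card_perm, Nat.factorial] using this

lemma decomp_q8 {s x y : G3 F} (hs : s ∈ decompositionStabilizer D)
    (hx : x ∈ decompositionStabilizer D) (hy : y ∈ decompositionStabilizer D)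
    (h4 : s * s * (s * s) = 1) (h1 : s * s * x * (s * s) * x = 1) (h2 : s * s * y * (s * s) * y = 1)
    (x3 : x * x * x = 1) (y3 : y * y * y = 1) : x * y = y * x := by
  obtain ⟨e, P, π, hπ⟩ := exists_perm_hom hD
  have key : ∀ s x : Equiv.Perm (Fin 3), s * s * (s * s) = 1 → s * s * x * (s * s) * x = 1 →
    x * x * x = 1 → x = 1 := by decide +kernel
  have k0 : π ⟨s, hs⟩ * π ⟨s, hs⟩ * (π ⟨s, hs⟩ * π ⟨s, hs⟩) = 1 := by
    simp only [← map_mul]
    exact (congrArg π (Subtype.ext h4)).trans (map_one π)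
  have k : ∀ (x : G3 F) (hx : x ∈ decompositionStabilizer D), s * s * x * (s * s) * x = 1 →
      x * x * x = 1 → ∃ d, (x : M3 F) = frameEquiv e P (diagonal d) := fun x hx h1 x3 => by
    obtain ⟨d, -, h⟩ := hπ ⟨x, hx⟩
    rw [key _ (π ⟨x, hx⟩) k0 (by
      simp only [← map_mul]
      exact (congrArg π (Subtype.ext h1)).trans (map_one π)) (by
      simp only [← map_mul]
      exact (congrArg π (Subtype.ext x3)).trans (map_one π)), mono_one] at h
    exact ⟨d, h⟩
  obtain ⟨d, hd⟩ := k x hx h1 x3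
  obtain ⟨d', hd'⟩ := k y hy h2 y3
  apply Units.ext
  rw [Units.val_mul, Units.val_mul, hd, hd', ← map_mul, ← map_mul, diagonal_mul_diagonal,
    diagonal_mul_diagonal]
  simp only [mul_comm]

end Decomp

lemma mem_decomp_frame_iff {e : Fin 3 ≃ Fin 3} {P : G3 F} (X : G3 F) :
    frameGL e P X ∈ decompositionStabilizer (blockSub e P (id : Fin 3 → Fin 3)) ↔
      ∃ s : Equiv.Perm (Fin 3), ∀ x y, x ≠ s y → (X : M3 F) x y = 0 := by
  constructor
  · intro h
    obtain ⟨s, hs⟩ := zero_of_mem_decomp h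
    refine ⟨s, fun x y hxy => ?_⟩
    have := hs x y hxy
    rwa [frameGL_val, AlgEquiv.symm_apply_apply] at this
  · rintro ⟨s, hs⟩
    exact mem_decomp_blockSub (m := 1) (fun i => card_equiv_eq (Equiv.refl _) i) rfl hs

lemma inF_decomp {e : Fin 3 ≃ Fin 3} {P : G3 F} {g : G3 F} {X : M3 F}
    (hg : (g : M3 F) = frameEquiv e P X) (s : Equiv.Perm (Fin 3)) (hs : ∀ x y, x ≠ s y → X x y = 0) :
    g ∈ decompositionStabilizer (blockSub e P (id : Fin 3 → Fin 3)) :=
  mem_decomp_blockSub (m := 1) (fun i => card_equiv_eq (Equiv.refl _) i) hg hs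

/-! ### Unitriangular groups -/

/-- the upper unitriangular group -/
def UT (F : Type*) [Field F] : Subgroup (G3 F) where
  carrier := {g | ∃ c b d : F, (g : M3 F) = !![1, c, b; 0, 1, d; 0, 0, 1]}
  mul_mem' := by
    rintro g h ⟨c, b, d, hg⟩ ⟨c', b', d', hh⟩
    refine ⟨c + c', b + c * d' + b', d + d', ?_⟩
    rw [Units.val_mul, hg, hh]
    ext i j
    fin_cases i <;> fin_cases j <;> simp [mul_apply, Fin.sum_univ_three] <;> ring
  one_mem' := ⟨0, 0, 0, by ext i j; fin_cases i <;> fin_cases j <;> simp⟩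
  inv_mem' := by
    rintro g ⟨c, b, d, hg⟩
    refine ⟨-c, c * d - b, -d, Units.inv_eq_of_mul_eq_one_right ?_⟩
    rw [hg]
    ext i j
    fin_cases i <;> fin_cases j <;> simp [mul_apply, Fin.sum_univ_three]
    ring

lemma ut_nil (c b d : F) : ((!![1, c, b; 0, 1, d; 0, 0, 1] : M3 F) - 1) ^ 3 = 0 := by
  ext i j
  fin_cases i <;> fin_cases j <;> simp [pow_succ, mul_apply, Fin.sum_univ_three, one_apply]

/-- the entry above the diagonal -/
def utHom (F : Type*) [Field F] : UT F →* Multiplicative F :=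
  MonoidHom.mk' (fun g => Multiplicative.ofAdd (((g : G3 F) : M3 F) 0 1)) (by
    rintro ⟨g, c, b, d, hg⟩ ⟨h, c', b', d', hh⟩
    rw [← ofAdd_add]
    congr 1
    simp [hg, hh, mul_apply, Fin.sum_univ_three, add_comm])

/-- `M` contains regular unipotent elements with parameters in `S` -/
def HasU (e : Fin 3 ≃ Fin 3) (P : G3 F) (M : Subgroup (G3 F)) (S : Subfield F) : Prop :=
  ∀ c ∈ S, ∃ b d : F, (c ≠ 0 → d ≠ 0) ∧ InF e P M !![1, c, b; 0, 1, d; 0, 0, 1]

lemma HasU.mono {e : Fin 3 ≃ Fin 3} {P : G3 F} {M H : Subgroup (G3 F)} {S : Subfield F}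
    (h : HasU e P M S) (hle : M ≤ H) : HasU e P H S := fun c hc =>
  let ⟨b, d, h1, h2⟩ := h c hc; ⟨b, d, h1, h2.mono hle⟩

lemma HasU.exists_unip [Finite F] {e : Fin 3 ≃ Fin 3} {P : G3 F} {M : Subgroup (G3 F)}
    {S : Subfield F} (h : HasU e P M S) : ∃ U : Subgroup (G3 F), U ≤ M ∧
      (∀ g ∈ U, ((g : M3 F) - 1) ^ 3 = 0) ∧ Nat.card S ∣ Nat.card U := by
  let U : Subgroup (G3 F) := M ⊓ (UT F).comap (frameGL e P).symm.toMonoidHom
  let ρ : U →* Multiplicative F := (utHom F).comp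
    (((frameGL e P).symm.toMonoidHom.comp U.subtype).codRestrict _ fun g => g.2.2)
  refine ⟨U, inf_le_left, fun g hg => ?_, ?_⟩
  · obtain ⟨c, b, d, h1⟩ := hg.2
    rw [← frameEquiv_frameGL_symm e P g, ← map_one (frameEquiv e P), ← map_sub, ← map_pow]
    rw [show (((frameGL e P).symm g : G3 F) : M3 F) = _ from h1, ut_nil, map_zero]
  · refine dvd_trans ?_ (Subgroup.card_range_dvd ρ)
    have hle : AddSubgroup.toSubgroup S.toAddSubgroup ≤ ρ.range := by
      intro c hc
      obtain ⟨b, d, -, g, hg, h1⟩ := h (Multiplicative.toAdd c) hc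
      have h2 : (((frameGL e P).symm g : G3 F) : M3 F) = !![1, Multiplicative.toAdd c, b; 0, 1, d; 0, 0, 1] := by
        rw [frameGL_symm_val, h1, AlgEquiv.symm_apply_apply]
      refine ⟨⟨g, hg, _, b, d, h2⟩, ?_⟩
      change Multiplicative.ofAdd ((((frameGL e P).symm g : G3 F) : M3 F) 0 1) = c
      rw [h2]
      rfl
    exact Subgroup.card_dvd_of_le hle

lemma HasU.dvd_six [Finite F] {e : Fin 3 ≃ Fin 3} {P : G3 F} {M : Subgroup (G3 F)}
    {S : Subfield F} (h : HasU e P M S) {D : Fin 3 → Submodule F (Fin 3 → F)}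
    (hD : IsMDecomposition 1 D) (hle : M ≤ decompositionStabilizer D) : Nat.card S ∣ 6 := by
  obtain ⟨U, h1, h2, h3⟩ := h.exists_unip
  exact h3.trans (decomp_unip hD (h1.trans hle) h2)

/-! ### Residual groups -/

lemma card_dvd_modSc {A : Type*} [Group A] {H : Subgroup (G3 F)} (ψ : A →* G3 F)
    (h1 : ∀ a, ψ a ∈ H) (h2 : ∀ a, IsScal (ψ a : M3 F) → a = 1) :
    Nat.card A ∣ Nat.card (H8.ModSc H) :=
  Subgroup.card_dvd_of_injective ((QuotientGroup.mk' _).comp (ψ.codRestrict H h1))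
    ((injective_iff_map_eq_one _).2 fun a ha =>
      h2 a (isScal_of_mem_scalars ((QuotientGroup.eq_one_iff (ψ.codRestrict H h1 a)).1 ha :)))

lemma card_dvd_three_mul [Finite F] {H : Subgroup (G3 F)} (hH : H ≤ specialLinear (Fin 3) F) :
    Nat.card H ∣ 3 * Nat.card (H8.ModSc H) := by
  rw [Subgroup.card_eq_card_quotient_mul_card_subgroup ((scalars (Fin 3) F).subgroupOf H), mul_comm]
  refine Nat.mul_dvd_mul_right ?_ _
  haveI : IsCyclic (scalars (Fin 3) F) :=
    isCyclic_of_surjective _ (MonoidHom.rangeRestrict_surjective _)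
  haveI : IsCyclic ((scalars (Fin 3) F).subgroupOf H) :=
    isCyclic_of_injective ((H.subtype.comp ((scalars (Fin 3) F).subgroupOf H).subtype).codRestrict
      (scalars (Fin 3) F) fun g => g.2) fun a b h =>
        Subtype.ext (Subtype.ext (congrArg Subtype.val h :))
  rw [← IsCyclic.exponent_eq_card]
  refine Monoid.exponent_dvd_of_forall_pow_eq_one fun g => Subtype.ext (Subtype.ext ?_)
  have := pow_three_of_scal (g := g.1.1) (mem_specialLinear_iff.1 (hH g.1.2)) (k := 1)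
    (by rw [pow_one]; exact isScal_of_mem_scalars g.2)
  exact this

lemma HasU.dvd_modSc [Finite F] {e : Fin 3 ≃ Fin 3} {P : G3 F} {M : Subgroup (G3 F)}
    {S : Subfield F} (h : HasU e P M S) : Nat.card S ∣ Nat.card (H8.ModSc M) := by
  obtain ⟨U, h1, h2, h3⟩ := h.exists_unip
  refine h3.trans (card_dvd_modSc U.subtype (fun a => h1 a.2) fun a ⟨c, hc⟩ => ?_)
  have h4 := h2 a a.2
  have h5 : ((a : G3 F) : M3 F) = c • 1 := hc
  rw [h5] at h4
  have h6 := congrFun (congrFun h4 0) 0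
  rw [show c • (1 : M3 F) - 1 = (c - 1) • 1 by rw [sub_smul, one_smul], smul_pow, one_pow] at h6
  have h7 : c = 1 := by simpa [sub_eq_zero] using h6
  exact Subtype.ext (Units.ext (by rw [h5, h7, one_smul]; rfl))

lemma card_modSc_A6 {H : Subgroup (G3 F)} (h : Nonempty (H8.ModSc H ≃* alternatingGroup (Fin 6))) :
    Nat.card (H8.ModSc H) = 360 := by
  obtain ⟨φ⟩ := h
  rw [Nat.card_congr φ.toEquiv, nat_card_alternatingGroup]
  simp [Nat.factorial]

/-- there is no quaternion group of order eight in a symmetric group of degree less than eight -/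
lemma no_q8 {a b : Equiv.Perm (Fin 6)} (h1 : a * a = b * b) (h2 : a * b * (a * b) = a * a) :
    a * a = 1 := by
  by_contra h0
  have hba : b * a * b = a := by
    have : a * (b * a * b) = a * a := by rw [← h2]; group
    exact mul_left_cancel this
  have haba : a * b * a = b := by
    have : a * b * a * b = b * b := by rw [← h1, ← h2]; group
    exact mul_right_cancel this
  have h4 : a * a * (a * a) = 1 := by
    have e1 : a * a * (b * a) = a * b := by
      calc a * a * (b * a) = a * (a * b * a) := by group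
        _ = a * b := by rw [haba]
    have e2 : a * a * (a * b) = b * a := by
      calc a * a * (a * b) = b * (b * a * b) := by rw [h1]; group
        _ = b * a := by rw [hba]
    have : a * a * (a * a) * (a * b) = 1 * (a * b) := by rw [mul_assoc (a * a), e2, e1, one_mul]
    exact mul_right_cancel this
  obtain ⟨i, hi⟩ : ∃ i, a (a i) ≠ i := by
    by_contra h
    push Not at h
    exact h0 (Equiv.ext h)
  have aa : ∀ x, a (a x) = b (b x) := fun x => congrArg (fun g : Equiv.Perm (Fin 6) => g x) h1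
  have bab : ∀ x, b (a (b x)) = a x := fun x => congrArg (fun g : Equiv.Perm (Fin 6) => g x) hba
  have a4 : ∀ x, a (a (a (a x))) = x := fun x => congrArg (fun g : Equiv.Perm (Fin 6) => g x) h4
  have c1 : ∀ j, a (a j) ≠ j → j ≠ a j ∧ j ≠ a (a j) ∧ j ≠ a (a (a j)) := fun j hj =>
    ⟨fun h => hj (by rw [← h, ← h]), hj.symm, fun h => hj (by
      have : a j = j := by rw [h, a4, ← h]
      rw [this, this])⟩
  obtain ⟨p1, p2, p3⟩ := c1 i hi
  obtain ⟨p4, p5, -⟩ := c1 (b i) fun h => hi (by rw [aa] at h ⊢; exact b.injective h)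
  have q0 : i ≠ b i := fun h => hi (by rw [aa, ← h, ← h])
  have q1 : a i ≠ b i := fun h => hi (b.injective (by rw [h, bab, h]))
  have q2 : a (a i) ≠ b i := fun h => q0 (by rw [aa] at h; exact (b.injective h).symm)
  have q3 : a (a (a i)) ≠ b i := fun h => hi (by
    have e : a (b i) = i := by rw [← h, a4]
    have := bab i
    rw [e] at this
    rw [← this, e])
  have r1 : i ≠ a (b i) := fun h => q3 (by rw [h, a4, ← h])
  have r2 : i ≠ a (a (b i)) := fun h => q2 (by rw [h, a4, ← h])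
  have : [i, a i, a (a i), a (a (a i)), b i, a (b i), a (a (b i))].Nodup := by
    simp [p1, p2, p3, p4, p5, q0, q1, q2, q3, r1, r2]
  have := this.length_le_card
  simp at this

lemma not_A6_of_q8 {H : Subgroup (G3 F)} {a b : G3 F} (ha : a ∈ H) (hb : b ∈ H) {c d : F}
    (h1 : (a : M3 F) * a = c • ((b : M3 F) * b))
    (h2 : (a : M3 F) * b * (a * b) = d • ((a : M3 F) * a)) (h3 : ¬ IsScal ((a : M3 F) * (a : M3 F)))
    (h : Nonempty (H8.ModSc H ≃* alternatingGroup (Fin 6))) : False := by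
  obtain ⟨φ⟩ := h
  let ψ : H →* Equiv.Perm (Fin 6) :=
    (alternatingGroup (Fin 6)).subtype.comp (φ.toMonoidHom.comp (QuotientGroup.mk' _))
  have k : ∀ (g h : H) (c : F), ((g : G3 F) : M3 F) = c • ((h : G3 F) : M3 F) → ψ g = ψ h :=
    fun g h c hc => congrArg (fun x => ((φ x : alternatingGroup (Fin 6)) : Equiv.Perm (Fin 6)))
      (QuotientGroup.eq_iff_div_mem.2 ((mem_scalars_iff_isScal _).2 ⟨c, by
        simp [div_eq_mul_inv, hc]⟩))
  have h4 := no_q8 (a := ψ ⟨a, ha⟩) (b := ψ ⟨b, hb⟩)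
    (by rw [← ψ.map_mul, ← ψ.map_mul]; exact k _ _ c h1)
    (by rw [← ψ.map_mul, ← ψ.map_mul, ← ψ.map_mul]; exact k _ _ d h2)
  rw [← ψ.map_mul] at h4
  have h5 : φ (QuotientGroup.mk (⟨a, ha⟩ * ⟨a, ha⟩ : H)) = 1 := Subtype.ext h4
  rw [map_eq_one_iff _ φ.injective, QuotientGroup.eq_one_iff] at h5
  exact h3 (isScal_of_mem_scalars h5)

/-! ### Irreducibility -/

lemma top_of_frame {e : Fin 3 ≃ Fin 3} {P : G3 F} {W : Submodule F (Fin 3 → F)}
    (h : ∀ i, frameVec e P (Pi.single i 1) ∈ W) : W = ⊤ := by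
  refine Submodule.eq_top_iff'.2 fun v => ?_
  obtain ⟨x, rfl⟩ := (frameVec e P).surjective v
  rw [pi_eq_sum_univ' x, map_sum]
  exact W.sum_mem fun i _ => by rw [map_smul]; exact W.smul_mem _ (h i)

lemma InF.mem {e : Fin 3 ≃ Fin 3} {P : G3 F} {M : Subgroup (G3 F)} {X : M3 F} (h : InF e P M X)
    {W : Submodule F (Fin 3 → F)} (hW : ∀ g ∈ M, ∀ v ∈ W, (g : M3 F) *ᵥ v ∈ W) {x : Fin 3 → F}
    (hx : frameVec e P x ∈ W) : frameVec e P (X *ᵥ x) ∈ W := by
  obtain ⟨g, hg, h⟩ := h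
  rw [← frameEquiv_mulVec, ← h]
  exact hW g hg _ hx

lemma frame_mem_of_smul {e : Fin 3 ≃ Fin 3} {P : G3 F} {W : Submodule F (Fin 3 → F)}
    {x y : Fin 3 → F} {c : F} (hc : c ≠ 0) (hx : frameVec e P x ∈ W) (h : x = c • y) :
    frameVec e P y ∈ W := by
  rw [h, map_smul] at hx
  exact (W.smul_mem_iff hc).1 hx

lemma mem_of_unip {e : Fin 3 ≃ Fin 3} {P : G3 F} {M : Subgroup (G3 F)} {c b d : F} (hc : c ≠ 0)
    (hd : d ≠ 0) (h : InF e P M !![1, c, b; 0, 1, d; 0, 0, 1]) {W : Submodule F (Fin 3 → F)}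
    (hW : ∀ g ∈ M, ∀ v ∈ W, (g : M3 F) *ᵥ v ∈ W) (h0 : W ≠ ⊥) :
    frameVec e P (Pi.single 0 1) ∈ W := by
  have k : ∀ x, frameVec e P x ∈ W → frameVec e P ![c * x 1 + b * x 2, d * x 2, 0] ∈ W :=
    fun x hx => by
      have := W.sub_mem (h.mem hW hx) hx
      rw [← map_sub] at this
      convert this using 2
      ext i
      fin_cases i <;> simp [mulVec, dotProduct, Fin.sum_univ_three]
      ring
  obtain ⟨v, hv, hv0⟩ := Submodule.exists_mem_ne_zero_of_ne_bot h0
  obtain ⟨x, rfl⟩ := (frameVec e P).surjective v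
  by_cases h2 : x 2 = 0
  · by_cases h1 : x 1 = 0
    · refine frame_mem_of_smul (c := x 0) (fun h => hv0 ?_) hv ?_
      · rw [show x = 0 by ext i; fin_cases i <;> simp [*], map_zero]
      · ext i
        fin_cases i <;> simp [*]
    · refine frame_mem_of_smul (mul_ne_zero hc h1) (k x hv) ?_
      ext i
      fin_cases i <;> simp [*]
  · refine frame_mem_of_smul (mul_ne_zero hc (mul_ne_zero hd h2)) (k _ (k x hv)) ?_
    ext i
    fin_cases i <;> simp

/-- the swap -/
def wM (F : Type*) [Field F] : M3 F := !![0, 0, 1; 0, -1, 0; 1, 0, 0]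
/-- the cyclic permutation matrix -/
def yM (F : Type*) [Field F] : M3 F := !![0, 0, 1; 1, 0, 0; 0, 1, 0]
/-- a torus element -/
def tM (a : F) : M3 F := !![a, 0, 0; 0, 1, 0; 0, 0, a⁻¹]

lemma irr_of_unip {e : Fin 3 ≃ Fin 3} {P : G3 F} {M : Subgroup (G3 F)} {S : Subfield F}
    (h : HasU e P M S) (hw : InF e P M (wM F)) : Irr M := by
  intro W hW
  by_cases h0 : W = ⊥
  · exact Or.inl h0
  right
  obtain ⟨b, d, hd, h⟩ := h 1 S.one_mem
  have hd := hd one_ne_zero
  have h1 := mem_of_unip one_ne_zero hd h hW h0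
  have h2 : frameVec e P (Pi.single 2 1) ∈ W := by
    convert hw.mem hW h1 using 2
    ext i
    fin_cases i <;> simp [wM]
  have h3 := W.sub_mem (W.sub_mem (h.mem hW h2) h2) (W.smul_mem b h1)
  rw [← map_sub, ← map_smul, ← map_sub] at h3
  have h4 : frameVec e P (Pi.single 1 1) ∈ W := frame_mem_of_smul hd h3 (by
    ext i
    fin_cases i <;> simp)
  refine top_of_frame (e := e) (P := P) fun i => ?_
  fin_cases i <;> assumption

lemma irr_of_ty {e : Fin 3 ≃ Fin 3} {P : G3 F} {M : Subgroup (G3 F)} {a : F} (ha : a ≠ 0)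
    (ha2 : a * a ≠ 1) (ht : InF e P M (tM a)) (hy : InF e P M (yM F)) : Irr M := by
  intro W hW
  by_cases h0 : W = ⊥
  · exact Or.inl h0
  right
  have ky : ∀ x, frameVec e P x ∈ W → frameVec e P ![x 2, x 0, x 1] ∈ W := fun x hx => by
    convert hy.mem hW hx using 2
    ext i
    fin_cases i <;> simp [yM, mulVec, dotProduct, Fin.sum_univ_three]
  have kt : ∀ (c : F) x, frameVec e P x ∈ W →
      frameVec e P ![(a - c) * x 0, (1 - c) * x 1, (a⁻¹ - c) * x 2] ∈ W := fun c x hx => by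
    have := W.sub_mem (ht.mem hW hx) (W.smul_mem c hx)
    rw [← map_smul, ← map_sub] at this
    convert this using 2
    ext i
    fin_cases i <;> simp [tM, mulVec, dotProduct, Fin.sum_univ_three] <;> ring
  have k : ∀ x, frameVec e P x ∈ W → x 0 ≠ 0 → frameVec e P (Pi.single 0 1) ∈ W := fun x hx h => by
    have a1 : a - 1 ≠ 0 := fun h => ha2 (by rw [sub_eq_zero.1 h, one_mul])
    have a2 : a - a⁻¹ ≠ 0 := fun h => ha2 (by nth_rewrite 2 [sub_eq_zero.1 h]; exact mul_inv_cancel₀ ha)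
    refine frame_mem_of_smul (mul_ne_zero a1 (mul_ne_zero a2 h)) (kt 1 _ (kt a⁻¹ x hx)) ?_
    ext i
    fin_cases i <;> simp
  obtain ⟨v, hv, hv0⟩ := Submodule.exists_mem_ne_zero_of_ne_bot h0
  obtain ⟨x, rfl⟩ := (frameVec e P).surjective v
  have h1 : frameVec e P (Pi.single 0 1) ∈ W := by
    by_contra h
    have x0 : x 0 = 0 := by_contra fun h' => h (k x hv h')
    have x2 : x 2 = 0 := by_contra fun h' => h (k _ (ky x hv) h')
    have x1 : x 1 = 0 := by_contra fun h' => h (k _ (ky _ (ky x hv)) h')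
    exact hv0 (by rw [show x = 0 by ext i; fin_cases i <;> simp [*], map_zero])
  refine top_of_frame (e := e) (P := P) fun i => ?_
  fin_cases i
  · exact h1
  · convert ky _ h1 using 2
    ext i
    fin_cases i <;> simp
  · convert ky _ (ky _ h1) using 2
    ext i
    fin_cases i <;> simp

lemma Irr.not_le_stab {M : Subgroup (G3 F)} (h : Irr M) {W : Submodule F (Fin 3 → F)}
    (h0 : W ≠ ⊥) (h1 : W ≠ ⊤) : ¬ M ≤ subspaceStabilizer W := fun hle =>
  (h W fun g hg v hv => (mem_subspaceStabilizer_iff.1 (hle hg) v).1 hv).elim h0 h1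

end Cfsg.Agent.H7
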