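import Cfsg.Agent.H7.M3A

/-! Containment analysis in dimension three: fields, subfields and forms. -/

set_option autoImplicit false
set_option linter.unusedSectionVars false
set_option linter.unusedVariables false
set_option linter.unnecessarySimpa false
set_option linter.style.haveILetI false
set_option linter.unusedSimpArgs false

namespace Cfsg.Agent.H7

open Cfsg Cfsg.Geo Matrix
open scoped MatrixGroups Kronecker commutatorElement

variable {F : Type*} [Field F]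

lemma trace_adj3 (X : M3 F) : (adjugate X).trace = X 0 0 * X 1 1 - X 0 1 * X 1 0 +
    (X 0 0 * X 2 2 - X 0 2 * X 2 0) + (X 1 1 * X 2 2 - X 1 2 * X 2 1) := by
  simp [adjugate_fin_three, trace_fin_three]
  ring

/-- `x` is a root of a cubic -/
def Cub (a b c : F) (x : M3 F) : Prop := x * x * x = a • (x * x) - b • x + c • 1

lemma ch3 (x : M3 F) : Cub x.trace (adjugate x).trace x.det x := by
  unfold Cub
  rw [trace_adj3, det_fin_three, trace_fin_three]
  ext i j
  fin_cases i <;> fin_cases j <;> simp [mul_apply, Fin.sum_univ_three] <;> ring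

lemma adj_ch3 (x : M3 F) : adjugate x = x * x - x.trace • x + (adjugate x).trace • 1 := by
  rw [trace_adj3, trace_fin_three, adjugate_fin_three]
  ext i j
  fin_cases i <;> fin_cases j <;> simp [mul_apply, Fin.sum_univ_three] <;> ring

lemma det_sub3 (x : M3 F) (c : F) : (x - c • 1).det =
    x.det - c * (adjugate x).trace + c ^ 2 * x.trace - c ^ 3 := by
  rw [trace_adj3, det_fin_three, det_fin_three, trace_fin_three]
  simp
  ring

lemma adjugate_val {g : G3 F} (h : (g : M3 F).det = 1) :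
    adjugate (g : M3 F) = ((g⁻¹ : G3 F) : M3 F) :=
  (Units.inv_eq_of_mul_eq_one_right (by rw [mul_adjugate, h, one_smul])).symm

lemma cj_one' (x : M3 F) : cj 1 x = x := by simp [cj_apply]

lemma Cub.map {a b c : F} {x : M3 F} (h : Cub a b c x) (φ : M3 F ≃ₐ[F] M3 F) : Cub a b c (φ x) := by
  have := congrArg φ h
  unfold Cub
  simpa only [map_mul, map_add, map_sub, map_smul, map_one] using this

lemma field_four {E : Type*} [Field E] {a b c x0 x1 x2 x3 : E}
    (h0 : x0 * x0 * x0 = a * (x0 * x0) - b * x0 + c) (h1 : x1 * x1 * x1 = a * (x1 * x1) - b * x1 + c)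
    (h2 : x2 * x2 * x2 = a * (x2 * x2) - b * x2 + c) (h3 : x3 * x3 * x3 = a * (x3 * x3) - b * x3 + c) :
    x0 = x1 ∨ x0 = x2 ∨ x0 = x3 ∨ x1 = x2 ∨ x1 = x3 ∨ x2 = x3 := by
  by_contra h
  push Not at h
  obtain ⟨n1, n2, n3, n4, n5, n6⟩ := h
  have k1 : x0 * x0 + x0 * x1 + x1 * x1 - a * (x0 + x1) + b = 0 :=
    mul_left_cancel₀ (sub_ne_zero.2 n1) (by linear_combination h0 - h1)
  have k2 : x0 * x0 + x0 * x2 + x2 * x2 - a * (x0 + x2) + b = 0 :=
    mul_left_cancel₀ (sub_ne_zero.2 n2) (by linear_combination h0 - h2)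
  have k3 : x0 * x0 + x0 * x3 + x3 * x3 - a * (x0 + x3) + b = 0 :=
    mul_left_cancel₀ (sub_ne_zero.2 n3) (by linear_combination h0 - h3)
  have l1 : x0 + x1 + x2 - a = 0 :=
    mul_left_cancel₀ (sub_ne_zero.2 n4) (by linear_combination k1 - k2)
  have l2 : x0 + x1 + x3 - a = 0 :=
    mul_left_cancel₀ (sub_ne_zero.2 n5) (by linear_combination k1 - k3)
  exact n6 (by linear_combination l1 - l2)

lemma field_frob {E : Type*} [Field E] (τ : E →+* E) {a b c x : E} (ha : τ a = a) (hb : τ b = b)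
    (hc : τ c = c) (h : x * x * x = a * (x * x) - b * x + c) :
    τ x = x ∨ τ (τ x) = x ∨ τ (τ (τ x)) = x := by
  have k : ∀ y, y * y * y = a * (y * y) - b * y + c →
      τ y * τ y * τ y = a * (τ y * τ y) - b * τ y + c := fun y hy => by
    simpa only [map_mul, map_add, map_sub, ha, hb, hc] using congrArg τ hy
  rcases field_four h (k _ h) (k _ (k _ h)) (k _ (k _ (k _ h))) with h | h | h | h | h | h
  · exact Or.inl h.symm
  · exact Or.inr (Or.inl h.symm)
  · exact Or.inr (Or.inr h.symm)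
  · exact Or.inl (τ.injective h).symm
  · exact Or.inr (Or.inl (τ.injective h).symm)
  · exact Or.inl (τ.injective (τ.injective h)).symm

lemma field_unit {E : Type*} [Field E] (τ : E →+* E) {a b x : E} (ha : τ a = b) (hb : τ b = a)
    (h : x * x * x = a * (x * x) - b * x + 1) :
    τ (τ x) = x ∨ τ (τ (τ (τ x))) = x ∨ τ x * x = 1 ∨ τ (τ (τ x)) * x = 1 := by
  have k : ∀ y, y * y * y = a * (y * y) - b * y + 1 →
      τ (τ y) * τ (τ y) * τ (τ y) = a * (τ (τ y) * τ (τ y)) - b * τ (τ y) + 1 := fun y hy => by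
    simpa only [map_mul, map_add, map_sub, ha, hb, map_one] using congrArg (fun z => τ (τ z)) hy
  have h0 : x ≠ 0 := by
    rintro rfl
    simp at h
  have h1 : x⁻¹ * x⁻¹ * x⁻¹ = b * (x⁻¹ * x⁻¹) - a * x⁻¹ + 1 := by
    field_simp
    linear_combination -h
  have h2 : τ x⁻¹ * τ x⁻¹ * τ x⁻¹ = a * (τ x⁻¹ * τ x⁻¹) - b * τ x⁻¹ + 1 := by
    simpa only [map_mul, map_add, map_sub, ha, hb, map_one] using congrArg τ h1
  rcases field_four h (k _ h) (k _ (k _ h)) h2 with h | h | h | h | h | h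
  · exact Or.inl h.symm
  · exact Or.inr (Or.inl h.symm)
  · refine Or.inr (Or.inr (Or.inl ?_))
    nth_rewrite 2 [h]
    rw [← map_mul, mul_inv_cancel₀ h0, map_one]
  · exact Or.inl (τ.injective (τ.injective h)).symm
  · exact Or.inr (Or.inr (Or.inl (by rw [τ.injective h, inv_mul_cancel₀ h0])))
  · exact Or.inr (Or.inr (Or.inr (by rw [τ.injective h, inv_mul_cancel₀ h0])))

/-- all entries lie in `F₁` -/
def Rat (F₁ : Subfield F) (X : M3 F) : Prop := ∀ i j, X i j ∈ F₁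

lemma Rat.mul {F₁ : Subfield F} {X Y : M3 F} (hX : Rat F₁ X) (hY : Rat F₁ Y) : Rat F₁ (X * Y) :=
  fun i j => by rw [mul_apply]; exact F₁.sum_mem fun k _ => F₁.mul_mem (hX _ _) (hY _ _)

lemma Rat.sub {F₁ : Subfield F} {X Y : M3 F} (hX : Rat F₁ X) (hY : Rat F₁ Y) : Rat F₁ (X - Y) :=
  fun i j => F₁.sub_mem (hX _ _) (hY _ _)

lemma rat_one (F₁ : Subfield F) : Rat F₁ 1 := fun i j => by
  rw [one_apply]
  split_ifs
  exacts [F₁.one_mem, F₁.zero_mem]

lemma Rat.trace {F₁ : Subfield F} {X : M3 F} (hX : Rat F₁ X) : X.trace ∈ F₁ :=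
  F₁.sum_mem fun i _ => hX i i

lemma Rat.trace_adj {F₁ : Subfield F} {X : M3 F} (hX : Rat F₁ X) : (adjugate X).trace ∈ F₁ := by
  rw [trace_adj3]
  repeat (first | exact hX _ _ | apply F₁.add_mem | apply F₁.sub_mem | apply F₁.mul_mem)

lemma Rat.det {F₁ : Subfield F} {X : M3 F} (hX : Rat F₁ X) : X.det ∈ F₁ := by
  rw [det_fin_three]
  repeat (first | exact hX _ _ | apply F₁.sub_mem | apply F₁.add_mem | apply F₁.mul_mem)

lemma Rat.mem_of_smul {F₁ : Subfield F} {X : M3 F} (hX : Rat F₁ X) (h0 : X ≠ 0) {c : F}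
    (h : Rat F₁ (c • X)) : c ∈ F₁ := by
  obtain ⟨i, j, hij⟩ := exists_entry_ne_zero h0
  have := F₁.div_mem (h i j) (hX i j)
  rwa [Matrix.smul_apply, smul_eq_mul, mul_div_cancel_right₀ _ hij] at this

lemma rat_of_mem {F₁ : Subfield F} {P g : G3 F} (h : g ∈ subfieldSubgroup F₁ P) :
    ∃ c : F, c ≠ 0 ∧ Rat F₁ (c • cj P⁻¹ (g : M3 F)) := mem_subfieldSubgroup_iff.1 h

section Fld

variable [Fintype F] {K : Subalgebra F (M3 F)} (hK : IsFieldSubalgebra 3 K)
include hK

lemma fld_eigen {η : M3 F} (hη : η ∈ K) {v : Fin 3 → F} {c : F} (hv : v ≠ 0)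
    (h : η *ᵥ v = c • v) : IsScal η :=
  ⟨c, sub_eq_zero.1 (IsFieldSubalgebra.eq_zero_of_mulVec hK (K.sub_mem hη (K.smul_mem K.one_mem c))
    hv (by rw [sub_mulVec, smul_mulVec, one_mulVec, h, sub_self]))⟩

lemma fld_quad {η : M3 F} (hη : η ∈ K) {a b : F} (h : η * η = a • 1 + b • η) : IsScal η := by
  by_cases hr : ∀ r : F, r * r ≠ a + b * r
  · have := IsFieldSubalgebra.dvd_card (isFieldSubalgebra_quadAlg h hr)
    simp at this
  push Not at hr
  obtain ⟨r, hr⟩ := hr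
  have : (η - r • 1) * (η - (b - r) • 1) = 0 := by
    simp only [sub_mul, mul_sub, h, smul_mul_assoc, mul_smul_comm, one_mul, mul_one, smul_smul]
    rw [show a = r * r - b * r by linear_combination -hr]
    module
  rcases IsFieldSubalgebra.mul_eq_zero hK (K.sub_mem hη (K.smul_mem K.one_mem r)) this with h | h
  · exact ⟨_, sub_eq_zero.1 h⟩
  · exact ⟨_, sub_eq_zero.1 h⟩

lemma fld_span {η : M3 F} (hη : η ∈ K) (hs : ¬ IsScal η) {v : Fin 3 → F} (hv : v ≠ 0)
    (w : Fin 3 → F) : ∃ a b c : F, w = a • v + b • η *ᵥ v + c • η *ᵥ (η *ᵥ v) := by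
  have hli : LinearIndependent F ![v, η *ᵥ v, η *ᵥ (η *ᵥ v)] := by
    rw [Fintype.linearIndependent_iff]
    intro g hg
    simp only [Fin.sum_univ_three, cons_val_zero, cons_val_one, cons_val] at hg
    have h1 : g 0 • 1 + g 1 • η + g 2 • (η * η) = 0 :=
      IsFieldSubalgebra.eq_zero_of_mulVec hK (K.add_mem (K.add_mem (K.smul_mem K.one_mem _)
        (K.smul_mem hη _)) (K.smul_mem (K.mul_mem hη hη) _)) hv (by
          rw [add_mulVec, add_mulVec, smul_mulVec, smul_mulVec, smul_mulVec, one_mulVec,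
            ← mulVec_mulVec, hg])
    have h2 : g 2 = 0 := by
      by_contra h2
      refine hs (fld_quad hK hη (a := -g 0 / g 2) (b := -g 1 / g 2) ?_)
      refine smul_right_injective _ h2 ?_
      simp only [smul_add, smul_smul, mul_div_cancel₀ _ h2]
      linear_combination (norm := module) h1
    have h3 : g 1 = 0 := by
      by_contra h3
      refine hs ⟨-g 0 / g 1, smul_right_injective _ h3 ?_⟩
      simp only [smul_smul, mul_div_cancel₀ _ h3]
      rw [h2] at h1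
      linear_combination (norm := module) h1
    rw [h2, h3] at hg
    intro i
    fin_cases i
    · simpa [hv] using hg
    · exact h3
    · exact h2
  have hsp := hli.span_eq_top_of_card_eq_finrank' (by simp)
  have hw : w ∈ Submodule.span F (Set.range ![v, η *ᵥ v, η *ᵥ (η *ᵥ v)]) := hsp ▸ trivial
  obtain ⟨g, rfl⟩ := (Submodule.mem_span_range_iff_exists_fun F).1 hw
  exact ⟨g 0, g 1, g 2, by simp [Fin.sum_univ_three, -mulVec_mulVec]⟩

lemma fld_irr {M : Subgroup (G3 F)} {θ : G3 F} (hθ : θ ∈ M) (hη : (θ : M3 F) ∈ K)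
    (hs : ¬ IsScal (θ : M3 F)) : Irr M := by
  intro W hW
  by_cases h0 : W = ⊥
  · exact Or.inl h0
  right
  obtain ⟨v, hv, hv0⟩ := Submodule.exists_mem_ne_zero_of_ne_bot h0
  refine Submodule.eq_top_iff'.2 fun w => ?_
  obtain ⟨a, b, c, rfl⟩ := fld_span hK hη hs hv0 w
  exact W.add_mem (W.add_mem (W.smul_mem _ hv) (W.smul_mem _ (hW θ hθ _ hv)))
    (W.smul_mem _ (hW θ hθ _ (hW θ hθ _ hv)))

lemma fld_cent {η : M3 F} (hη : η ∈ K) (hs : ¬ IsScal η) {x : M3 F} (h : x * η = η * x) :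
    x ∈ K := by
  obtain ⟨v, hv⟩ := exists_vec_ne_zero (ι := Fin 3) (F := F) (by simp)
  obtain ⟨a, b, c, h1⟩ := fld_span hK hη hs hv (x *ᵥ v)
  have h2 : x = a • 1 + b • η + c • (η * η) := mat_eq_of_mulVec fun w => by
    obtain ⟨a', b', c', rfl⟩ := fld_span hK hη hs hv w
    have k : ∀ u, x *ᵥ (η *ᵥ u) = η *ᵥ (x *ᵥ u) := fun u => by rw [mulVec_mulVec, h, mulVec_mulVec]
    simp only [mulVec_add, mulVec_smul, k, h1, add_mulVec, smul_mulVec, one_mulVec, ← mulVec_mulVec]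
  rw [h2]
  exact K.add_mem (K.add_mem (K.smul_mem K.one_mem _) (K.smul_mem hη _))
    (K.smul_mem (K.mul_mem hη hη) _)

lemma fld_nonscal : ∃ η ∈ K, ¬ IsScal η := by
  by_contra h
  push Not at h
  have h1 : K = ⊥ := le_bot_iff.1 fun x hx => by
    obtain ⟨c, rfl⟩ := h x hx
    exact Subalgebra.smul_mem _ (Subalgebra.one_mem _) c
  have := hK.finrank_eq
  rw [h1, Subalgebra.finrank_bot] at this
  omega

lemma fld_invol {w : G3 F} (hw : w ∈ subalgebraNormalizer K) (h : IsScal ((w : M3 F) * (w : M3 F))) :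
    IsScal (w : M3 F) := by
  obtain ⟨η, hη, hs⟩ := fld_nonscal hK
  have hη' : cj w η ∈ K := (hw η).1 hη
  have h1 : cj w (cj w η) = η := by
    rw [← cj_mul, cj_eq_self_iff]
    exact (h.comm η).symm
  have k : ∀ s ∈ K, cj w s = s → IsScal s ∨ IsScal (w : M3 F) := fun s hs h2 => by
    by_cases h3 : IsScal s
    · exact Or.inl h3
    obtain ⟨c, hc⟩ := h
    exact Or.inr (fld_quad hK (fld_cent hK hs h3 ((cj_eq_self_iff _ _).1 h2).symm) (a := c) (b := 0)
      (by rw [hc, zero_smul, add_zero]))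
  rcases k _ (K.add_mem hη hη') (by rw [map_add, h1, add_comm]) with ⟨a, ha⟩ | h2
  swap
  · exact h2
  rcases k _ (K.mul_mem hη hη') (by rw [map_mul, h1, hK.comm _ hη _ hη']) with ⟨b, hb⟩ | h2
  swap
  · exact h2
  refine absurd (fld_quad hK hη (a := -b) (b := a) ?_) hs
  have : η * (η + cj w η) = a • η := by rw [ha, mul_smul_comm, mul_one]
  rw [mul_add, hb] at this
  linear_combination (norm := module) this

lemma fld_four {a b c : F} {x0 x1 x2 x3 : M3 F} (m0 : x0 ∈ K) (m1 : x1 ∈ K) (m2 : x2 ∈ K)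
    (m3 : x3 ∈ K) (h0 : Cub a b c x0) (h1 : Cub a b c x1) (h2 : Cub a b c x2) (h3 : Cub a b c x3) :
    x0 = x1 ∨ x0 = x2 ∨ x0 = x3 ∨ x1 = x2 ∨ x1 = x3 ∨ x2 = x3 := by
  letI : Field K := (isField_of_subalgebra hK.comm hK.inv).toField
  have k : ∀ (x : M3 F) (m : x ∈ K), Cub a b c x → (⟨x, m⟩ : K) * ⟨x, m⟩ * ⟨x, m⟩ =
      algebraMap F K a * (⟨x, m⟩ * ⟨x, m⟩) - algebraMap F K b * ⟨x, m⟩ + algebraMap F K c :=
    fun x m h => by
      rw [← Algebra.smul_def, ← Algebra.smul_def, Algebra.algebraMap_eq_smul_one]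
      exact Subtype.ext h
  simpa only [Subtype.mk.injEq] using field_four (k _ m0 h0) (k _ m1 h1) (k _ m2 h2) (k _ m3 h3)

lemma fld_pow_six {g : G3 F} (hg : g ∈ subalgebraNormalizer K) : ((g ^ 6 : G3 F) : M3 F) ∈ K := by
  obtain ⟨η, hη, hs⟩ := fld_nonscal hK
  have m : ∀ k : ℕ, cj (g ^ k) η ∈ K := fun k => (pow_mem hg k η).1 hη
  have c : ∀ k : ℕ, Cub _ _ _ (cj (g ^ k) η) := fun k => (ch3 η).map _
  have key : ∀ i k l : ℕ, k * l = 6 → cj (g ^ i) η = cj (g ^ (i + k)) η →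
      ((g ^ 6 : G3 F) : M3 F) ∈ K := fun i k l hkl h => by
    rw [pow_add, cj_mul] at h
    have h1 := fld_cent hK hη hs ((cj_eq_self_iff _ _).1 ((cj (g ^ i)).injective h).symm).symm
    rw [← hkl, pow_mul, Units.val_pow_eq_pow_val]
    exact K.pow_mem h1 l
  rcases fld_four hK (m 0) (m 1) (m 2) (m 3) (c 0) (c 1) (c 2) (c 3) with h | h | h | h | h | h
  · exact key 0 1 6 rfl h
  · exact key 0 2 3 rfl h
  · exact key 0 3 2 rfl h
  · exact key 1 1 6 rfl h
  · exact key 1 2 3 rfl h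
  · exact key 2 1 6 rfl h

lemma fld_eq {K' : Subalgebra F (M3 F)} (hK' : IsFieldSubalgebra 3 K') {η : M3 F} (hη : η ∈ K)
    (hη' : η ∈ K') (hs : ¬ IsScal η) : K = K' :=
  le_antisymm (fun x hx => fld_cent hK' hη' hs (hK.comm _ hx _ hη))
    (fun x hx => fld_cent hK hη hs (hK'.comm _ hx _ hη'))

omit hK in
lemma pow_three_of_smul {θ : G3 F} (hd : (θ : M3 F).det = 1) {c : F} (hc : c ≠ 0) {k : ℕ}
    (h : (c • (θ : M3 F)) ^ k = 1) : θ ^ (3 * k) = 1 :=
  pow_three_of_scal hd ⟨(c ^ k)⁻¹, by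
    rw [← h, smul_pow, smul_smul, inv_mul_cancel₀ (pow_ne_zero _ hc), one_smul,
      Units.val_pow_eq_pow_val]⟩

omit hK in
lemma pow_three_of_smul' {θ : G3 F} (hd : (θ : M3 F).det = 1) {c : F} (hc : c ≠ 0) {k : ℕ}
    (hk : 1 ≤ k) (h : (c • (θ : M3 F)) ^ k = c • (θ : M3 F)) : θ ^ (3 * (k - 1)) = 1 := by
  refine pow_three_of_smul hd hc (mul_right_cancel_det (z := c • (θ : M3 F)) (by simp [hd, hc]) ?_)
  rw [← pow_succ, Nat.sub_add_cancel hk, h, one_mul]

lemma fld_sub {θ : G3 F} (hθ : (θ : M3 F) ∈ K) (hd : (θ : M3 F).det = 1) {F₁ : Subfield F}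
    {P : G3 F} (h : θ ∈ subfieldSubgroup F₁ P) :
    ∃ k, 1 ≤ k ∧ k ≤ 3 ∧ θ ^ (3 * (Nat.card F₁ ^ k - 1)) = 1 := by
  obtain ⟨c, hc, hX⟩ := rat_of_mem h
  have h1 := (ch3 (c • cj P⁻¹ (θ : M3 F))).map (cj P)
  rw [map_smul, ← cj_mul, mul_inv_cancel, cj_one'] at h1
  letI : Field K := (isField_of_subalgebra hK.comm hK.inv).toField
  obtain ⟨p, hp⟩ := CharP.exists F
  haveI : Fact p.Prime := ⟨CharP.char_is_prime F p⟩
  haveI : CharP K p := charP_of_injective_algebraMap (algebraMap F K).injective p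
  haveI := Fintype.ofFinite F₁
  obtain ⟨n, -, hn⟩ := FiniteField.card F₁ p
  rw [← Nat.card_eq_fintype_card] at hn
  let τ : K →+* K := iterateFrobenius K p n
  have hτ : ∀ x, τ x = x ^ Nat.card F₁ := fun x => by rw [hn]; rfl
  have h2 : ∀ a ∈ F₁, τ (algebraMap F K a) = algebraMap F K a := fun a ha => by
    rw [hτ, ← map_pow, (mem_subfield_iff_pow F₁ a).1 ha]
  have h3 := field_frob τ (x := ⟨c • θ, K.smul_mem hθ c⟩) (h2 _ hX.trace) (h2 _ hX.trace_adj)
    (h2 _ hX.det) (by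
      rw [← Algebra.smul_def, ← Algebra.smul_def, Algebra.algebraMap_eq_smul_one]
      exact Subtype.ext h1)
  have h0 : ∀ k, 1 ≤ Nat.card F₁ ^ k := fun k => Nat.one_le_pow _ _ Nat.card_pos
  simp only [hτ, ← pow_mul] at h3
  rcases h3 with h3 | h3 | h3
  · exact ⟨1, le_rfl, by norm_num, pow_three_of_smul' hd hc (h0 _) (by
      rw [pow_one]; exact congrArg Subtype.val h3)⟩
  · exact ⟨2, by norm_num, by norm_num, pow_three_of_smul' hd hc (h0 _) (by
      rw [pow_two]; exact congrArg Subtype.val h3)⟩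
  · exact ⟨3, by norm_num, by norm_num, pow_three_of_smul' hd hc (h0 _) (by
      rw [pow_succ, pow_two]; exact congrArg Subtype.val h3)⟩

lemma fld_unit {θ : G3 F} (hθ : (θ : M3 F) ∈ K) (hd : (θ : M3 F).det = 1) {q : ℕ}
    (hF : Fintype.card F = q ^ 2) {μ : F} (h3 : μ ^ 3 = 1) (hμ : μ ^ q = μ)
    (ht : (θ : M3 F).trace ^ q = μ * ((θ⁻¹ : G3 F) : M3 F).trace) :
    θ ^ (3 * (q ^ 2 - 1)) = 1 ∨ θ ^ (3 * (q ^ 4 - 1)) = 1 ∨ θ ^ (3 * (q + 1)) = 1 ∨
      θ ^ (3 * (q ^ 3 + 1)) = 1 := by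
  have hc : μ ≠ 0 := by
    rintro rfl
    simp at h3
  have h1 := ch3 (μ • (θ : M3 F))
  rw [adjugate_smul, adjugate_val hd, det_smul, hd, trace_smul, trace_smul] at h1
  simp only [Fintype.card_fin, h3, mul_one, smul_eq_mul] at h1
  letI : Field K := (isField_of_subalgebra hK.comm hK.inv).toField
  obtain ⟨p, hp⟩ := CharP.exists F
  haveI : Fact p.Prime := ⟨CharP.char_is_prime F p⟩
  haveI : CharP K p := charP_of_injective_algebraMap (algebraMap F K).injective p
  obtain ⟨n, -, hn⟩ := exists_q_eq_pow hF p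
  let τ : K →+* K := iterateFrobenius K p n
  have hτ : ∀ x, τ x = x ^ q := fun x => by rw [hn]; rfl
  have e1 : (μ * (θ : M3 F).trace) ^ q = μ ^ (3 - 1) * ((θ⁻¹ : G3 F) : M3 F).trace := by
    rw [mul_pow, hμ, ht]; ring
  have h4 := field_unit τ (x := ⟨μ • θ, K.smul_mem hθ μ⟩)
    (a := algebraMap F K (μ * (θ : M3 F).trace))
    (b := algebraMap F K (μ ^ (3 - 1) * ((θ⁻¹ : G3 F) : M3 F).trace))
    (by rw [hτ, ← map_pow, e1])
    (by rw [hτ, ← map_pow, ← e1, ← pow_mul, ← pow_two, ← hF, FiniteField.pow_card]) (by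
      rw [← Algebra.smul_def, ← Algebra.smul_def]
      exact Subtype.ext (h1.trans (by simp)))
  have h0 : ∀ k, 1 ≤ q ^ k := fun k => Nat.one_le_pow _ _ (by have := two_le_q hF; omega)
  simp only [hτ, ← pow_mul, ← pow_succ] at h4
  rcases h4 with h4 | h4 | h4 | h4
  · exact Or.inl (pow_three_of_smul' hd hc (h0 _) (by
      rw [pow_two]; exact congrArg Subtype.val h4))
  · exact Or.inr (Or.inl (pow_three_of_smul' hd hc (h0 _) (by
      rw [pow_succ, pow_succ, pow_two]; exact congrArg Subtype.val h4)))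
  · exact Or.inr (Or.inr (Or.inl (pow_three_of_smul hd hc (congrArg Subtype.val h4))))
  · exact Or.inr (Or.inr (Or.inr (pow_three_of_smul hd hc (by
      rw [pow_succ q, pow_two]; exact congrArg Subtype.val h4))))

/-- Singer elements -/
lemma fld_singer {a N : ℕ} (ha : a * N = Fintype.card F ^ 3 - 1) (h1 : Fintype.card F - 1 ∣ a) :
    ∃ θ : G3 F, (θ : M3 F) ∈ K ∧ (θ : M3 F).det = 1 ∧ orderOf θ = N := by
  letI : Field K := (isField_of_subalgebra hK.comm hK.inv).toField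
  obtain ⟨ζ, hζ⟩ := IsCyclic.exists_ofOrder_eq_natCard (α := Kˣ)
  rw [Nat.card_units, IsFieldSubalgebra.card hK] at hζ
  let φ : Kˣ →* G3 F := Units.map (K.val : K →* M3 F)
  have hφ : Function.Injective φ := Units.map_injective Subtype.val_injective
  have h2 : 1 < Fintype.card F ^ 3 := Nat.one_lt_pow (by norm_num) Fintype.one_lt_card
  have ha0 : a ≠ 0 := by
    rintro rfl
    omega
  refine ⟨φ (ζ ^ a), ((ζ ^ a : Kˣ) : K).2, ?_, ?_⟩
  · obtain ⟨k, rfl⟩ := h1
    rw [map_pow, Units.val_pow_eq_pow_val, det_pow, pow_mul,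
      FiniteField.pow_card_sub_one_eq_one _ (val_det_ne_zero _), one_pow]
  · rw [orderOf_injective φ hφ, orderOf_pow' _ ha0, hζ, ← ha, Nat.gcd_mul_right_left,
      Nat.mul_div_cancel_left _ (Nat.pos_of_ne_zero ha0)]

lemma mem_norm_of_mem {θ : G3 F} (hθ : (θ : M3 F) ∈ K) : θ ∈ subalgebraNormalizer K := by
  have : NormA (Subgroup.zpowers θ) K := fun g hg x hx => by
    obtain ⟨k, rfl⟩ := mem_powers_iff_mem_zpowers.2 hg
    have h : ((θ ^ k : G3 F) : M3 F) ∈ K := by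
      rw [Units.val_pow_eq_pow_val]; exact K.pow_mem hθ k
    rw [(cj_eq_self_iff _ _).2 (hK.comm _ hx _ h)]
    exact hx
  exact this.le_normalizer (Subgroup.mem_zpowers θ)

end Fld

/-! ### Subfield groups -/

section Sub

variable [Finite F] {F₁ : Subfield F} {P : G3 F}

lemma sub_unip {g : G3 F} (hg : g ∈ subfieldSubgroup F₁ P) (h : ((g : M3 F) - 1) ^ 3 = 0) :
    Rat F₁ (cj P⁻¹ (g : M3 F)) := by
  obtain ⟨c, hc, hX⟩ := rat_of_mem hg
  obtain ⟨τ, -, hτ⟩ := exists_fixHom F₁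
  have h1 : (cj P⁻¹ (g : M3 F) - 1) ^ 3 = 0 := by
    rw [← map_one (cj P⁻¹), ← map_sub, ← map_pow, h, map_zero]
  generalize cj P⁻¹ (g : M3 F) = X at hX h1 ⊢
  have hc' : τ c ≠ 0 := (map_ne_zero τ).2 hc
  have h2 : X.map τ = (c / τ c) • X := by
    ext i j
    have := (hτ _).2 (hX i j)
    rw [Matrix.smul_apply, smul_eq_mul, map_mul] at this
    rw [map_apply, Matrix.smul_apply, smul_eq_mul]
    field_simp
    linear_combination this
  have h3 : ((c / τ c) • X - 1) ^ 3 = 0 := by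
    have := congrArg τ.mapMatrix h1
    rwa [map_pow, map_sub, map_one, map_zero, RingHom.mapMatrix_apply, h2] at this
  have h4 : IsNilpotent (((c / τ c) • X - 1) - (c / τ c) • (X - 1)) :=
    Commute.isNilpotent_sub (by
      simp only [Commute, SemiconjBy, smul_sub, sub_mul, mul_sub, smul_mul_assoc, mul_smul_comm,
        one_mul, mul_one, smul_smul]
      module) ⟨3, h3⟩ ⟨3, by rw [smul_pow, h1, smul_zero]⟩
  obtain ⟨n, hn⟩ := h4
  rw [show ((c / τ c) • X - 1) - (c / τ c) • (X - 1) = (c / τ c - 1) • (1 : M3 F) by module,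
    smul_pow, one_pow] at hn
  have h5 : c / τ c - 1 = 0 := by
    have := congrFun (congrFun hn 0) 0
    exact eq_zero_of_pow_eq_zero (n := n) (by simpa using this)
  rw [sub_eq_zero.1 h5, one_smul] at h2
  exact fun i j => (hτ _).1 (congrFun (congrFun h2 i) j)

lemma trace_cj (P : G3 F) (X : M3 F) : (cj P X).trace = X.trace :=
  trace_frameEquiv (Equiv.refl _) P X

lemma sub_trace {g : G3 F} (hg : g ∈ subfieldSubgroup F₁ P) (hd : (g : M3 F).det = 1)
    (h : (g : M3 F).trace = ((g⁻¹ : G3 F) : M3 F).trace) : (g : M3 F).trace ∈ F₁ := by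
  obtain ⟨c, hc, hX⟩ := rat_of_mem hg
  by_cases h0 : (g : M3 F).trace = 0
  · rw [h0]; exact F₁.zero_mem
  have h1 := hX.trace
  have h2 := hX.trace_adj
  rw [trace_smul, trace_cj, smul_eq_mul] at h1
  rw [adjugate_smul, cj_val, adjugate_val (by simp [hd, val_det_ne_zero]), trace_smul,
    show (P⁻¹ * g * P⁻¹⁻¹)⁻¹ = P⁻¹ * g⁻¹ * P⁻¹⁻¹ by group, ← cj_val, trace_cj, ← h] at h2
  have h3 : c ∈ F₁ := by
    have := F₁.div_mem h2 h1
    rwa [show (c ^ (Fintype.card (Fin 3) - 1) • (g : M3 F).trace) / (c * (g : M3 F).trace) = c by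
      simp only [Fintype.card_fin, smul_eq_mul]; field_simp] at this
  have := F₁.div_mem h1 h3
  rwa [mul_div_cancel_left₀ _ hc] at this

lemma HasU.le_subfield {e : Fin 3 ≃ Fin 3} {P₀ : G3 F} {M : Subgroup (G3 F)} {S : Subfield F}
    (h : HasU e P₀ M S) (hle : M ≤ subfieldSubgroup F₁ P) : S ≤ F₁ := by
  intro c hc
  obtain ⟨b, d, -, g, hg, h1⟩ := h c hc
  obtain ⟨b', d', hd, g', hg', h1'⟩ := h 1 S.one_mem
  have k : ∀ {g : G3 F} {c b d : F}, g ∈ M →
      (g : M3 F) = frameEquiv e P₀ !![1, c, b; 0, 1, d; 0, 0, 1] →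
      Rat F₁ (cj P⁻¹ (frameEquiv e P₀ (!![1, c, b; 0, 1, d; 0, 0, 1] - 1))) := fun hg h1 => by
    rw [map_sub, map_sub, map_one, map_one, ← h1]
    refine (sub_unip (hle hg) ?_).sub (rat_one _)
    rw [h1, ← map_one (frameEquiv e P₀), ← map_sub, ← map_pow, ut_nil, map_zero]
  have h2 := (k hg h1).mul (k hg' h1')
  have h3 := (k hg' h1').mul (k hg' h1')
  rw [← map_mul, ← map_mul] at h2 h3
  refine h3.mem_of_smul ?_ ?_
  · rw [Ne, map_eq_zero_iff _ (cj _).injective, map_eq_zero_iff _ (frameEquiv e P₀).injective]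
    intro h
    have := congrFun (congrFun h 0) 2
    simp [mul_apply, Fin.sum_univ_three, one_apply, hd] at this
  · convert h2 using 1
    rw [← map_smul, ← map_smul]
    congr 2
    ext i j
    fin_cases i <;> fin_cases j <;> simp [mul_apply, Fin.sum_univ_three, one_apply]

lemma card_le_of_trace (A : Subgroup Fˣ) (h : ∀ a ∈ A, (a : F) + (a : F)⁻¹ ∈ F₁) :
    Nat.card A ≤ 2 * Nat.card F₁ := by
  classical
  haveI := Fintype.ofFinite F
  have := Finset.card_le_mul_card_image_of_maps_to (f := fun a : A => (⟨_, h a a.2⟩ : F₁))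
    (s := Finset.univ) (t := Finset.univ) (fun _ _ => Finset.mem_univ _) 2 (fun b _ => by
      by_cases h0 : ∃ a : A, (⟨_, h a a.2⟩ : F₁) = b
      · obtain ⟨a, rfl⟩ := h0
        refine le_trans (Finset.card_le_card (t := {a, a⁻¹}) fun x hx => ?_) Finset.card_le_two
        have h1 : ((x : Fˣ) : F) + ((x : Fˣ) : F)⁻¹ = (a : Fˣ) + ((a : Fˣ) : F)⁻¹ :=
          congrArg Subtype.val (Finset.mem_filter.1 hx).2
        have h2 : (((x : Fˣ) : F) - (a : Fˣ)) * (((x : Fˣ) : F) - ((a : Fˣ) : F)⁻¹) = 0 := by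
          have := (x : Fˣ).ne_zero
          have := (a : Fˣ).ne_zero
          field_simp at h1 ⊢
          linear_combination h1
        rw [Finset.mem_insert, Finset.mem_singleton]
        rcases mul_eq_zero.1 h2 with h2 | h2
        · exact Or.inl (Subtype.ext (Units.ext (sub_eq_zero.1 h2)))
        · exact Or.inr (Subtype.ext (Units.ext (by simpa using sub_eq_zero.1 h2)))
      · rw [Finset.filter_eq_empty_iff.2 fun a _ h => h0 ⟨a, h⟩]
        simp)
  simpa [Nat.card_eq_fintype_card] using this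

lemma tM_inv {a : F} (ha : a ≠ 0) : tM a * tM a⁻¹ = 1 := by
  ext i j
  fin_cases i <;> fin_cases j <;> simp [tM, mul_apply, Fin.sum_univ_three, ha]

lemma tM_det {a : F} (ha : a ≠ 0) : (tM a).det = 1 := by simp [tM, det_fin_three, ha]

lemma card_le_of_tM {e : Fin 3 ≃ Fin 3} {P₀ : G3 F} {M : Subgroup (G3 F)} (A : Subgroup Fˣ)
    (h : ∀ a ∈ A, InF e P₀ M (tM (a : F)))
    (hM : ∀ g ∈ M, (g : M3 F).det = 1 → (g : M3 F).trace = ((g⁻¹ : G3 F) : M3 F).trace →
      (g : M3 F).trace ∈ F₁) : Nat.card A ≤ 2 * Nat.card F₁ := by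
  refine card_le_of_trace A fun a ha => ?_
  obtain ⟨g, hg, h1⟩ := h a ha
  have h2 := hM g hg (by rw [h1, det_frameEquiv, tM_det a.ne_zero]) (by
    rw [val_inv_of_frame h1 (tM_inv a.ne_zero), h1, trace_frameEquiv, trace_frameEquiv]
    simp [tM, trace_fin_three]
    ring)
  rw [h1, trace_frameEquiv] at h2
  have := F₁.sub_mem h2 F₁.one_mem
  simpa [tM, trace_fin_three, add_sub_assoc, add_right_comm _ (1 : F)] using this

lemma mem_subfield_frame_iff {e : Fin 3 ≃ Fin 3} {g : G3 F} {X : M3 F}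
    (hg : (g : M3 F) = frameEquiv e P X) :
    g ∈ subfieldSubgroup F₁ P ↔ ∃ c : F, c ≠ 0 ∧ Rat F₁ (c • X) := by
  refine ⟨fun h => ?_, fun ⟨c, hc, h⟩ => mem_subfield_of_frame hg hc h⟩
  obtain ⟨c, hc, h⟩ := rat_of_mem h
  rw [hg, frameEquiv_apply, ← cj_mul, inv_mul_cancel, cj_one'] at h
  exact ⟨c, hc, fun i j => by simpa using h (e.symm i) (e.symm j)⟩

end Sub

/-! ### Similarity groups -/

section Sim

variable {σ : F →+* F} {f : (Fin 3 → F) → (Fin 3 → F) → F}

lemma tw_trace {G : M3 F} (hG : G.det ≠ 0) {g : G3 F} {μ : F} (h : tw σ G g = μ • G) :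
    σ (g : M3 F).trace = μ * ((g⁻¹ : G3 F) : M3 F).trace := by
  have h1 : (g : M3 F).map σ = μ • (G⁻¹ * (((g⁻¹ : G3 F) : M3 F))ᵀ * G) := by
    have h2 : G⁻¹ * (((g⁻¹ : G3 F) : M3 F))ᵀ * tw σ G g = (g : M3 F).map σ := by
      rw [tw, mul_assoc, ← mul_assoc _ (_ * G), ← mul_assoc _ _ G, ← transpose_mul, Units.mul_inv,
        transpose_one, one_mul, ← mul_assoc, nonsing_inv_mul _ (Ne.isUnit hG), one_mul]
    rw [← h2, h, mul_smul_comm]
  have h3 : σ (g : M3 F).trace = ((g : M3 F).map σ).trace := by simp [trace_fin_three]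
  rw [h3, h1, trace_smul, trace_mul_cycle, mul_nonsing_inv _ (Ne.isUnit hG), one_mul,
    trace_transpose, smul_eq_mul]

lemma tw_cube {G : M3 F} (hG : G.det ≠ 0) {g : M3 F} (hd : g.det = 1) {μ : F}
    (h : tw σ G g = μ • G) : μ ^ 3 = 1 := by
  have h1 := congrArg det h
  rw [tw, det_mul, det_mul, det_transpose, det_smul, ← RingHom.mapMatrix_apply, ← RingHom.map_det,
    hd, map_one] at h1
  exact mul_right_cancel₀ hG (by simpa using h1.symm)

lemma Sesq.sim_law (hf : Sesq σ f) {g : G3 F} (hg : g ∈ similarityGroup f) :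
    ∃ μ : F, μ ≠ 0 ∧ tw σ (gramMatrix f) g = μ • gramMatrix f :=
  let ⟨c, hc⟩ := hg
  ⟨c, c.ne_zero, (hf.sim_iff _ _).1 hc⟩

lemma Sesq.sim_comm (hf : Sesq σ f) {a b T : G3 F} (ha : a ∈ similarityGroup f)
    (hb : b ∈ similarityGroup f) (hT : a * b = T * (b * a)) :
    tw σ (gramMatrix f) T = gramMatrix f := by
  have hT' : T ∈ similarityGroup f := by
    rw [show T = a * b * (b * a)⁻¹ by rw [hT]; group]
    exact mul_mem (mul_mem ha hb) (inv_mem (mul_mem hb ha))
  obtain ⟨α, a0, ha⟩ := hf.sim_law ha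
  obtain ⟨β, b0, hb⟩ := hf.sim_law hb
  obtain ⟨μ, -, hμ⟩ := hf.sim_law hT'
  have h1 := congrArg (fun g : G3 F => tw σ (gramMatrix f) g) hT
  simp only [Units.val_mul, tw_mul, ha, hb, hμ, tw_smul, smul_smul] at h1
  have h2 := smul_left_injective F (ne_zero_of_det hf.det_ne_zero) h1
  rw [hμ, show μ = 1 from mul_right_cancel₀ (mul_ne_zero b0 a0) (by linear_combination -h2), one_smul]

lemma not_sim_of_ty (hf : Sesq (RingHom.id F) f) {e : Fin 3 ≃ Fin 3} {P : G3 F}
    {M : Subgroup (G3 F)} {a : F} (ha : a ≠ 0) (ha2 : a * a ≠ 1) (ht : InF e P M (tM a))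
    (hy : InF e P M (yM F)) : ¬ M ≤ similarityGroup f := by
  intro hle
  obtain ⟨t, ht, ht'⟩ := ht
  obtain ⟨y, hy, hy'⟩ := hy
  have h1 : (!![a * a, 0, 0; 0, a⁻¹, 0; 0, 0, a⁻¹] : M3 F) * !![a⁻¹ * a⁻¹, 0, 0; 0, a, 0; 0, 0, a] = 1 := by
    ext i j
    fin_cases i <;> fin_cases j <;> simp [mul_apply, Fin.sum_univ_three, ha]
    field_simp
  have h2 := hf.sim_comm (hle ht) (hle hy)
    (T := frameElt e P !![a * a, 0, 0; 0, a⁻¹, 0; 0, 0, a⁻¹] (by simp [det_fin_three, ha]))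
    (Units.ext (by
      rw [Units.val_mul, Units.val_mul, Units.val_mul, frameElt_val, ht', hy', ← map_mul, ← map_mul,
        ← map_mul]
      congr 1
      ext i j
      fin_cases i <;> fin_cases j <;> simp [tM, yM, mul_apply, Fin.sum_univ_three, ha]))
  have h3 := tw_trace hf.det_ne_zero (μ := 1) (h2.trans (one_smul _ _).symm)
  rw [val_inv_of_frame (frameElt_val _ _ _ _) h1, frameElt_val, trace_frameEquiv,
    trace_frameEquiv] at h3
  simp only [trace_fin_three, RingHom.id_apply, of_apply, cons_val', cons_val_zero, cons_val_one,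
    cons_val, cons_val_fin_one, one_mul] at h3
  have a1 : a - 1 ≠ 0 := fun h => ha2 (by rw [sub_eq_zero.1 h, one_mul])
  refine mul_ne_zero (sub_ne_zero.2 ha2) (mul_ne_zero a1 a1) ?_
  field_simp at h3
  linear_combination h3

lemma sim_eigen (hf : Sesq (RingHom.id F) f) {g : G3 F} (hg : g ∈ similarityGroup f)
    (hd : (g : M3 F).det = 1) : ∃ (v : Fin 3 → F) (c : F), v ≠ 0 ∧ (g : M3 F) *ᵥ v = c • v := by
  obtain ⟨μ, -, h⟩ := hf.sim_law hg
  have h1 := tw_trace hf.det_ne_zero h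
  have h2 := tw_cube hf.det_ne_zero hd h
  obtain ⟨v, hv⟩ := exists_eigen_of_det (x := (g : M3 F)) (c := μ ^ 2) (by
    rw [det_sub3, hd, adjugate_val hd]
    rw [RingHom.id_apply] at h1
    linear_combination μ ^ 4 * h1 +
      (μ ^ 2 * ((g⁻¹ : G3 F) : M3 F).trace - μ ^ 3 - 1) * h2)
  exact ⟨v, _, hv⟩

lemma HForm.sim_law [Fintype F] (hf : HForm σ 1 f) {g : G3 F} (hg : g ∈ similarityGroup f)
    (hd : (g : M3 F).det = 1) : ∃ μ : F, μ ^ 3 = 1 ∧ σ μ = μ ∧
      σ (g : M3 F).trace = μ * ((g⁻¹ : G3 F) : M3 F).trace := by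
  obtain ⟨c, hc⟩ := hg
  have h := (hf.toSesq.sim_iff _ _).1 hc
  refine ⟨c, tw_cube hf.toSesq.det_ne_zero hd h, Sesq.mult_unique hf.toSesq fun u v => ?_,
    tw_trace hf.toSesq.det_ne_zero h⟩
  rw [← hc u v, hf.herm1 _ (_ *ᵥ u), hc, map_mul, ← hf.herm1]

lemma sim_real [Fintype F] (hf : HForm σ 1 f) {g : G3 F} (hg : g ∈ similarityGroup f)
    (hd : (g : M3 F).det = 1) (h : (g : M3 F).trace = ((g⁻¹ : G3 F) : M3 F).trace) :
    (g : M3 F).trace ∈ fixField σ := by
  obtain ⟨μ, h1, h2, h3⟩ := hf.sim_law hg hd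
  rw [← h] at h3
  rw [mem_fixField]
  by_cases h0 : (g : M3 F).trace = 0
  · rw [h0, map_zero]
  have h4 := congrArg σ h3
  rw [hf.invol, map_mul, h2, h3] at h4
  have h5 : μ * μ = 1 := mul_right_cancel₀ h0 (by linear_combination -h4)
  rw [h3, show μ = 1 by linear_combination h1 - μ * h5, one_mul]

lemma not_sim_of_comp (hf : Sesq σ f) {e : Fin 3 ≃ Fin 3} {P : G3 F} {M : Subgroup (G3 F)}
    (h : InF e P M !![0, 0, 1; 1, 0, 0; 0, 1, 1]) : ¬ M ≤ similarityGroup f := by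
  intro hle
  obtain ⟨g, hg, h⟩ := h
  obtain ⟨μ, -, h1⟩ := hf.sim_law (hle hg)
  have h2 := tw_trace hf.det_ne_zero h1
  rw [val_inv_of_frame h (Y := !![0, 1, 0; -1, 0, 1; 1, 0, 0]) (by
    ext i j
    fin_cases i <;> fin_cases j <;> simp [mul_apply, Fin.sum_univ_three]), h, trace_frameEquiv,
    trace_frameEquiv] at h2
  simp [trace_fin_three] at h2

lemma sim_scal_comm (hf : Sesq (RingHom.id F) f) {x y : G3 F} (hx : x ∈ similarityGroup f)
    (hy : y ∈ similarityGroup f) {c : F} (hc : c ≠ 0) (h : (x : M3 F) * y = c • ((y : M3 F) * x)) :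
    c * c = 1 := by
  have h1 := hf.sim_comm hx hy (T := scalGL _ (Units.mk0 c hc)) (Units.ext (by simp [h]))
  rw [scalGL_val, tw_smul_right, tw_one] at h1
  exact smul_left_injective F (ne_zero_of_det hf.det_ne_zero) (h1.trans (one_smul _ _).symm)

lemma sim_noTv (hf : HForm (RingHom.id F) 1 f) (h2 : (2 : F) ≠ 0) :
    H8.NoTv (similarityGroup f) := by
  intro g hg h
  obtain ⟨μ, -, h1⟩ := hf.toSesq.sim_law hg
  have hG := hf.toSesq.det_ne_zero
  have hs : (gramMatrix f)ᵀ = gramMatrix f := by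
    have := hf.gram_herm
    rw [one_smul, RingHom.coe_id, Matrix.map_id] at this
    exact this.symm
  generalize gramMatrix f = G at h1 hG hs
  obtain ⟨N, hN⟩ : ∃ N, (g : M3 F) = 1 + N := ⟨g - 1, by abel⟩
  rw [hN, add_sub_cancel_left] at h
  have t0 : N.trace = 0 := (isNilpotent_trace_of_isNilpotent ⟨2, by rw [pow_two, h]⟩).eq_zero
  have t1 : (adjugate N).trace = 0 := by
    have e := congrArg trace (adj_ch3 N)
    rw [h, t0] at e
    simp only [zero_smul, sub_zero, zero_add, trace_smul, trace_one, Fintype.card_fin] at e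
    exact mul_left_cancel₀ h2 (by simp only [smul_eq_mul, Nat.cast_ofNat] at e; linear_combination -e)
  have t2 : adjugate N = 0 := by rw [adj_ch3, h, t0, t1]; simp
  have hi : ((g⁻¹ : G3 F) : M3 F) = 1 - N := Units.inv_eq_of_mul_eq_one_right (by
    rw [hN, add_mul, mul_sub, mul_sub, h]; simp)
  have hd : (g : M3 F).det = 1 := by
    have e := det_sub3 N (-1)
    have e2 : N.det = 0 := by
      have := congrArg det h
      rw [det_mul, det_zero] at this
      exact mul_self_eq_zero.1 this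
    rw [hN, add_comm, show N + 1 = N - (-1 : F) • 1 by simp, e, e2, t0, t1]
    ring
  have h3 := tw_cube hG hd h1
  have h4 := tw_trace hG h1
  rw [hi, hN, trace_add, trace_sub, t0] at h4
  simp only [trace_one, Fintype.card_fin, Nat.cast_ofNat, add_zero, sub_zero, RingHom.id_apply] at h4
  have h5 : μ = 1 := by
    have : (μ - 1) ^ 3 = 0 := by linear_combination h3 + μ * h4
    exact sub_eq_zero.1 (eq_zero_of_pow_eq_zero this)
  rw [h5, one_smul, hN, tw, RingHom.coe_id, Matrix.map_id, transpose_add, transpose_one] at h1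
  have h6 : Nᵀ * G * N + Nᵀ * G + G * N = 0 := by
    rw [← sub_eq_zero.2 h1]
    simp only [add_mul, mul_add, one_mul, mul_one]
    abel
  have h7 : Nᵀ * G * N = 0 := by
    have := congrArg (· * N) h6
    simpa only [add_mul, mul_assoc, h, mul_zero, zero_add, add_zero, zero_mul] using this
  have h8 : (G * N)ᵀ = -(G * N) := by
    rw [transpose_mul, hs, eq_neg_iff_add_eq_zero, ← h6, h7, zero_add]
  have h9 : adjugate (G * N) = 0 := by rw [adjugate_mul_distrib, t2, zero_mul]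
  have h10 : G * N = 0 := by
    generalize G * N = A at h8 h9
    have k : ∀ i j, A j i = -A i j := fun i j => congrFun (congrFun h8 i) j
    have d : ∀ i, A i i = 0 := fun i => mul_left_cancel₀ h2 (by linear_combination k i i)
    have a0 := congrFun (congrFun h9 0) 0
    have a1 := congrFun (congrFun h9 1) 1
    have a2 := congrFun (congrFun h9 2) 2
    simp [adjugate_fin_three, d, k 0 1, k 0 2, k 1 2] at a0 a1 a2
    ext i j
    fin_cases i <;> fin_cases j <;> simp [d, k 0 1, k 0 2, k 1 2, a0, a1, a2]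
  have h11 : N = 0 := mul_left_cancel_det hG (by rw [h10, mul_zero])
  exact Units.ext (by rw [hN, h11, add_zero, Units.val_one])

lemma exists_sym_of_rat [Fintype F] {q : ℕ} (hF : Fintype.card F = q ^ 2) (hσ : ∀ x, σ x = x ^ q)
    (hf : HForm σ 1 f) {F₁ : Subfield F} {P : G3 F} (h1 : Fintype.card F = Nat.card F₁ ^ 2)
    (h2 : IsFormRationalStructure f F₁ 1 P) : ∃ B : (Fin 3 → F) → (Fin 3 → F) → F,
      HForm (RingHom.id F) 1 B ∧ subfieldSubgroup F₁ P ⊓ SUf f ≤ similarityGroup B := by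
  have hq : Nat.card F₁ = q := Nat.pow_left_injective two_ne_zero (h1.symm.trans hF)
  have k : ∀ x ∈ F₁, σ x = x := fun x hx => by
    rw [hσ, ← hq]; exact (mem_subfield_iff_pow F₁ x).1 hx
  let e := Equiv.refl (Fin 3)
  have hG : (frameGram f e P).map σ = frameGram f e P := by
    ext i j
    refine k _ ?_
    have := h2 (Pi.single i 1) (Pi.single j 1) (single_mem_subfield _ _ F₁.one_mem)
      (single_mem_subfield _ _ F₁.one_mem)
    rwa [one_mul] at this
  have hG' := hf.frameGram_herm e P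
  rw [hG] at hG'
  refine ⟨_, (hform_gform (σ := RingHom.id F) (fun _ => rfl) (hf.toSesq.frameGram_det e P)
    (Or.inl rfl) (by simpa using hG')).frame (frameVec e P).symm, fun g ⟨hg, hg'⟩ => ?_⟩
  have hX := (frameEquiv_frameGL_symm e P g).symm
  obtain ⟨c, hc, h⟩ := (mem_subfield_frame_iff hX).1 hg
  have h3 := hf.toSesq.tw_of_isom hX (mem_SUf.1 hg').1
  generalize (((frameGL e P).symm g : G3 F) : M3 F) = X at hX h h3
  refine mem_sim_of_frame (c := σ c / c) (fun _ => rfl) (hf.toSesq.frameGram_det e P) hX ?_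
  have h4 : X = (σ c / c) • X.map σ := by
    ext i j
    have := k _ (h i j)
    rw [Matrix.smul_apply, smul_eq_mul, map_mul] at this
    rw [Matrix.smul_apply, map_apply, smul_eq_mul]
    field_simp
    linear_combination -this
  rw [tw, RingHom.coe_id, Matrix.map_id]
  nth_rewrite 2 [h4]
  rw [mul_smul_comm]
  exact congrArg _ h3

end Sim

end Cfsg.Agent.H7
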