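import Cfsg.Agent.H7.M3B

/-! Containment analysis in dimension three: the extraspecial group of order 27. -/

set_option autoImplicit false
set_option linter.unusedSectionVars false
set_option linter.unusedVariables false
set_option linter.unnecessarySimpa false
set_option linter.style.haveILetI false
set_option linter.unusedSimpArgs false

namespace Cfsg.Agent.H7

open Cfsg Cfsg.Geo Matrix
open scoped MatrixGroups Kronecker commutatorElement

variable {F : Type*} [Field F]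

/-- twisted commutation -/
def Tw (a b : M3 F) (c : F) : Prop := a * b = c • (b * a)

lemma Tw.mul {a b z : M3 F} {c d : F} (h : Tw a z c) (h' : Tw b z d) : Tw (a * b) z (c * d) := by
  unfold Tw at *
  rw [mul_assoc, h', mul_smul_comm, ← mul_assoc, h, smul_mul_assoc, smul_smul, mul_assoc, mul_comm d]

lemma Tw.pow {a z : M3 F} {c : F} (h : Tw a z c) (n : ℕ) : Tw (a ^ n) z (c ^ n) := by
  induction n with
  | zero => simp [Tw]
  | succ n ih => rw [pow_succ, pow_succ]; exact ih.mul h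

lemma Tw.smul {a z : M3 F} {c : F} (h : Tw a z c) (l : F) : Tw (l • a) z c := by
  unfold Tw at *
  rw [smul_mul_assoc, h, mul_smul_comm, smul_comm]

lemma Tw.symm {a z : M3 F} {c d : F} (h : Tw a z c) (hd : d * c = 1) : Tw z a d := by
  unfold Tw at *
  rw [h, smul_smul, hd, one_smul]

lemma tw_self (a : M3 F) : Tw a a 1 := (one_smul _ _).symm

lemma Tw.comm {a z : M3 F} (h : Tw a z 1) : a * z = z * a := h.trans (one_smul _ _)

lemma Tw.cube {a z : M3 F} {c : F} (h : Tw a z c) (ha : a.det ≠ 0) (hz : z.det ≠ 0) : c ^ 3 = 1 := by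
  have := congrArg det h
  rw [det_smul, det_mul, det_mul, mul_comm z.det] at this
  exact mul_right_cancel₀ (mul_ne_zero ha hz) (by simpa using this.symm)

lemma Tw.ne_zero {a z : M3 F} {c : F} (h : Tw a z c) (ha : a.det ≠ 0) (hz : z.det ≠ 0) : c ≠ 0 := by
  rintro rfl
  simpa using h.cube ha hz

/-- generators of the extraspecial group -/
structure Pair (ω : F) (x y : M3 F) : Prop where
  h3 : (3 : F) ≠ 0
  hω : ω * ω + ω + 1 = 0
  x3 : x * x * x = 1
  y3 : y * y * y = 1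
  xy : Tw x y ω

/-- the diagonal generator -/
def xM (ω : F) : M3 F := !![1, 0, 0; 0, ω, 0; 0, 0, ω * ω]

lemma det_ne_zero_of_cube {x : M3 F} (h : x * x * x = 1) : x.det ≠ 0 := fun h0 => by
  have := congrArg det h
  simp [h0] at this

lemma exists_pow_of_cube {ω c : F} (hω : ω * ω + ω + 1 = 0) (hc : c ^ 3 = 1) :
    ∃ k : Fin 3, c = ω ^ (k : ℕ) := by
  have : (c - 1) * ((c - ω) * (c - ω * ω)) = 0 := by
    linear_combination hc + (-c ^ 2 + ω * c - (ω - 1)) * hω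
  rcases mul_eq_zero.1 this with h | h
  · exact ⟨0, by simpa [sub_eq_zero] using h⟩
  rcases mul_eq_zero.1 h with h | h
  · exact ⟨1, by simpa [sub_eq_zero] using h⟩
  · exact ⟨2, by simpa [sub_eq_zero, pow_two] using h⟩

namespace Pair

variable {ω : F} {x y : M3 F} (h : Pair ω x y)
include h

lemma cube : ω ^ 3 = 1 := by linear_combination (ω - 1) * h.hω

lemma ne_one : ω - 1 ≠ 0 := fun h1 => h.h3 (by linear_combination h.hω - (ω + 2) * h1)

lemma ne_zero : ω ≠ 0 := fun h1 => by simpa [h1] using h.hω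

lemma sq_ne_one : ω * ω - 1 ≠ 0 := fun h1 =>
  h.h3 (by linear_combination (2 - ω) * h.hω + (ω - 1) * h1)

lemma yx : Tw y x (ω * ω) := h.xy.symm (by linear_combination h.cube)

lemma swap : Pair (ω * ω) y x :=
  ⟨h.h3, by linear_combination (ω * ω - ω + 1) * h.hω, h.y3, h.x3, h.yx⟩

lemma traces : x.trace = 0 ∧ (x * x).trace = 0 := by
  have k : ∀ (z : M3 F) (c : F), Tw z y c → c - 1 ≠ 0 → z.trace = 0 := fun z c hz hc => by
    have h1 := congrArg (fun t => (y * y * t).trace) hz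
    simp only [mul_smul_comm, trace_smul, smul_eq_mul] at h1
    rw [← mul_assoc (y * y) z, trace_mul_comm, ← mul_assoc, ← mul_assoc, h.y3, ← mul_assoc, h.y3,
      one_mul] at h1
    exact mul_left_cancel₀ hc (by linear_combination -h1)
  exact ⟨k _ _ h.xy h.ne_one, k _ _ (h.xy.mul h.xy) h.sq_ne_one⟩

lemma frame : ∃ (e : Fin 3 ≃ Fin 3) (P : G3 F), x = frameEquiv e P (xM ω) ∧
    y = frameEquiv e P (yM F) := by
  have h3 := h.h3
  have hc := h.hω
  obtain ⟨t1, t2⟩ := h.traces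
  obtain ⟨u, hu⟩ : ∃ u, (1 + x + x * x) *ᵥ u ≠ 0 := by
    by_contra h
    push Not at h
    have := congrArg trace (mat_eq_zero_of_mulVec h)
    rw [trace_add, trace_add, t1, t2, trace_one, trace_zero] at this
    exact h3 (by simpa using this)
  have hv : x *ᵥ ((1 + x + x * x) *ᵥ u) = (1 + x + x * x) *ᵥ u := by
    rw [mulVec_mulVec, mul_add, mul_add, ← mul_assoc, h.x3, mul_one]
    congr 1
    abel
  generalize (1 + x + x * x) *ᵥ u = v at hu hv
  have k : ∀ w, x *ᵥ (y *ᵥ w) = ω • (y *ᵥ (x *ᵥ w)) := fun w => by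
    rw [mulVec_mulVec, mulVec_mulVec, h.xy, smul_mulVec]
  have ky : ∀ w, y *ᵥ (y *ᵥ (y *ᵥ w)) = w := fun w => by
    rw [mulVec_mulVec, mulVec_mulVec, h.y3, one_mulVec]
  have a1 : x *ᵥ (y *ᵥ v) = ω • (y *ᵥ v) := by rw [k, hv]
  have a2 : x *ᵥ (y *ᵥ (y *ᵥ v)) = (ω * ω) • (y *ᵥ (y *ᵥ v)) := by
    rw [k, a1, mulVec_smul, smul_smul]
  have n1 : y *ᵥ v ≠ 0 := fun h => hu (by rw [← ky v, h, mulVec_zero, mulVec_zero])
  have n2 : y *ᵥ (y *ᵥ v) ≠ 0 := fun h => hu (by rw [← ky v, h, mulVec_zero])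
  have hli : LinearIndependent F ![v, y *ᵥ v, y *ᵥ (y *ᵥ v)] := by
    rw [Fintype.linearIndependent_iff]
    intro g hg
    simp only [Fin.sum_univ_three, cons_val_zero, cons_val_one, cons_val] at hg
    have g1 := congrArg (x *ᵥ ·) hg
    simp only [mulVec_add, mulVec_smul, hv, a1, a2, mulVec_zero] at g1
    have g2 := congrArg (x *ᵥ ·) g1
    simp only [mulVec_add, mulVec_smul, hv, a1, a2, mulVec_zero] at g2
    have b0 : (3 * g 0) • v = 0 := by
      linear_combination (norm := skip) hg + g1 + g2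
      have : g 0 • v + g 1 • y *ᵥ v + g 2 • y *ᵥ y *ᵥ v +
        (g 0 • v + g 1 • ω • y *ᵥ v + g 2 • (ω * ω) • y *ᵥ y *ᵥ v) +
        (g 0 • v + g 1 • ω • ω • y *ᵥ v + g 2 • (ω * ω) • (ω * ω) • y *ᵥ y *ᵥ v) =
        (3 * g 0) • v + (g 1 * (ω * ω + ω + 1)) • y *ᵥ v +
        (g 2 * ((ω * ω + ω + 1) * (ω * ω - ω + 1))) • y *ᵥ y *ᵥ v := by module
      rw [this, hc]
      simp
    have b0' : g 0 = 0 := by simpa [h3, hu] using b0
    rw [b0'] at hg g1
    have b2 : ((ω * ω - ω) * g 2) • y *ᵥ (y *ᵥ v) = 0 := by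
      linear_combination (norm := module) g1 - ω • hg
    have b2' : g 2 = 0 := by
      have : ω * ω - ω ≠ 0 := fun h' => mul_ne_zero h.ne_zero h.ne_one (by linear_combination h')
      simpa [this, n2, -mulVec_mulVec] using b2
    rw [b2'] at hg
    intro i
    fin_cases i
    · exact b0'
    · simpa [n1] using hg
    · exact b2'
  obtain ⟨e, P, hP⟩ := exists_frame _ hli (hli.span_eq_top_of_card_eq_finrank' (by simp)).ge
  refine ⟨e, P, eq_frameEquiv e P fun i => ?_, eq_frameEquiv e P fun i => ?_⟩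
  · fin_cases i <;> simp [hP, Fin.sum_univ_three, xM, hv, a1, a2, -mulVec_mulVec]
  · fin_cases i <;> simp [hP, Fin.sum_univ_three, yM, ky, -mulVec_mulVec]

lemma diag_of_comm {A : M3 F} (hA : A * xM ω = xM ω * A) :
    A = !![A 0 0, 0, 0; 0, A 1 1, 0; 0, 0, A 2 2] := by
  have k : ∀ i j, (A * xM ω) i j = (xM ω * A) i j := fun i j => by rw [hA]
  have n1 := h.ne_one
  have n2 := h.sq_ne_one
  have n3 := mul_ne_zero h.ne_zero h.ne_one
  have a01 := k 0 1
  have a02 := k 0 2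
  have a10 := k 1 0
  have a12 := k 1 2
  have a20 := k 2 0
  have a21 := k 2 1
  simp only [xM, mul_apply, Fin.sum_univ_three, of_apply, cons_val', cons_val_zero, cons_val_one,
    cons_val, cons_val_fin_one] at a01 a02 a10 a12 a20 a21
  have b01 : A 0 1 = 0 := mul_left_cancel₀ n1 (by linear_combination a01)
  have b02 : A 0 2 = 0 := mul_left_cancel₀ n2 (by linear_combination a02)
  have b10 : A 1 0 = 0 := mul_left_cancel₀ n1 (by linear_combination -a10)
  have b12 : A 1 2 = 0 := mul_left_cancel₀ n3 (by linear_combination a12)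
  have b20 : A 2 0 = 0 := mul_left_cancel₀ n2 (by linear_combination -a20)
  have b21 : A 2 1 = 0 := mul_left_cancel₀ n3 (by linear_combination -a21)
  ext i j
  fin_cases i <;> fin_cases j <;> simp [*]

lemma exists_diag {e : Fin 3 ≃ Fin 3} {P : G3 F} (hx : x = frameEquiv e P (xM ω)) {a : M3 F}
    (ha : a * x = x * a) : ∃ d₀ d₁ d₂ : F, a = frameEquiv e P !![d₀, 0, 0; 0, d₁, 0; 0, 0, d₂] := by
  obtain ⟨A, rfl⟩ := (frameEquiv e P).surjective a
  rw [hx, ← map_mul (frameEquiv e P), ← map_mul (frameEquiv e P)] at ha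
  exact ⟨_, _, _, congrArg _ (h.diag_of_comm ((frameEquiv e P).injective ha))⟩

lemma cent_comm {a b : M3 F} (ha : a * x = x * a) (hb : b * x = x * b) : a * b = b * a := by
  obtain ⟨e, P, hx, -⟩ := h.frame
  obtain ⟨a0, a1, a2, rfl⟩ := h.exists_diag hx ha
  obtain ⟨b0, b1, b2, rfl⟩ := h.exists_diag hx hb
  rw [← map_mul (frameEquiv e P), ← map_mul (frameEquiv e P)]
  congr 1
  ext i j
  fin_cases i <;> fin_cases j <;> simp [mul_apply, Fin.sum_univ_three, mul_comm]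

lemma eigen {a : M3 F} (ha : a * x = x * a) :
    ∃ (v : Fin 3 → F) (c : F), v ≠ 0 ∧ a *ᵥ v = c • v := by
  obtain ⟨e, P, hx, -⟩ := h.frame
  obtain ⟨a0, a1, a2, rfl⟩ := h.exists_diag hx ha
  refine ⟨frameVec e P (Pi.single 0 1), a0, by simp, ?_⟩
  rw [frameEquiv_mulVec, ← map_smul]
  congr 1
  ext i
  fin_cases i <;> simp

lemma both {a : M3 F} (ha : a * x = x * a) (hb : a * y = y * a) : IsScal a := by
  obtain ⟨e, P, hx, hy⟩ := h.frame
  obtain ⟨a0, a1, a2, rfl⟩ := h.exists_diag hx ha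
  rw [hy, ← map_mul (frameEquiv e P), ← map_mul (frameEquiv e P)] at hb
  have hb' := (frameEquiv e P).injective hb
  have k1 := congrFun (congrFun hb' 1) 0
  have k2 := congrFun (congrFun hb' 2) 1
  simp [yM, mul_apply, Fin.sum_univ_three] at k1 k2
  refine isScal_frameEquiv e P ⟨a0, ?_⟩
  ext i j
  fin_cases i <;> fin_cases j <;> simp [k1, k2]

lemma pauli {g : M3 F} (hg : g.det ≠ 0) {α β : F} (h1 : Tw g x α) (h2 : Tw g y β) :
    ∃ (a b : Fin 3) (l : F), g = l • (x ^ (b : ℕ) * y ^ (2 * a : ℕ)) := by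
  obtain ⟨a, rfl⟩ := exists_pow_of_cube h.hω (h1.cube hg (det_ne_zero_of_cube h.x3))
  obtain ⟨b, rfl⟩ := exists_pow_of_cube h.hω (h2.cube hg (det_ne_zero_of_cube h.y3))
  have k1 := (h1.mul (h.yx.pow a)).mul ((tw_self x).pow (2 * b))
  have k2 := (h2.mul ((tw_self y).pow a)).mul (h.xy.pow (2 * b))
  rw [one_pow, mul_one, ← mul_pow, show ω * (ω * ω) = 1 by linear_combination h.cube, one_pow] at k1
  rw [one_pow, mul_one, pow_mul ω, ← mul_pow, show ω * ω ^ 2 = 1 by linear_combination h.cube,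
    one_pow] at k2
  obtain ⟨l, hl⟩ := h.both k1.comm k2.comm
  refine ⟨a, b, l, ?_⟩
  have x3 : x ^ (2 * b : ℕ) * x ^ (b : ℕ) = 1 := by
    rw [← pow_add, show 2 * (b : ℕ) + b = 3 * b by ring, pow_mul, pow_succ, pow_two, h.x3, one_pow]
  have y3 : y ^ (a : ℕ) * y ^ (2 * a : ℕ) = 1 := by
    rw [← pow_add, show (a : ℕ) + 2 * a = 3 * a by ring, pow_mul, pow_succ, pow_two, h.y3, one_pow]
  rw [← smul_one_mul, ← hl, mul_assoc, ← mul_assoc (x ^ _), x3, one_mul, mul_assoc, y3, mul_one]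

end Pair

/-- an absolutely irreducible group of exponent three -/
structure ExR (R : Subgroup (G3 F)) (ω : F) (x y : G3 F) : Prop where
  pair : Pair ω (x : M3 F) y
  hx : x ∈ R
  hy : y ∈ R
  cube : ∀ z ∈ R, (z : M3 F) * z * z = 1
  comm : ∀ z ∈ R, ∀ w ∈ R, ∃ c, Tw (z : M3 F) w c

lemma exists_exR [Finite F] (h3 : (3 : F) ≠ 0) {R : Subgroup (G3 F)} (hR : AbsIrr R)
    (hs : IsSymplecticTypeGroup 3 R) : ∃ (ω : F) (x y : G3 F), ExR R ω x y := by
  have cube : ∀ z ∈ R, (z : M3 F) * z * z = 1 := fun z hz => by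
    have := congrArg (fun t : R => ((t : G3 F) : M3 F)) (Monoid.pow_exponent_eq_one (⟨z, hz⟩ : R))
    simpa [hs.exponent_eq, pow_succ] using this
  haveI : Fact (Nat.Prime 3) := ⟨by norm_num⟩
  obtain ⟨x₀, hx₀, y₀, hy₀, hne⟩ := hR.exists_not_comm (by simp)
  haveI : Nontrivial (R ⧸ Subgroup.center R) := by
    refine ⟨QuotientGroup.mk ⟨x₀, hx₀⟩, 1, fun h => hne ?_⟩
    exact (congrArg Subtype.val (Subgroup.mem_center_iff.1 ((QuotientGroup.eq_one_iff _).1 h)
      ⟨y₀, hy₀⟩)).symm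
  haveI := (hs.pGroup.to_quotient (Subgroup.center R)).center_nontrivial
  obtain ⟨⟨x', hx'⟩, hx1⟩ := exists_ne (1 : Subgroup.center (R ⧸ Subgroup.center R))
  obtain ⟨⟨x, hx⟩, rfl⟩ := QuotientGroup.mk_surjective x'
  have k : ∀ g ∈ R, ∃ c, Tw (g : M3 F) x c := fun g hg => by
    have h1 := Subgroup.mem_center_iff.1 hx' (QuotientGroup.mk ⟨g, hg⟩)
    rw [← QuotientGroup.mk_mul, ← QuotientGroup.mk_mul, QuotientGroup.eq_iff_div_mem] at h1
    obtain ⟨c, hc⟩ := exists_comm_scal (x := g) (y := x) (hR.mem_scalars fun z hz => by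
      have := congrArg Subtype.val (Subgroup.mem_center_iff.1 h1 ⟨z, hz⟩)
      simpa [div_eq_mul_inv, mul_assoc] using this.symm)
    exact ⟨c, by simpa [Tw] using congrArg Units.val hc⟩
  obtain ⟨y, hy, hxy⟩ : ∃ y ∈ R, y * x ≠ x * y := by
    by_contra h
    push Not at h
    exact hx1 (Subtype.ext ((QuotientGroup.eq_one_iff _).2 (Subgroup.mem_center_iff.2 fun g =>
      Subtype.ext (h g g.2))))
  obtain ⟨c, hc⟩ := k y hy
  have c3 := hc.cube (val_det_ne_zero _) (val_det_ne_zero _)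
  have c1 : c - 1 ≠ 0 := fun h => hxy (Units.ext (by
    rw [sub_eq_zero.1 h] at hc
    exact hc.comm))
  have hp : Pair (c * c) (x : M3 F) y := Pair.swap ⟨h3,
    mul_left_cancel₀ c1 (by linear_combination c3), cube y hy, cube x hx, hc⟩
  generalize c * c = ω at hp
  have k' : ∀ g ∈ R, ∃ c, Tw (g : M3 F) y c := fun g hg => by
    obtain ⟨α, hα⟩ := k g hg
    obtain ⟨a, rfl⟩ := exists_pow_of_cube hp.hω (hα.cube (val_det_ne_zero _) (val_det_ne_zero _))
    have k1 := hα.mul (hp.yx.pow a)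
    rw [← mul_pow, show ω * (ω * ω) = 1 by linear_combination hp.cube, one_pow] at k1
    obtain ⟨e, P, hx, hy'⟩ := hp.frame
    obtain ⟨d0, d1, d2, hd⟩ := hp.exists_diag hx k1.comm
    have m : g * y ^ (a : ℕ) ∈ R := mul_mem hg (pow_mem hy _)
    have q1 := cube _ m
    have q2 := cube _ (mul_mem m hy)
    rw [Units.val_mul] at q2
    rw [Units.val_mul, Units.val_pow_eq_pow_val, hd] at q1 q2
    rw [hy'] at q2
    simp only [← map_mul (frameEquiv e P), map_eq_one_iff _ (frameEquiv e P).injective] at q1 q2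
    have r0 := congrFun (congrFun q1 0) 0
    have r1 := congrFun (congrFun q1 1) 1
    have r2 := congrFun (congrFun q1 2) 2
    have r3 := congrFun (congrFun q2 0) 0
    simp [yM, mul_apply, Fin.sum_univ_three] at r0 r1 r2 r3
    have k2 : Tw ((g : M3 F) * (y : M3 F) ^ (a : ℕ)) y (d0 * d2 * d2) := by
      rw [hd, hy', Tw, ← map_mul (frameEquiv e P), ← map_mul (frameEquiv e P), ← map_smul]
      congr 1
      ext i j
      fin_cases i <;> fin_cases j <;> simp [yM, mul_apply, Fin.sum_univ_three] <;> grind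
    have k3 := k2.mul ((tw_self (y : M3 F)).pow (2 * a))
    rw [mul_assoc, ← pow_add, show (a : ℕ) + 2 * a = 3 * a by ring, pow_mul, pow_succ, pow_two,
      hp.y3, one_pow, mul_one] at k3
    exact ⟨_, k3⟩
  refine ⟨ω, x, y, hp, hx, hy, cube, fun z hz w hw => ?_⟩
  obtain ⟨α, hα⟩ := k z hz
  obtain ⟨β, hβ⟩ := k' z hz
  obtain ⟨a, b, l, h⟩ := hp.pauli (val_det_ne_zero _) hα hβ
  obtain ⟨α', hα'⟩ := k w hw
  obtain ⟨β', hβ'⟩ := k' w hw
  rw [h]
  exact ⟨_, (((hα'.symm (inv_mul_cancel₀ (hα'.ne_zero (val_det_ne_zero _) (val_det_ne_zero _)))).pow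
    b).mul ((hβ'.symm (inv_mul_cancel₀ (hβ'.ne_zero (val_det_ne_zero _)
      (val_det_ne_zero _)))).pow _)).smul l⟩

lemma cube_smul {l : F} {a b : M3 F} (ha : a * a * a = 1) (hb : b * b * b = 1) (h : a = l • b) :
    l ^ 3 = 1 := by
  rw [h] at ha
  simp only [smul_mul_assoc, mul_smul_comm, smul_smul, hb] at ha
  have := congrFun (congrFun ha 0) 0
  simpa [pow_succ, mul_assoc] using this

namespace ExR

variable {R : Subgroup (G3 F)} {ω : F} {x y : G3 F} (h : ExR R ω x y)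
include h

lemma swap : ExR R (ω * ω) y x := ⟨h.pair.swap, h.hy, h.hx, h.cube, h.comm⟩

lemma change {ω' : F} (hω : ω' * ω' + ω' + 1 = 0) : ∃ x' y', ExR R ω' x' y' := by
  have : (ω' - ω) * (ω' - ω * ω) = 0 := by
    linear_combination hω + (ω - 1 - ω') * h.pair.hω
  rcases mul_eq_zero.1 this with h1 | h1
  · exact ⟨x, y, sub_eq_zero.1 h1 ▸ h⟩
  · exact ⟨y, x, sub_eq_zero.1 h1 ▸ h.swap⟩

lemma exists_eq {z : G3 F} (hz : z ∈ R) : ∃ (a b : Fin 3) (l : F),
    (z : M3 F) = l • ((x : M3 F) ^ (b : ℕ) * (y : M3 F) ^ (2 * a : ℕ)) :=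
  let ⟨_, h1⟩ := h.comm z hz x h.hx
  let ⟨_, h2⟩ := h.comm z hz y h.hy
  h.pair.pauli (val_det_ne_zero _) h1 h2

lemma mem_of_val {g z : G3 F} (hz : z ∈ R) {c : F} (hc : c ^ 3 = 1)
    (hg : (g : M3 F) = c • (z : M3 F)) : g ∈ R := by
  obtain ⟨k, rfl⟩ := exists_pow_of_cube h.pair.hω hc
  have h1 : ((x * y * (y * x)⁻¹ : G3 F) : M3 F) = ω • 1 := by
    rw [Units.val_mul, Units.val_mul, h.pair.xy, smul_mul_assoc, ← Units.val_mul, Units.mul_inv]
  have : g = (x * y * (y * x)⁻¹) ^ (k : ℕ) * z := Units.ext (by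
    rw [Units.val_mul, Units.val_pow_eq_pow_val, h1, smul_pow, one_pow, smul_one_mul, hg])
  rw [this]
  exact mul_mem (pow_mem (mul_mem (mul_mem h.hx h.hy) (inv_mem (mul_mem h.hy h.hx))) _) hz

lemma mem_iff {z : G3 F} : z ∈ R ↔ ∃ (a b : ℕ) (l : F), l ^ 3 = 1 ∧
    (z : M3 F) = l • ((x : M3 F) ^ a * (y : M3 F) ^ b) := by
  constructor
  · intro hz
    obtain ⟨a, b, l, hl⟩ := h.exists_eq hz
    refine ⟨_, _, l, cube_smul (h.cube z hz) ?_ hl, hl⟩
    simpa using h.cube _ (mul_mem (pow_mem h.hx b) (pow_mem h.hy (2 * a)))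
  · rintro ⟨a, b, l, h1, h2⟩
    exact h.mem_of_val (mul_mem (pow_mem h.hx a) (pow_mem h.hy b)) h1 (by simpa using h2)

lemma mem_norm [Finite F] {s : G3 F} (h1 : s * x * s⁻¹ ∈ R) (h2 : s * y * s⁻¹ ∈ R) :
    s ∈ subgroupNormalizer R := by
  refine Subgroup.mem_normalizer_fintype fun z hz => ?_
  obtain ⟨a, b, l, hl, hz⟩ := h.mem_iff.1 hz
  refine h.mem_of_val (mul_mem (pow_mem h1 a) (pow_mem h2 b)) hl ?_
  rw [conj_pow, conj_pow]
  simp [hz, mul_assoc]

lemma norm_mem {g z : G3 F} (hg : g ∈ subgroupNormalizer R) (hz : z ∈ R) : g * z * g⁻¹ ∈ R :=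
  (Subgroup.mem_set_normalizer_iff.1 hg z).1 hz

lemma pigeon {g z : G3 F} (hg : g ∈ subgroupNormalizer R) (hz : z ∈ R) :
    ∃ k, 1 ≤ k ∧ k ≤ 9 ∧ ((g ^ (3 * k) : G3 F) : M3 F) * z = z * ((g ^ (3 * k) : G3 F) : M3 F) := by
  choose a b l hl using fun k : Fin 10 => h.exists_eq (h.norm_mem (pow_mem hg k) hz)
  have key : ∀ i j : Fin 10, i < j → (a i, b i) = (a j, b j) → ∃ k, 1 ≤ k ∧ k ≤ 9 ∧
      ((g ^ (3 * k) : G3 F) : M3 F) * z = z * ((g ^ (3 * k) : G3 F) : M3 F) := fun i j hij e => by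
    obtain ⟨k, hk⟩ := Nat.exists_eq_add_of_lt hij
    have h1 := hl i
    have h2 := hl j
    rw [← (Prod.mk.inj e).1, ← (Prod.mk.inj e).2] at h2
    have l0 : l i ≠ 0 := fun h0 => by
      rw [h0, zero_smul] at h1
      exact Units.ne_zero _ h1
    have h3 : ((g ^ (j : ℕ) * z * (g ^ (j : ℕ))⁻¹ : G3 F) : M3 F) =
        (l j / l i) • ((g ^ (i : ℕ) * z * (g ^ (i : ℕ))⁻¹ : G3 F) : M3 F) := by
      rw [h1, h2, smul_smul, div_mul_cancel₀ _ l0]
    have h4 : Tw ((g ^ (k + 1) : G3 F) : M3 F) z (l j / l i) := by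
      have := congrArg (fun t => (((g ^ (i : ℕ))⁻¹ : G3 F) : M3 F) * t * ((g ^ (j : ℕ) : G3 F) : M3 F)) h3
      simp only [mul_smul_comm, smul_mul_assoc, ← Units.val_mul] at this
      rw [hk, add_assoc, pow_add] at this
      unfold Tw
      rw [← Units.val_mul, ← Units.val_mul]
      convert this using 2 <;> [skip; congr 1] <;> group
    have h5 := h4.pow 3
    rw [h4.cube (val_det_ne_zero _) (val_det_ne_zero _), ← Units.val_pow_eq_pow_val, ← pow_mul,
      mul_comm] at h5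
    exact ⟨k + 1, by omega, by omega, h5.comm⟩
  obtain ⟨i, j, hij, e⟩ := Fintype.exists_ne_map_eq_of_card_lt (fun k => (a k, b k)) (by simp)
  rcases lt_or_gt_of_ne hij with h | h
  · exact key i j h e
  · exact key j i h e.symm

lemma noTv {p : ℕ} [CharP F p] (hp : p.Prime) (h11 : 11 ≤ p) :
    H8.NoTv (subgroupNormalizer R) := by
  intro g hg h1
  obtain ⟨N, hN⟩ : ∃ N, (g : M3 F) = 1 + N := ⟨g - 1, by abel⟩
  rw [hN, add_sub_cancel_left] at h1
  have k1 : ∀ n : ℕ, ((g ^ n : G3 F) : M3 F) = 1 + (n : F) • N := fun n => by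
    induction n with
    | zero => simp
    | succ n ih =>
      rw [pow_succ, Units.val_mul, ih, hN]
      simp only [add_mul, mul_add, one_mul, mul_one, smul_mul_assoc, h1, Nat.cast_succ]
      module
  have k2 : ∀ z ∈ R, N * z = z * N := fun z hz => by
    obtain ⟨k, a1, a2, h2⟩ := h.pigeon hg hz
    rw [k1, add_mul, mul_add, one_mul, mul_one, add_right_inj, smul_mul_assoc, mul_smul_comm] at h2
    refine smul_right_injective _ (fun h0 => ?_) h2
    rcases (Nat.Prime.dvd_mul hp).1 ((CharP.cast_eq_zero_iff F p _).1 h0) with h | h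
    · have := Nat.le_of_dvd (by norm_num) h
      omega
    · have := Nat.le_of_dvd (by omega) h
      omega
  obtain ⟨c, rfl⟩ := h.pair.both (k2 x h.hx) (k2 y h.hy)
  have := congrFun (congrFun h1 0) 0
  simp at this
  exact Units.ext (by rw [hN, this]; simp)

lemma invol_fix {s z : G3 F} (hs : s ∈ subgroupNormalizer R) (h2 : s * s = 1) (hz : z ∈ R)
    (hns : ¬ IsScal (z : M3 F)) {c : F} (hc : Tw (s : M3 F) z c) : IsScal (s : M3 F) := by
  have k : ∀ (z : G3 F) (c : F), Tw (s : M3 F) z c → (s : M3 F) * z = z * s := fun z c hc => by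
    have h3 := hc.cube (val_det_ne_zero _) (val_det_ne_zero _)
    have h4 := hc.mul hc
    rw [← Units.val_mul, h2, Tw, Units.val_one, one_mul, mul_one] at h4
    have h5 : c * c = 1 := smul_left_injective F (Units.ne_zero z) (h4.symm.trans (one_smul _ _).symm)
    rw [show c = 1 by linear_combination h3 - c * h5] at hc
    exact hc.comm
  have h3 := k z c hc
  obtain ⟨w, hw, hzw⟩ : ∃ w ∈ R, (z : M3 F) * w ≠ w * z := by
    by_contra h4
    push Not at h4
    exact hns (h.pair.both (h4 x h.hx) (h4 y h.hy))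
  obtain ⟨γ, hγ⟩ := h.comm z hz w hw
  have γ3 := hγ.cube (val_det_ne_zero _) (val_det_ne_zero _)
  have γ1 : γ - 1 ≠ 0 := fun h => hzw (by
    rw [sub_eq_zero.1 h] at hγ
    exact hγ.comm)
  have hp : Pair γ (z : M3 F) w := ⟨h.pair.h3, mul_left_cancel₀ γ1 (by linear_combination γ3),
    h.cube z hz, h.cube w hw, hγ⟩
  have h4 : Tw ((w : M3 F) * (s : M3 F) * ((w : M3 F) * (w : M3 F))) z _ :=
    (hp.yx.mul (h3.trans (one_smul _ _).symm)).mul (hp.yx.mul hp.yx)
  rw [show γ * γ * 1 * (γ * γ * (γ * γ)) = 1 by linear_combination (γ ^ 3 + 1) * γ3] at h4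
  have h5 : s * (w * s * (w * w)) = w * s * (w * w) * s := Units.ext (hp.cent_comm h3 h4.comm)
  have w3 : w * w * w = 1 := Units.ext (h.cube w hw)
  have si : s⁻¹ = s := inv_eq_of_mul_eq_one_right h2
  have h6 : s * w * s⁻¹ * (w * w) * (s * w * s⁻¹ * (w * w)) * (s * w * s⁻¹ * (w * w)) = 1 :=
    Units.ext (h.cube _ (mul_mem (h.norm_mem hs hw) (mul_mem hw hw)))
  have h7 : s * w * s⁻¹ * (w * w) * (s * w * s⁻¹ * (w * w)) = 1 := by
    calc s * w * s⁻¹ * (w * w) * (s * w * s⁻¹ * (w * w))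
        = s * (w * s * (w * w) * s) * (w * s * (w * w)) := by rw [si]; group
      _ = s * s * (w * s * (w * w * w) * s * (w * w)) := by rw [← h5]; group
      _ = 1 := by rw [h2, w3, mul_one, one_mul, mul_assoc w, h2, mul_one, ← mul_assoc, w3]
  rw [h7, one_mul] at h6
  have h8 : s * w = w * s := by
    calc s * w = s * w * s⁻¹ * (w * w * w) * s := by rw [w3]; group
      _ = s * w * s⁻¹ * (w * w) * w * s := by group
      _ = w * s := by rw [h6, one_mul]
  exact hp.both h3 (congrArg Units.val h8)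

lemma invol_inv {s z : G3 F} (hs : s ∈ subgroupNormalizer R) (h2 : s * s = 1)
    (hns : ¬ IsScal (s : M3 F)) (hz : z ∈ R) : ∃ l : F, (s : M3 F) * z = l • ((z⁻¹ * s : G3 F) : M3 F) := by
  have h1 := h.norm_mem hs hz
  have si : s⁻¹ = s := inv_eq_of_mul_eq_one_right h2
  obtain ⟨c, hc⟩ := h.comm _ h1 z hz
  obtain ⟨l, hl⟩ : IsScal ((z * (s * z * s⁻¹) : G3 F) : M3 F) := by
    by_contra h3
    refine hns (h.invol_fix hs h2 (mul_mem hz h1) h3 (c := c) ?_)
    have := congrArg (· * (s : M3 F)) hc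
    simp only [smul_mul_assoc, ← Units.val_mul] at this
    unfold Tw
    rw [← Units.val_mul, ← Units.val_mul, ← this]
    congr 1
    simp only [si, mul_assoc]
  refine ⟨l, ?_⟩
  have := congrArg (fun t => ((z⁻¹ : G3 F) : M3 F) * t * (s : M3 F)) hl
  simp only [mul_smul_comm, smul_mul_assoc, ← Units.val_mul, mul_one] at this
  rw [← this, ← Units.val_mul]
  congr 1
  group

lemma klein {s t : G3 F} (hs : s ∈ subgroupNormalizer R) (ht : t ∈ subgroupNormalizer R)
    (s2 : s * s = 1) (t2 : t * t = 1) (st2 : s * t * (s * t) = 1) (n1 : ¬ IsScal (s : M3 F))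
    (n2 : ¬ IsScal (t : M3 F)) (n3 : ¬ IsScal ((s * t : G3 F) : M3 F)) : False := by
  obtain ⟨l, hl⟩ := h.invol_inv ht t2 n2 h.hx
  obtain ⟨l', hl'⟩ := h.invol_inv hs s2 n1 (inv_mem h.hx)
  refine n3 (h.invol_fix (mul_mem hs ht) st2 h.hx (fun hx => h.pair.ne_one ?_) (c := l * l') ?_)
  · have h1 := h.pair.xy
    rw [Tw, hx.comm, ← Units.val_mul] at h1
    exact sub_eq_zero.2 (smul_left_injective F (Units.ne_zero _) (h1.symm.trans (one_smul _ _).symm))
  · rw [Tw, Units.val_mul, mul_assoc, hl, Units.val_mul, mul_smul_comm, ← mul_assoc, hl', inv_inv,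
      Units.val_mul, smul_mul_assoc, smul_smul, mul_assoc]

end ExR

/-! ### Elements of the normaliser -/

/-- the Fourier matrix -/
def sM (ω : F) : M3 F := (ω - ω * ω)⁻¹ • !![1, 1, 1; 1, ω, ω * ω; 1, ω * ω, ω]
/-- a conjugate of the Fourier matrix -/
def sM' (ω : F) : M3 F := (ω - ω * ω)⁻¹ • !![1, ω * ω, ω * ω; ω, ω, ω * ω; ω, ω * ω, ω]
/-- the square of the Fourier matrix -/
def zM (F : Type*) [Field F] : M3 F := !![-1, 0, 0; 0, 0, -1; 0, -1, 0]

lemma not_scal_of {X : M3 F} {i j : Fin 3} (hij : i ≠ j) (h : X i j ≠ 0) : ¬ IsScal X := by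
  rintro ⟨c, rfl⟩
  simp [hij] at h

lemma not_scal_zM : ¬ IsScal (zM F) := not_scal_of (i := 1) (j := 2) (by decide) (by simp [zM])

lemma not_scal_wM : ¬ IsScal (wM F) := not_scal_of (i := 0) (j := 2) (by decide) (by simp [wM])

lemma zM_sq : zM F * zM F = 1 := by
  ext i j
  fin_cases i <;> fin_cases j <;> simp [zM, mul_apply, Fin.sum_univ_three]

lemma wM_sq : wM F * wM F = 1 := by
  ext i j
  fin_cases i <;> fin_cases j <;> simp [wM, mul_apply, Fin.sum_univ_three]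

section Fourier

variable {ω : F} (h3 : (3 : F) ≠ 0) (hω : ω * ω + ω + 1 = 0)
include h3 hω

lemma kappa : 3 * ((ω - ω * ω)⁻¹ * (ω - ω * ω)⁻¹) = -1 ∧ (ω - ω * ω)⁻¹ * (ω - ω * ω) = 1 := by
  have h1 : (ω - ω * ω) * (ω - ω * ω) = -3 := by linear_combination (ω * ω - 3 * ω + 3) * hω
  have h2 : ω - ω * ω ≠ 0 := fun h => h3 (by rw [h] at h1; linear_combination h1)
  refine ⟨?_, inv_mul_cancel₀ h2⟩
  rw [← mul_inv, h1]
  field_simp

lemma sM_sq : sM ω * sM ω = zM F := by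
  obtain ⟨k1, k2⟩ := kappa h3 hω
  unfold sM
  generalize (ω - ω * ω)⁻¹ = κ at k1 k2
  ext i j
  fin_cases i <;> fin_cases j <;> simp [zM, mul_apply, Fin.sum_univ_three] <;> grind

lemma sM'_sq : sM' ω * sM' ω = zM F := by
  obtain ⟨k1, k2⟩ := kappa h3 hω
  unfold sM'
  generalize (ω - ω * ω)⁻¹ = κ at k1 k2
  ext i j
  fin_cases i <;> fin_cases j <;> simp [zM, mul_apply, Fin.sum_univ_three] <;> grind

lemma sM_sM' : sM ω * sM' ω * (sM ω * sM' ω) = zM F := by
  obtain ⟨k1, k2⟩ := kappa h3 hω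
  unfold sM sM'
  generalize (ω - ω * ω)⁻¹ = κ at k1 k2
  ext i j
  fin_cases i <;> fin_cases j <;> simp [zM, mul_apply, Fin.sum_univ_three] <;> grind

lemma sM_det : (sM ω).det = 1 ∧ (sM' ω).det = 1 := by
  obtain ⟨k1, k2⟩ := kappa h3 hω
  unfold sM sM'
  generalize (ω - ω * ω)⁻¹ = κ at k1 k2
  constructor <;> simp [det_fin_three] <;> grind

lemma sM_tw {σ : F →+* F} (hσ : σ ω = ω * ω) : tw σ 1 (sM ω) = 1 ∧ tw σ 1 (sM' ω) = 1 := by
  obtain ⟨k1, k2⟩ := kappa h3 hω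
  have k3 : σ (ω - ω * ω)⁻¹ = -(ω - ω * ω)⁻¹ := by
    rw [map_inv₀, map_sub, map_mul, hσ, ← inv_neg]
    congr 1
    linear_combination (ω - ω * ω) * hω
  unfold sM sM'
  rw [tw_smul_right, tw_smul_right, k3]
  generalize (ω - ω * ω)⁻¹ = κ at k1 k2
  constructor <;> ext i j <;> fin_cases i <;> fin_cases j <;>
    simp [tw, mul_apply, Fin.sum_univ_three, hσ] <;> grind

lemma sM_rel : sM ω * xM ω = (1 : F) • (xM ω ^ 0 * yM F ^ 2) * sM ω ∧
    sM ω * yM F = (1 : F) • (xM ω ^ 1 * yM F ^ 0) * sM ω ∧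
    sM' ω * xM ω = (ω * ω) • (xM ω ^ 1 * yM F ^ 2) * sM' ω ∧
    sM' ω * yM F = ω • (xM ω ^ 2 * yM F ^ 2) * sM' ω := by
  unfold sM sM'
  generalize (ω - ω * ω)⁻¹ = κ
  refine ⟨?_, ?_, ?_, ?_⟩ <;> ext i j <;> fin_cases i <;> fin_cases j <;>
    simp [xM, yM, pow_two, mul_apply, Fin.sum_univ_three] <;> grind

omit h3 in
lemma zM_rel : zM F * xM ω * zM F * xM ω = 1 ∧ zM F * yM F * zM F * yM F = 1 := by
  constructor <;> ext i j <;> fin_cases i <;> fin_cases j <;>
    simp [xM, yM, zM, mul_apply, Fin.sum_univ_three] <;> grind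

end Fourier

namespace ExR

variable {R : Subgroup (G3 F)} {ω : F} {x y : G3 F} (h : ExR R ω x y)
  {e : Fin 3 ≃ Fin 3} {P : G3 F} (hx : (x : M3 F) = frameEquiv e P (xM ω))
  (hy : (y : M3 F) = frameEquiv e P (yM F))
include h hx hy

lemma conj_mem {s z : G3 F} {S Z : M3 F} (hs : (s : M3 F) = frameEquiv e P S)
    (hz : (z : M3 F) = frameEquiv e P Z) {l : F} (hl : l ^ 3 = 1) {a b : ℕ}
    (hS : S * Z = l • (xM ω ^ a * yM F ^ b) * S) : s * z * s⁻¹ ∈ R := by
  refine h.mem_iff.2 ⟨a, b, l, hl, ?_⟩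
  rw [Units.val_mul, Units.mul_inv_eq_iff_eq_mul, Units.val_mul, hs, hz, hx, hy, ← map_pow,
    ← map_pow, ← map_mul (frameEquiv e P), ← map_mul (frameEquiv e P), ← map_smul,
    ← map_mul (frameEquiv e P), hS]

lemma sM_mem [Finite F] {s : G3 F} (hs : (s : M3 F) = frameEquiv e P (sM ω)) : s ∈ subgroupNormalizer R :=
  have k := sM_rel h.pair.h3 h.pair.hω
  h.mem_norm (h.conj_mem hx hy hs hx (one_pow _) k.1) (h.conj_mem hx hy hs hy (one_pow _) k.2.1)

lemma sM'_mem [Finite F] {s : G3 F} (hs : (s : M3 F) = frameEquiv e P (sM' ω)) : s ∈ subgroupNormalizer R :=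
  have k := sM_rel h.pair.h3 h.pair.hω
  h.mem_norm (h.conj_mem hx hy hs hx h.pair.swap.cube k.2.2.1)
    (h.conj_mem hx hy hs hy h.pair.cube k.2.2.2)

lemma not_le_decomp {M : Subgroup (G3 F)} (hR : R ≤ M) (hs : InF e P M (sM ω))
    {D : Fin 3 → Submodule F (Fin 3 → F)} (hD : IsMDecomposition 1 D) :
    ¬ M ≤ decompositionStabilizer D := fun hle => by
  obtain ⟨s, hs, hs'⟩ := hs
  have k := zM_rel h.pair.hω
  have h1 : (s : M3 F) * s = frameEquiv e P (zM F) := by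
    rw [hs', ← map_mul (frameEquiv e P), sM_sq h.pair.h3 h.pair.hω]
  have h2 := decomp_q8 hD (hle hs) (hle (hR h.hx)) (hle (hR h.hy))
    (Units.ext (by simp only [Units.val_mul, h1, ← map_mul (frameEquiv e P), zM_sq]; simp))
    (Units.ext (by simp only [Units.val_mul, h1, hx, ← map_mul (frameEquiv e P), k.1]; simp))
    (Units.ext (by simp only [Units.val_mul, h1, hy, ← map_mul (frameEquiv e P), k.2]; simp))
    (Units.ext h.pair.x3) (Units.ext h.pair.y3)
  have h3 := h.pair.xy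
  rw [Tw, ← Units.val_mul, ← Units.val_mul, h2] at h3
  exact h.pair.ne_one (sub_eq_zero.2 (smul_left_injective F (Units.ne_zero _)
    (h3.symm.trans (one_smul _ _).symm)))

lemma det_eq {z : G3 F} (hz : z ∈ R) : (z : M3 F).det = 1 := by
  obtain ⟨a, b, l, hl, h1⟩ := h.mem_iff.1 hz
  have k1 : (xM ω).det = 1 := by
    simp [xM, det_fin_three]
    linear_combination h.pair.cube
  have k2 : (yM F).det = 1 := by simp [yM, det_fin_three]
  rw [h1, det_smul, det_mul, det_pow, det_pow, hx, hy, det_frameEquiv, det_frameEquiv, k1, k2]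
  simpa using hl

lemma frame_mem_iff (Z : G3 F) : frameGL e P Z ∈ R ↔ ∃ (a b : ℕ) (l : F), l ^ 3 = 1 ∧
    (Z : M3 F) = l • (xM ω ^ a * yM F ^ b) := by
  rw [h.mem_iff, frameGL_val, hx, hy]
  simp only [← map_pow, ← map_mul (frameEquiv e P), ← map_smul, (frameEquiv e P).injective.eq_iff]

lemma norm_iff {R' : Subgroup (G3 F)} {x' y' : G3 F} (h' : ExR R' ω x' y')
    {e' : Fin 3 ≃ Fin 3} {P' : G3 F} (hx' : (x' : M3 F) = frameEquiv e' P' (xM ω))
    (hy' : (y' : M3 F) = frameEquiv e' P' (yM F)) (X : G3 F) :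
    frameGL e P X ∈ subgroupNormalizer R ↔ frameGL e' P' X ∈ subgroupNormalizer R' := by
  rw [subgroupNormalizer, subgroupNormalizer, Subgroup.mem_set_normalizer_iff,
    Subgroup.mem_set_normalizer_iff]
  refine (frameGL e P).surjective.forall.trans (Iff.trans ?_ (frameGL e' P').surjective.forall.symm)
  simp only [← map_inv, ← map_mul, SetLike.mem_coe, h.frame_mem_iff hx hy,
    h'.frame_mem_iff hx' hy']

end ExR

lemma not_A6_of_sM {ω : F} (h3 : (3 : F) ≠ 0) (hω : ω * ω + ω + 1 = 0) {e : Fin 3 ≃ Fin 3}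
    {P : G3 F} {H : Subgroup (G3 F)} (h1 : InF e P H (sM ω)) (h2 : InF e P H (sM' ω))
    (h : Nonempty (H8.ModSc H ≃* alternatingGroup (Fin 6))) : False := by
  obtain ⟨a, ha, ha'⟩ := h1
  obtain ⟨b, hb, hb'⟩ := h2
  refine not_A6_of_q8 ha hb (c := 1) (d := 1) ?_ ?_ ?_ h <;>
    simp only [ha', hb', ← map_mul (frameEquiv e P), sM_sq h3 hω, sM'_sq h3 hω, sM_sM' h3 hω,
      one_smul, isScal_frameEquiv_iff, not_scal_zM, not_false_iff]

lemma not_le_field_of_sq [Fintype F] {e : Fin 3 ≃ Fin 3} {P : G3 F} {M : Subgroup (G3 F)}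
    {X : M3 F} (h : InF e P M X) (h1 : X * X = 1) (h2 : ¬ IsScal X) {K : Subalgebra F (M3 F)}
    (hK : IsFieldSubalgebra 3 K) : ¬ M ≤ subalgebraNormalizer K := fun hle => by
  obtain ⟨g, hg, h⟩ := h
  have := fld_invol hK (hle hg) (by rw [h, ← map_mul (frameEquiv e P), h1, map_one]; exact isScal_one)
  rw [h, isScal_frameEquiv_iff] at this
  exact h2 this

lemma ExR.not_le_of_klein [Finite F] {R : Subgroup (G3 F)} {ω : F} {x y : G3 F} (h : ExR R ω x y)
    (h2 : (2 : F) ≠ 0) {e : Fin 3 ≃ Fin 3} {P : G3 F} {M : Subgroup (G3 F)}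
    (ht : InF e P M (tM (-1))) (hw : InF e P M (wM F)) : ¬ M ≤ subgroupNormalizer R := fun hle => by
  obtain ⟨t, ht, ht'⟩ := ht
  obtain ⟨w, hw, hw'⟩ := hw
  have k1 : tM (-1 : F) * tM (-1) = 1 := by simpa using tM_inv (a := (-1 : F)) (by simp)
  have k2 : tM (-1 : F) * wM F * (tM (-1 : F) * wM F) = 1 := by
    ext i j
    fin_cases i <;> fin_cases j <;> simp [tM, wM, mul_apply, Fin.sum_univ_three]
  refine h.klein (hle ht) (hle hw) (Units.ext ?_) (Units.ext ?_) (Units.ext ?_) ?_ ?_ ?_ <;>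
    simp only [Units.val_mul, ht', hw', ← map_mul (frameEquiv e P), k1, k2, wM_sq, map_one,
      Units.val_one, isScal_frameEquiv_iff, not_scal_wM, not_false_iff]
  · rintro ⟨c, hc⟩
    have a0 := congrFun (congrFun hc 0) 0
    have a1 := congrFun (congrFun hc 1) 1
    simp [tM] at a0 a1
    exact h2 (by linear_combination a1 - a0)
  · exact not_scal_of (i := 0) (j := 2) (by decide) (by simp [tM, wM, mul_apply, Fin.sum_univ_three])

end Cfsg.Agent.H7
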