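import Cfsg.Agent.H7.M3C
import Cfsg.Agent.H6.El4

/-! Containment analysis in dimension three: hyperbolic frames, tori and counting. -/

set_option autoImplicit false
set_option linter.unusedSectionVars false
set_option linter.unusedVariables false
set_option linter.unnecessarySimpa false
set_option linter.style.haveILetI false
set_option linter.unusedSimpArgs false

namespace Cfsg.Agent.H7

open Cfsg Cfsg.Geo Matrix
open scoped MatrixGroups Kronecker commutatorElement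

variable {F : Type*} [Field F]

/-- the hyperbolic Gram matrix -/
def jM (F : Type*) [Field F] : M3 F := !![0, 0, 1; 0, 1, 0; 1, 0, 0]

/-- the identity labelling -/
abbrev e0 : Fin 3 ≃ Fin 3 := Equiv.refl _

lemma exists_pow_of_invol [Fintype F] {σ : F →+* F} (hσ : ∀ x, σ (σ x) = x) (hne : ∃ a, σ a ≠ a) :
    ∃ q, Fintype.card F = q ^ 2 ∧ ∀ x, σ x = x ^ q := by
  obtain ⟨q, hF, hq⟩ := exists_q_of_invol hσ hne
  obtain ⟨τ, hτ⟩ := exists_qHom hF
  have k : ∀ x, σ x = x ↔ τ x = x := fun x => by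
    rw [hτ, ← hq, ← mem_subfield_iff_pow, mem_fixField]
  refine ⟨q, hF, fun x => ?_⟩
  have h1 := (k (x + σ x)).1 (by rw [map_add, hσ, add_comm])
  have h2 := (k (x * σ x)).1 (by rw [map_mul, hσ, mul_comm])
  rw [map_add] at h1
  rw [map_mul] at h2
  have h3 : (τ x - x) * (τ x - σ x) = 0 := by linear_combination τ x * h1 - h2
  rcases mul_eq_zero.1 h3 with h | h
  · rw [← hτ, sub_eq_zero.1 h, (k x).2 (sub_eq_zero.1 h)]
  · rw [← hτ, sub_eq_zero.1 h]

section Hyp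

variable {σ : F →+* F} {f : (Fin 3 → F) → (Fin 3 → F) → F}

lemma hyp_partner (hf : HForm σ 1 f) (htr : ∀ d, σ d = d → ∃ μ, μ + σ μ = d) {u w : Fin 3 → F}
    (hu0 : u ≠ 0) (hu : f u u = 0) (huw : f u w = 0) (hw : w = 0 ∨ f w w ≠ 0) :
    ∃ v, f u v = 1 ∧ f v v = 0 ∧ f v w = 0 := by
  obtain ⟨⟨y, hy⟩, -⟩ := hf.nondeg u hu0
  have hwu := hf.eq_zero_comm huw
  obtain ⟨z, h1, h2⟩ : ∃ z, f z u = 1 ∧ f z w = 0 := by
    refine ⟨(f y u)⁻¹ • (y - (f y w / f w w) • w), ?_, ?_⟩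
    · rw [hf.smul_left, hf.sub_left, hf.smul_left, hwu, mul_zero, sub_zero, inv_mul_cancel₀ hy]
    · rw [hf.smul_left, hf.sub_left, hf.smul_left]
      rcases hw with rfl | hw
      · simp [hf.zero_right]
      · rw [div_mul_cancel₀ _ hw, sub_self, mul_zero]
  have h3 : f u z = 1 := by rw [hf.herm1, h1, map_one]
  obtain ⟨μ, hμ⟩ := htr _ (hf.map_self z)
  refine ⟨z - μ • u, ?_, ?_, ?_⟩ <;>
    simp only [hf.sub_left, hf.sub_right, hf.smul_left, hf.smul_right, h1, h2, h3, hu, huw]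
  · ring
  · linear_combination -hμ
  · ring

lemma Sesq.frameGram_e0 (hf : Sesq σ f) (P : G3 F) :
    frameGram f e0 P = tw σ (gramMatrix f) P := by
  apply gform_ext (σ := σ)
  intro u v
  rw [← hf.frameGram_spec, ← gform_tw, ← hf.eq_gform]
  rfl

lemma hyp_frame (hf : HForm σ 1 f) {u v w : Fin 3 → F} (hu : f u u = 0) (huv : f u v = 1)
    (hv : f v v = 0) (huw : f u w = 0) (hvw : f v w = 0) (hw : w ≠ 0) :
    f w w ≠ 0 ∧ ∃ P : G3 F, frameVec e0 P (Pi.single 0 1) = f w w • u ∧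
      frameVec e0 P (Pi.single 1 1) = w ∧ frameGram f e0 P = f w w • jM F := by
  have hvu : f v u = 1 := by rw [hf.herm1, huv, map_one]
  have hwu := hf.eq_zero_comm huw
  have hwv := hf.eq_zero_comm hvw
  have k : ∀ d : F, d ≠ 0 → ∃ P : G3 F, ∀ k, frameVec e0 P (Pi.single k 1) = ![d • u, w, v] k :=
    fun d hd => by
    have hli : LinearIndependent F ![d • u, w, v] := by
      rw [Fintype.linearIndependent_iff]
      intro g hg
      simp only [Fin.sum_univ_three, cons_val_zero, cons_val_one, cons_val] at hg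
      have h1 := congrArg (f · v) hg
      have h2 := congrArg (f · u) hg
      simp [hf.add_left, hf.smul_left, hf.zero_left, hu, huv, hv, hvu, hwu, hwv, hd] at h1 h2
      rw [h1, h2] at hg
      intro i
      fin_cases i
      · exact h1
      · simpa [hw] using hg
      · exact h2
    obtain ⟨P, hP⟩ := (linearIndependent_cols_iff_isUnit
      (A := Matrix.of fun i j => ![d • u, w, v] j i)).1 hli
    refine ⟨P, fun k => ?_⟩
    ext i
    simp [frameVec_apply, hP]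
  have h0 : f w w ≠ 0 := fun h => by
    obtain ⟨P, hP⟩ := k 1 one_ne_zero
    refine hw (hf.toSesq.eq_zero_of_left fun x => ?_)
    obtain ⟨x, rfl⟩ := (frameVec e0 P).surjective x
    rw [pi_eq_sum_univ' x, map_sum, Fin.sum_univ_three]
    simp only [map_smul, hP]
    simp [hf.add_left, hf.smul_left, *]
  obtain ⟨P, hP⟩ := k _ h0
  refine ⟨h0, P, hP 0, hP 1, ?_⟩
  ext i j
  rw [frameGram_apply, hP, hP]
  fin_cases i <;> fin_cases j <;> simp [jM, hf.smul_left, hf.smul_right, hf.map_self, *]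

lemma hyp_of_iso (hf : HForm σ 1 f) (htr : ∀ d, σ d = d → ∃ μ, μ + σ μ = d) {u : Fin 3 → F}
    (hu0 : u ≠ 0) (hu : f u u = 0) : ∃ (P : G3 F) (d : F), d ≠ 0 ∧
      frameVec e0 P (Pi.single 0 1) = d • u ∧ frameGram f e0 P = d • jM F := by
  obtain ⟨v, h1, h2, -⟩ := hyp_partner hf htr hu0 hu (hf.zero_right u) (Or.inl rfl)
  obtain ⟨w, hw, h3, h4⟩ := exists_dot_eq_zero_two (ι := Fin 3) (by simp)
    (gramMatrix f *ᵥ (σ ∘ u)) (gramMatrix f *ᵥ (σ ∘ v))
  obtain ⟨h5, P, h6, -, h7⟩ := hyp_frame hf hu h1 h2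
    (hf.eq_zero_comm ((hf.toSesq.eq_gform _ _).trans h3))
    (hf.eq_zero_comm ((hf.toSesq.eq_gform _ _).trans h4)) hw
  exact ⟨P, _, h5, h6, h7⟩

lemma exists_iso_id [Finite F] {f : (Fin 3 → F) → (Fin 3 → F) → F} (hf : Sesq (RingHom.id F) f) :
    ∃ u, u ≠ 0 ∧ f u u = 0 := by
  classical
  haveI := Fintype.ofFinite F
  obtain ⟨p, hp⟩ := CharP.exists F
  let Q : MvPolynomial (Fin 3) F := ∑ i, ∑ j,
    MvPolynomial.C (gramMatrix f i j) * (MvPolynomial.X i * MvPolynomial.X j)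
  have hdeg : Q.totalDegree < Fintype.card (Fin 3) := by
    refine Nat.lt_succ_of_le (MvPolynomial.totalDegree_finsetSum_le fun i _ =>
      MvPolynomial.totalDegree_finsetSum_le fun j _ => ?_)
    refine (MvPolynomial.totalDegree_mul _ _).trans ?_
    rw [MvPolynomial.totalDegree_C, zero_add]
    refine (MvPolynomial.totalDegree_mul _ _).trans ?_
    simp
  have hdvd := char_dvd_card_solutions p hdeg
  have heval : ∀ x : Fin 3 → F, MvPolynomial.eval x Q = f x x := fun x => by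
    rw [hf.eq_gform]
    simp [Q, gform, Fin.sum_univ_three, dotProduct, mulVec]
    ring
  by_contra h
  push Not at h
  have hcard : Fintype.card { x : Fin 3 → F // MvPolynomial.eval x Q = 0 } = 1 := by
    rw [Fintype.card_eq_one_iff]
    refine ⟨⟨0, by rw [heval, hf.zero_left]⟩, fun y => Subtype.ext ?_⟩
    by_contra h0
    exact h _ h0 ((heval _).symm.trans y.2)
  rw [hcard, Nat.dvd_one] at hdvd
  exact (CharP.char_is_prime F p).ne_one hdvd

lemma hyp_sym [Finite F] {f : (Fin 3 → F) → (Fin 3 → F) → F} (hf : HForm (RingHom.id F) 1 f)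
    (h2 : (2 : F) ≠ 0) : ∃ (P : G3 F) (d : F), d ≠ 0 ∧ frameGram f e0 P = d • jM F := by
  obtain ⟨u, h0, hu⟩ := exists_iso_id hf.toSesq
  obtain ⟨P, d, h1, -, h3⟩ := hyp_of_iso hf (fun d _ => ⟨d / 2, by rw [RingHom.id_apply]; field_simp; ring⟩) h0 hu
  exact ⟨P, d, h1, h3⟩

lemma hyp_unit [Fintype F] (hf : HForm σ 1 f) (hne : ∃ a, σ a ≠ a) :
    ∃ (P : G3 F) (d : F), d ≠ 0 ∧ frameGram f e0 P = d • jM F := by
  obtain ⟨q, hF, hσ⟩ := exists_pow_of_invol hf.invol hne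
  obtain ⟨u, -, h0, hu⟩ := hf.exists_iso_of_pair hF hσ (U := ⊤) (by simp)
  obtain ⟨P, d, h1, -, h3⟩ := hyp_of_iso hf (fun d => exists_trace_eq hf.invol hne) h0 hu
  exact ⟨P, d, h1, h3⟩

lemma subfieldSubgroup_mul (F₀ : Subfield F) (P : G3 F) (Y : G3 F₀) :
    subfieldSubgroup F₀ (P * GeneralLinearGroup.map F₀.subtype Y) = subfieldSubgroup F₀ P := by
  ext g
  have hY : GeneralLinearGroup.map F₀.subtype Y ∈
      (GeneralLinearGroup.map (n := Fin 3) F₀.subtype).range ⊔ scalars (Fin 3) F :=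
    Subgroup.mem_sup_left ⟨Y, rfl⟩
  rw [subfieldSubgroup, subfieldSubgroup, Subgroup.mem_map_equiv, Subgroup.mem_map_equiv,
    MulAut.conj_symm_apply, MulAut.conj_symm_apply, _root_.mul_inv_rev, ← mul_assoc, mul_assoc _ P⁻¹,
    mul_assoc _ _ P, Subgroup.mul_mem_cancel_right _ hY, Subgroup.mul_mem_cancel_left _ (inv_mem hY)]

lemma rat_frame [Finite F] (hf : HForm σ 1 f) {F₀ : Subfield F} {P : G3 F}
    (h : IsFormRationalStructure f F₀ 1 P)
    (hyp : ∀ σ₀ : F₀ →+* F₀, (∀ x, (σ₀ x : F) = σ x) → ∀ f₀, HForm σ₀ 1 f₀ →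
      ∃ (Y : G3 F₀) (d : F₀), d ≠ 0 ∧ frameGram f₀ e0 Y = d • jM F₀) :
    ∃ (P' : G3 F) (d : F), d ≠ 0 ∧ frameGram f e0 P' = d • jM F ∧
      subfieldSubgroup F₀ P' = subfieldSubgroup F₀ P := by
  let σ₀ : F₀ →+* F₀ := σ.restrict F₀ F₀ fun x hx => ringHom_mem_subfield σ hx
  have hσ₀ : ∀ x, (σ₀ x : F) = σ x := fun _ => rfl
  have hG : ∀ i j, frameGram f e0 P i j ∈ F₀ := fun i j => by
    have := h (Pi.single i 1) (Pi.single j 1) (single_mem_subfield _ _ F₀.one_mem)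
      (single_mem_subfield _ _ F₀.one_mem)
    rwa [one_mul] at this
  let G₀ : M3 F₀ := Matrix.of fun i j => ⟨_, hG i j⟩
  have hG₀ : G₀.map F₀.subtype = frameGram f e0 P := rfl
  have h1 : G₀.det ≠ 0 := fun h => hf.toSesq.frameGram_det e0 P (by
    rw [← hG₀, ← RingHom.mapMatrix_apply, ← RingHom.map_det, h, map_zero])
  have hf₀ := hform_gform (σ := σ₀) (fun a => Subtype.ext (hf.invol a)) h1 (Or.inl rfl) (by
    ext i j
    rw [one_smul]
    have := congrFun (congrFun (hf.frameGram_herm e0 P) i) j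
    rw [one_smul] at this
    exact this)
  obtain ⟨Y, d, hd, hY⟩ := hyp σ₀ hσ₀ _ hf₀
  refine ⟨P * GeneralLinearGroup.map F₀.subtype Y, d, fun h => hd (Subtype.ext h), ?_,
    subfieldSubgroup_mul _ _ _⟩
  rw [hf₀.toSesq.frameGram_e0, gramMatrix_gform] at hY
  rw [hf.toSesq.frameGram_e0, Units.val_mul, tw_mul, ← hf.toSesq.frameGram_e0, ← hG₀]
  have h2 := congrArg (fun X : M3 F₀ => X.map F₀.subtype) hY
  simp only [tw, Matrix.map_mul] at h2
  refine Eq.trans h2 ?_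
  ext i j
  fin_cases i <;> fin_cases j <;> simp [jM]

lemma Sesq.mem_SUf_frame (hf : Sesq σ f) {e : Fin 3 ≃ Fin 3} {P g : G3 F} {X J : M3 F} {d : F}
    (hd : d ≠ 0) (hG : frameGram f e P = d • J) (hg : (g : M3 F) = frameEquiv e P X) :
    g ∈ SUf f ↔ tw σ J X = J ∧ X.det = 1 := by
  constructor
  · intro h
    have h1 := hf.tw_of_isom hg (mem_SUf.1 h).1
    rw [hG, tw_smul] at h1
    exact ⟨smul_right_injective _ hd h1, by rw [← det_frameEquiv e P, ← hg, (mem_SUf.1 h).2]⟩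
  · exact fun h => hf.mem_SUf_of_frame hg (by rw [hG, tw_smul, h.1]) h.2

lemma Sesq.mem_sim_frame (hf : Sesq σ f) {e : Fin 3 ≃ Fin 3} {P g : G3 F} {X J : M3 F} {d : F}
    (hd : d ≠ 0) (hG : frameGram f e P = d • J) (hg : (g : M3 F) = frameEquiv e P X) :
    g ∈ similarityGroup f ↔ ∃ μ : F, tw σ J X = μ • J := by
  constructor
  · rintro ⟨c, hc⟩
    rw [hg] at hc
    have h1 := hf.frameGram_sim e P hc
    rw [hG, tw_smul, smul_comm] at h1
    exact ⟨c, smul_right_injective _ hd (by simpa only [smul_comm d] using h1)⟩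
  · rintro ⟨μ, h⟩
    refine mem_similarityGroup_of_sim (c := μ) hf.nondeg fun u v => ?_
    rw [hg]
    exact hf.sim_of_frameGram e P (by rw [hG, tw_smul, h, smul_comm]) u v

lemma mem_SL_frame {e : Fin 3 ≃ Fin 3} {P g : G3 F} {X : M3 F}
    (hg : (g : M3 F) = frameEquiv e P X) : g ∈ specialLinear (Fin 3) F ↔ X.det = 1 := by
  rw [mem_specialLinear_iff, hg, det_frameEquiv]

lemma tw_uM (hσ : ∀ a, σ (σ a) = a) {c b : F} (h : b + σ b + c * σ c = 0) :
    tw σ (jM F) !![1, c, b; 0, 1, -σ c; 0, 0, 1] = jM F := by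
  ext i j
  fin_cases i <;> fin_cases j <;> simp [tw, jM, mul_apply, Fin.sum_univ_three, hσ]
  linear_combination h

lemma tw_TM {c : F} (h : c + σ c = 0) : tw σ (jM F) !![1, 0, c; 0, 1, 0; 0, 0, 1] = jM F := by
  ext i j
  fin_cases i <;> fin_cases j <;> simp [tw, jM, mul_apply, Fin.sum_univ_three]
  linear_combination h

lemma tw_wM : tw σ (jM F) (wM F) = jM F := by
  ext i j
  fin_cases i <;> fin_cases j <;> simp [tw, jM, wM, mul_apply, Fin.sum_univ_three]

lemma tw_tM {a : F} (ha : a ≠ 0) (h : σ a = a) : tw σ (jM F) (tM a) = jM F := by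
  ext i j
  fin_cases i <;> fin_cases j <;> simp [tw, jM, tM, mul_apply, Fin.sum_univ_three, h, ha]

lemma wM_det : (wM F).det = 1 := by simp [wM, det_fin_three]

lemma yM_det : (yM F).det = 1 := by simp [yM, det_fin_three]

/-- `M` contains all `S`-rational special isometries of the hyperbolic form -/
def Full (σ : F →+* F) (e : Fin 3 ≃ Fin 3) (P : G3 F) (M : Subgroup (G3 F)) (S : Subfield F) : Prop :=
  ∀ X, Rat S X → tw σ (jM F) X = jM F → X.det = 1 → InF e P M X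

namespace Full

variable {e : Fin 3 ≃ Fin 3} {P : G3 F} {M : Subgroup (G3 F)} {S : Subfield F} (h : Full σ e P M S)
include h

lemma hasU [Finite F] (hσ : ∀ a, σ (σ a) = a) (htr : ∀ d ∈ S, σ d = d → ∃ μ ∈ S, μ + σ μ = d) :
    HasU e P M S := fun c hc => by
  have hc' := ringHom_mem_subfield σ hc
  obtain ⟨b, hb, h1⟩ := htr (-(c * σ c)) (S.neg_mem (S.mul_mem hc hc'))
    (by rw [map_neg, map_mul, hσ, mul_comm])
  refine ⟨b, -σ c, fun h => by simpa using h, h _ (fun i j => ?_)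
    (tw_uM hσ (by rw [h1, neg_add_cancel])) (by simp [det_fin_three])⟩
  fin_cases i <;> fin_cases j <;> simp [*]

lemma wM : InF e P M (wM F) := h _ (fun i j => by
  fin_cases i <;> fin_cases j <;> simp [H7.wM]) tw_wM wM_det

lemma tM [Finite F] {a : F} (ha : a ≠ 0) (h1 : σ a = a) (h2 : a ∈ S) : InF e P M (tM a) := h _ (fun i j => by
  fin_cases i <;> fin_cases j <;> simp [H7.tM, h2]) (tw_tM ha h1) (tM_det ha)

lemma TM {c : F} (h1 : c + σ c = 0) (h2 : c ∈ S) : InF e P M !![1, 0, c; 0, 1, 0; 0, 0, 1] :=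
  h _ (fun i j => by fin_cases i <;> fin_cases j <;> simp [h2]) (tw_TM h1) (by simp [det_fin_three])

end Full

lemma TM_sq (c : F) : ((!![1, 0, c; 0, 1, 0; 0, 0, 1] : M3 F) - 1) *
    (!![1, 0, c; 0, 1, 0; 0, 0, 1] - 1) = 0 := by
  ext i j
  fin_cases i <;> fin_cases j <;> simp [mul_apply, Fin.sum_univ_three, one_apply]

lemma sq_of_TM {e : Fin 3 ≃ Fin 3} {P g : G3 F} {c : F}
    (h : (g : M3 F) = frameEquiv e P !![1, 0, c; 0, 1, 0; 0, 0, 1]) :
    ((g : M3 F) - 1) * ((g : M3 F) - 1) = 0 ∧ (c ≠ 0 → g ≠ 1) := by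
  constructor
  · rw [h, ← map_one (frameEquiv e P), ← map_sub, ← map_mul (frameEquiv e P), TM_sq, map_zero]
  · rintro hc rfl
    rw [Units.val_one, eq_comm, map_eq_one_iff _ (frameEquiv e P).injective] at h
    have := congrFun (congrFun h 0) 2
    simp [hc] at this

lemma not_le_of_noTv {e : Fin 3 ≃ Fin 3} {P : G3 F} {M H : Subgroup (G3 F)} {c : F} (hc : c ≠ 0)
    (h : InF e P M !![1, 0, c; 0, 1, 0; 0, 0, 1]) (hH : H8.NoTv H) : ¬ M ≤ H := fun hle =>
  let ⟨g, hg, h⟩ := h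
  (sq_of_TM h).2 hc (hH g (hle hg) (sq_of_TM h).1)

lemma mem_stab_line [Finite F] {W : Submodule F (Fin 3 → F)} {u : Fin 3 → F} (hu : u ∈ W)
    (hW : ∀ v ∈ W, ∃ c : F, v = c • u) {g : G3 F} {a : F} (hg : (g : M3 F) *ᵥ u = a • u) :
    g ∈ subspaceStabilizer W :=
  mem_setStab_of_finite (S := (W : Set (Fin 3 → F))) fun v hv => by
    obtain ⟨c, rfl⟩ := hW v hv
    rw [mulVec_smul, hg]
    exact W.smul_mem _ (W.smul_mem _ hu)

lemma ts_line (hf : Sesq σ f) {e : Fin 3 ≃ Fin 3} {P : G3 F} {d : F} (hd : d ≠ 0)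
    (hG : frameGram f e P = d • jM F) {W : Submodule F (Fin 3 → F)} (hW : IsTotallySingularFor f W)
    (h : frameVec e P (Pi.single 0 1) ∈ W) : ∀ v ∈ W, ∃ c : F, v = c • frameVec e P (Pi.single 0 1) := by
  intro v hv
  obtain ⟨x, rfl⟩ := (frameVec e P).surjective v
  have h1 := hW _ hv _ h
  have h2 := hW _ hv _ hv
  rw [hf.frameGram_spec, hG] at h1 h2
  simp [gform, jM, dotProduct, mulVec, Fin.sum_univ_three, hd] at h1
  simp [gform, jM, dotProduct, mulVec, Fin.sum_univ_three, hd, h1] at h2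
  refine ⟨x 0, ?_⟩
  rw [← map_smul]
  congr 1
  ext i
  fin_cases i <;> simp [*]

lemma line_of_finrank {W : Submodule F (Fin 3 → F)} (hW : 2 * Module.finrank F W < 3)
    {u : Fin 3 → F} (hu : u ∈ W) (h0 : u ≠ 0) : ∀ v ∈ W, ∃ c : F, v = c • u := by
  intro v hv
  have h1 : Module.finrank F W = 1 := by
    have : Module.finrank F W ≠ 0 := fun h => h0 (by
      rw [Submodule.finrank_eq_zero.1 h] at hu
      exact hu)
    omega
  obtain ⟨c, hc⟩ := (finrank_eq_one_iff_of_nonzero' (⟨u, hu⟩ : W)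
    (fun h => h0 (congrArg Subtype.val h))).1 h1 ⟨v, hv⟩
  exact ⟨c, (congrArg Subtype.val hc).symm⟩

lemma eq_of_line {W W' : Submodule F (Fin 3 → F)} {u : Fin 3 → F} (hu : u ∈ W) (hu' : u ∈ W')
    (h : ∀ v ∈ W, ∃ c : F, v = c • u) (h' : ∀ v ∈ W', ∃ c : F, v = c • u) : W = W' :=
  le_antisymm (fun v hv => let ⟨c, hc⟩ := h v hv; hc ▸ W'.smul_mem c hu')
    (fun v hv => let ⟨c, hc⟩ := h' v hv; hc ▸ W.smul_mem c hu)

lemma inv_of_TM {e : Fin 3 ≃ Fin 3} {P : G3 F} {M : Subgroup (G3 F)} {c : F} (hc : c ≠ 0)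
    (h : InF e P M !![1, 0, c; 0, 1, 0; 0, 0, 1]) (hw : InF e P M (wM F))
    {W : Submodule F (Fin 3 → F)} (hW : M ≤ subspaceStabilizer W) (h0 : W ≠ ⊥) :
    (frameVec e P (Pi.single 0 1) ∈ W ∧ frameVec e P (Pi.single 2 1) ∈ W) ∨
      frameVec e P (Pi.single 1 1) ∈ W := by
  have hW' : ∀ g ∈ M, ∀ v ∈ W, (g : M3 F) *ᵥ v ∈ W := fun g hg v hv =>
    (mem_subspaceStabilizer_iff.1 (hW hg) v).1 hv
  by_cases h1 : frameVec e P (Pi.single 0 1) ∈ W
  · refine Or.inl ⟨h1, ?_⟩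
    convert hw.mem hW' h1 using 2
    ext i
    fin_cases i <;> simp [wM]
  right
  have k : ∀ x, frameVec e P x ∈ W → x 2 = 0 := fun x hx => by
    by_contra h2
    have := W.sub_mem (h.mem hW' hx) hx
    rw [← map_sub] at this
    refine h1 (frame_mem_of_smul (mul_ne_zero hc h2) this ?_)
    ext i
    fin_cases i <;> simp [mulVec, dotProduct, Fin.sum_univ_three]
  obtain ⟨v, hv, hv0⟩ := Submodule.exists_mem_ne_zero_of_ne_bot h0
  obtain ⟨x, rfl⟩ := (frameVec e P).surjective v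
  have x2 := k x hv
  have x0 : x 0 = 0 := by simpa [wM, mulVec, dotProduct, Fin.sum_univ_three] using k _ (hw.mem hW' hv)
  refine frame_mem_of_smul (c := x 1) (fun h => hv0 ?_) hv ?_
  · rw [show x = 0 by ext i; fin_cases i <;> simp [*], map_zero]
  · ext i
    fin_cases i <;> simp [*]

end Hyp

/-! ### Tori -/

/-- a diagonal matrix of determinant one -/
def dM (a b : F) : M3 F := !![a, 0, 0; 0, b, 0; 0, 0, (a * b)⁻¹]

lemma dM_det {a b : F} (ha : a ≠ 0) (hb : b ≠ 0) : (dM a b).det = 1 := by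
  simp [dM, det_fin_three]
  field_simp

lemma dM_one (a : F) : dM a 1 = tM a := by simp [dM, tM]

lemma tw_dM {σ : F →+* F} {a b : F} (ha : a * σ a = 1) (hb : b * σ b = 1) :
    tw σ 1 (dM a b) = 1 := by
  ext i j
  fin_cases i <;> fin_cases j <;> simp [tw, dM, mul_apply, Fin.sum_univ_three, ha, hb]
  rw [← mul_inv, ← mul_inv, ← mul_inv, show b * a * (σ b * σ a) = (a * σ a) * (b * σ b) by ring,
    ha, hb, one_mul, inv_one]

lemma tw_yM {σ : F →+* F} : tw σ 1 (yM F) = 1 := by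
  ext i j
  fin_cases i <;> fin_cases j <;> simp [tw, yM, mul_apply, Fin.sum_univ_three]

lemma tw_one_wM {σ : F →+* F} : tw σ 1 (wM F) = 1 := by
  ext i j
  fin_cases i <;> fin_cases j <;> simp [tw, wM, mul_apply, Fin.sum_univ_three]

lemma card_sq_dvd {e : Fin 3 ≃ Fin 3} {P : G3 F} {M : Subgroup (G3 F)} (A : Subgroup Fˣ)
    (h : ∀ a ∈ A, ∀ b ∈ A, InF e P M (dM (a : F) b)) : Nat.card A ^ 2 ∣ Nat.card M := by
  choose g hg hg' using fun x : A × A => h x.1 x.1.2 x.2 x.2.2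
  let ψ : A × A →* M := MonoidHom.mk' (fun x => ⟨g x, hg x⟩) fun x y => Subtype.ext (Units.ext (by
    simp only [Subgroup.coe_mul, Units.val_mul, hg', ← map_mul (frameEquiv e P)]
    congr 1
    ext i j
    fin_cases i <;> fin_cases j <;> simp [dM, mul_apply, Fin.sum_univ_three]
    ring))
  have := Subgroup.card_dvd_of_injective ψ ((injective_iff_map_eq_one _).2 fun x hx => by
    have h1 : (g x : M3 F) = 1 := congrArg (fun t : M => ((t : G3 F) : M3 F)) hx
    rw [hg', map_eq_one_iff _ (frameEquiv e P).injective] at h1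
    have h2 := congrFun (congrFun h1 0) 0
    have h3 := congrFun (congrFun h1 1) 1
    simp [dM] at h2 h3
    exact Prod.ext h2 h3)
  rwa [Nat.card_prod, ← pow_two] at this

lemma exists_sq_ne_one [Finite F] (A : Subgroup Fˣ) (h : 3 ≤ Nat.card A) :
    ∃ a ∈ A, (a : F) * a ≠ 1 := by
  by_contra h1
  push Not at h1
  classical
  have : Nat.card A ≤ Nat.card ({1, -1} : Finset F) := Nat.card_le_card_of_injective
    (fun a => ⟨((a : Fˣ) : F), by simpa using mul_self_eq_one_iff.1 (h1 a a.2)⟩)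
    fun a b h => Subtype.ext (Units.ext (congrArg Subtype.val h))
  rw [Nat.card_eq_finsetCard] at this
  have := this.trans Finset.card_le_two
  omega

lemma exists_norm_one [Fintype F] {q : ℕ} (hF : Fintype.card F = q ^ 2) {σ : F →+* F}
    (hσ : ∀ x, σ x = x ^ q) : ∃ A : Subgroup Fˣ, Nat.card A = q + 1 ∧
      ∀ a ∈ A, (a : F) * σ a = 1 := by
  obtain ⟨ζ, hζ⟩ := IsCyclic.exists_ofOrder_eq_natCard (α := Fˣ)
  have hq := two_le_q hF
  rw [Nat.card_units, Nat.card_eq_fintype_card, hF, show q ^ 2 - 1 = (q - 1) * (q + 1) by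
    rw [mul_comm, ← Nat.sq_sub_sq]] at hζ
  have h1 : orderOf (ζ ^ (q - 1)) = q + 1 := by
    rw [orderOf_pow' _ (by omega), hζ, Nat.gcd_mul_right_left, Nat.mul_div_cancel_left _ (by omega)]
  refine ⟨Subgroup.zpowers (ζ ^ (q - 1)), by rw [Nat.card_zpowers, h1], fun a ha => ?_⟩
  rw [hσ, ← pow_succ', ← Units.val_pow_eq_pow_val, ← h1,
    orderOf_dvd_iff_pow_eq_one.1 (orderOf_dvd_of_mem_zpowers ha), Units.val_one]

lemma card_top_units [Fintype F] : Nat.card (⊤ : Subgroup Fˣ) = Fintype.card F - 1 := by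
  rw [Subgroup.card_top, Nat.card_units, Nat.card_eq_fintype_card]

/-! ### Counting -/

lemma isPrimePow_card (S : Subfield F) [Finite S] : IsPrimePow (Nat.card S) := by
  haveI := Fintype.ofFinite S
  rw [Nat.card_eq_fintype_card]
  exact FiniteField.isPrimePow_card S

lemma not_dvd_168 {d : ℕ} (h : IsPrimePow d) (h1 : 11 ≤ d) : ¬ d ∣ 168 := fun h2 =>
  (by decide +kernel : ∀ d ∈ Nat.divisors 168, 11 ≤ d → ¬ IsPrimePow d) d
    (Nat.mem_divisors.2 ⟨h2, by norm_num⟩) h1 h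

lemma not_dvd_360 {d : ℕ} (h : IsPrimePow d) (h1 : 11 ≤ d) : ¬ d ∣ 360 := fun h2 =>
  (by decide +kernel : ∀ d ∈ Nat.divisors 360, 11 ≤ d → ¬ IsPrimePow d) d
    (Nat.mem_divisors.2 ⟨h2, by norm_num⟩) h1 h

lemma not_dvd_six {d : ℕ} (h : IsPrimePow d) (h1 : 4 ≤ d) : ¬ d ∣ 6 := fun h2 =>
  (by decide +kernel : ∀ d ∈ Nat.divisors 6, 4 ≤ d → ¬ IsPrimePow d) d
    (Nat.mem_divisors.2 ⟨h2, by norm_num⟩) h1 h

lemma card_top_subfield [Fintype F] : Nat.card (⊤ : Subfield F) = Fintype.card F := by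
  rw [← Nat.card_eq_fintype_card]
  exact Nat.card_congr Subfield.topEquiv.toEquiv

lemma two_le_card (S : Subfield F) [Finite S] : 2 ≤ Nat.card S := Finite.one_lt_card

lemma subfield_eq_of_le [Fintype F] {F₀ F₁ : Subfield F} (h : F₀ ≤ F₁) {r r' : ℕ} (hr : r.Prime)
    (hr' : r'.Prime) (h1 : Fintype.card F = Nat.card F₀ ^ r) (h2 : Fintype.card F = Nat.card F₁ ^ r') :
    F₀ = F₁ ∧ r = r' := by
  obtain ⟨k, hk⟩ := card_subfield_le_pow h
  rw [h1, hk, ← pow_mul] at h2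
  have h3 := Nat.pow_right_injective (two_le_card F₀) h2
  have h4 : k = 1 := by
    rcases (Nat.dvd_prime hr).1 ⟨r', h3⟩ with h | h
    · exact h
    · rw [h] at h3
      have := hr'.two_le
      have := hr.two_le
      nlinarith
  rw [h4, pow_one] at hk
  rw [h4, one_mul] at h3
  refine ⟨SetLike.ext' (Set.eq_of_subset_of_ncard_le h (le_of_eq hk)), h3⟩

lemma res_subfield [Fintype F] {F₀ : Subfield F} {P : G3 F} {H : Subgroup (G3 F)}
    (hH : H ≤ specialLinear (Fin 3) F) (hle : subfieldSubgroup F₀ P ⊓ specialLinear (Fin 3) F ≤ H)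
    (hm : Nat.card (H8.ModSc H) = 168 ∨ Nat.card (H8.ModSc H) = 360) :
    H ≤ subfieldSubgroup F₀ P := by
  haveI := Fintype.ofFinite F₀
  let ψ : specialLinear (Fin 3) F₀ →* G3 F := (MulAut.conj P).toMonoidHom.comp
    ((GeneralLinearGroup.map F₀.subtype).comp (specialLinear (Fin 3) F₀).subtype)
  have hψ : ∀ a, (ψ a : M3 F) = cj P (((a : G3 F₀) : M3 F₀).map F₀.subtype) := fun a => rfl
  have h1 : ∀ a, ψ a ∈ subfieldSubgroup F₀ P := fun a =>
    ⟨_, Subgroup.mem_sup_left ⟨a, rfl⟩, rfl⟩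
  have h2 : ∀ a, ψ a ∈ H := fun a => hle ⟨h1 a, (mem_SL_frame (e := e0) (hψ a)).2 (by
    rw [← RingHom.mapMatrix_apply, ← RingHom.map_det, mem_specialLinear_iff.1 a.2, map_one])⟩
  have h3 : Function.Injective ψ := fun a b h => Subtype.ext (Units.ext (by
    have := congrArg Units.val h
    rw [hψ, hψ] at this
    exact Matrix.map_injective F₀.subtype.injective ((cj P).injective this)))
  have h4 := (Subgroup.card_dvd_of_injective (ψ.codRestrict H h2)
    fun a b h => h3 (congrArg Subtype.val h)).trans (card_dvd_three_mul hH)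
  have h5 := H6.El.card_SL_mul (ι := Fin 3) (F := F₀)
  rw [card_GL_field, Fin.prod_univ_three] at h5
  have h6 : 2 ≤ Fintype.card F₀ := Fintype.one_lt_card
  have h7 : Fintype.card F₀ = 2 := by
    by_contra h7
    have h8 : Nat.card (specialLinear (Fin 3) F₀) ≤ 1080 := by
      rcases hm with hm | hm <;> rw [hm] at h4 <;> have := Nat.le_of_dvd (by norm_num) h4 <;> omega
    obtain ⟨s, hs⟩ : ∃ s, Fintype.card F₀ = s + 3 := ⟨Fintype.card F₀ - 3, by omega⟩
    rw [hs] at h5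
    simp only [Fin.val_zero, Fin.val_one, Fin.val_two] at h5
    rw [show (s + 3) ^ 3 - (s + 3) ^ 0 = s ^ 3 + 9 * s ^ 2 + 27 * s + 26 by
        rw [Nat.sub_eq_iff_eq_add (by nlinarith [Nat.zero_le (s ^ 3)])]; ring,
      show (s + 3) ^ 3 - (s + 3) ^ 1 = s ^ 3 + 9 * s ^ 2 + 26 * s + 24 by
        rw [Nat.sub_eq_iff_eq_add (by nlinarith [Nat.zero_le (s ^ 3)])]; ring,
      show (s + 3) ^ 3 - (s + 3) ^ 2 = (s ^ 2 + 6 * s + 9) * (s + 2) by
        rw [Nat.sub_eq_iff_eq_add (by nlinarith [Nat.zero_le (s ^ 3)])]; ring,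
      show s + 3 - 1 = s + 2 from rfl, ← mul_assoc] at h5
    rw [Nat.eq_of_mul_eq_mul_right (by omega) h5] at h8
    have a1 : 26 ≤ s ^ 3 + 9 * s ^ 2 + 27 * s + 26 := by omega
    have a2 : 24 ≤ s ^ 3 + 9 * s ^ 2 + 26 * s + 24 := by omega
    have a3 : 9 ≤ s ^ 2 + 6 * s + 9 := by omega
    have := (Nat.mul_le_mul (Nat.mul_le_mul a1 a2) a3).trans h8
    omega
  rw [h7] at h5
  norm_num at h5
  let ψ' : specialLinear (Fin 3) F₀ →* H8.ModSc H := (QuotientGroup.mk' _).comp (ψ.codRestrict H h2)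
  have h8 : Function.Injective ψ' := (injective_iff_map_eq_one _).2 fun a ha => by
    have h9 := isScal_of_mem_scalars ((QuotientGroup.eq_one_iff (ψ.codRestrict H h2 a)).1 ha :)
    change IsScal (ψ a : M3 F) at h9
    rw [hψ, isScal_cj_iff] at h9
    obtain ⟨c, hc⟩ := h9
    have a0 : (((a : G3 F₀) : M3 F₀) 0 0 : F) = c := by simpa using congrFun (congrFun hc 0) 0
    have a1 : c = 1 := by
      rcases eq_zero_or_one h7 (((a : G3 F₀) : M3 F₀) 0 0) with h | h
      · rw [h] at a0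
        rw [← a0] at hc
        have := mem_specialLinear_iff.1 a.2
        rw [show ((a : G3 F₀) : M3 F₀) = 0 from Matrix.map_injective F₀.subtype.injective
          (by simpa using hc)] at this
        simp at this
      · rw [← a0, h]; rfl
    rw [a1, one_smul] at hc
    exact Subtype.ext (Units.ext (Matrix.map_injective F₀.subtype.injective (by simpa using hc)))
  have h9 := Subgroup.card_dvd_of_injective ψ' h8
  rw [h5] at h9
  have h10 : Nat.card (H8.ModSc H) = 168 := by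
    rcases hm with hm | hm
    · exact hm
    · rw [hm] at h9; norm_num at h9
  have h11 := (h8.bijective_of_nat_card_le (by rw [h5, h10])).2
  intro g hg
  obtain ⟨a, ha⟩ := h11 (QuotientGroup.mk ⟨g, hg⟩)
  have h12 : (ψ a)⁻¹ * g ∈ scalars (Fin 3) F := (QuotientGroup.eq (a := ψ.codRestrict H h2 a)).1 ha
  rw [← mul_inv_cancel_left (ψ a) g]
  refine mul_mem (h1 a) ⟨_, Subgroup.mem_sup_right h12, ?_⟩
  change P * _ * P⁻¹ = _
  rw [← scalars_comm h12, mul_inv_cancel_right]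

end Cfsg.Agent.H7
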