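import Cfsg.Agent.H7.M3D
import Cfsg.Agent.H6.Sub
import Cfsg.Agent.S5775

/-! The geometric maximal subgroups of `SL₃(q)`, given the residual ones. -/

set_option autoImplicit false
set_option linter.unusedSectionVars false
set_option linter.unusedVariables false
set_option linter.unnecessarySimpa false
set_option linter.style.haveILetI false
set_option linter.unusedSimpArgs false

namespace Cfsg.Agent.H7

open Cfsg Cfsg.Geo Matrix
open scoped MatrixGroups Kronecker commutatorElement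

variable {F : Type*} [Field F] [Fintype F]

local notation "SL3" => specialLinear (Fin 3) F

lemma quadSim_eq {Q : (Fin 3 → F) → F} (hQ : IsNondegenerateQuadraticForm Q) (h2 : (2 : F) ≠ 0) :
    quadSimilarityGroup Q = similarityGroup (QuadraticMap.polar Q) :=
  le_antisymm (quadSimilarityGroup_le_polar Q) (similarityGroup_polar_le hQ h2)

lemma exists_q_of_unitary {σ : F ≃+* F} {f : (Fin 3 → F) → (Fin 3 → F) → F}
    (hf : IsUnitaryForm σ f) : ∃ q, Fintype.card F = q ^ 2 ∧ ∀ x, (σ : F →+* F) x = x ^ q :=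
  exists_pow_of_invol hf.involutive (by
    by_contra h
    push Not at h
    exact hf.ne_refl (RingEquiv.ext h))

lemma three_ne_zero_of_mod {p : ℕ} (h : (p : F) = 0) (h3 : p % 3 ≠ 0) : (3 : F) ≠ 0 := fun h0 => by
  have h1 : ((p % 3 : ℕ) : F) = 0 := by
    have := congrArg (Nat.cast : ℕ → F) (Nat.mod_add_div p 3)
    rw [Nat.cast_add, Nat.cast_mul, h, Nat.cast_ofNat, h0, zero_mul, add_zero] at this
    exact this
  have : p % 3 = 1 ∨ p % 3 = 2 := by omega
  rcases this with h2 | h2 <;> rw [h2] at h1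
  · simp at h1
  · exact one_ne_zero (α := F) (by rw [Nat.cast_ofNat] at h1; linear_combination h0 - h1)

lemma two_ne_zero_of_prime {p : ℕ} (h : (p : F) = 0) (hp : p.Prime) (h2 : p ≠ 2) :
    (2 : F) ≠ 0 := fun h0 => by
  obtain ⟨k, rfl⟩ := hp.odd_of_ne_two h2
  simp [h0] at h

lemma not_prime_pow {p s r : ℕ} (hp : p.Prime) (hr : 2 ≤ r) (h : p = s ^ r) : False := by
  have := Nat.Prime.eq_one_of_pow (h ▸ hp)
  omega

/-- the residual possibilities -/
def ResCase (H : Subgroup (G3 F)) : Prop :=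
  (11 ≤ Fintype.card F ∧ Nat.card (H8.ModSc H) = 168) ∨
    ((Fintype.card F = 4 ∨ 19 ≤ Fintype.card F) ∧
      Nonempty (H8.ModSc H ≃* alternatingGroup (Fin 6)))

lemma sl_max (hres : H8.ResSL3 F) {M : Subgroup (G3 F)} (hne : ¬ SL3 ≤ M) (h1 : Irr (M ⊓ SL3))
    (h2 : 5 ≤ Fintype.card F → ∀ D : Fin 3 → Submodule F (Fin 3 → F), IsMDecomposition 1 D →
      M ⊓ SL3 ≤ decompositionStabilizer D ⊓ SL3 → decompositionStabilizer D ⊓ SL3 ≤ M ⊓ SL3)
    (h3 : ∀ K, IsFieldSubalgebra 3 K →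
      M ⊓ SL3 ≤ subalgebraNormalizer K ⊓ SL3 → subalgebraNormalizer K ⊓ SL3 ≤ M ⊓ SL3)
    (h4 : ∀ (F₁ : Subfield F) r P, r.Prime → Fintype.card F = Nat.card F₁ ^ r →
      M ⊓ SL3 ≤ subfieldSubgroup F₁ P ⊓ SL3 → subfieldSubgroup F₁ P ⊓ SL3 ≤ M ⊓ SL3)
    (h5 : ∀ p R ω x y, p.Prime → Fintype.card F = p → p % 3 = 1 → ExR R ω x y →
      M ⊓ SL3 ≤ subgroupNormalizer R ⊓ SL3 → subgroupNormalizer R ⊓ SL3 ≤ M ⊓ SL3)
    (h6 : ∀ f, (2 : F) ≠ 0 → HForm (RingHom.id F) 1 f →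
      M ⊓ SL3 ≤ similarityGroup f ⊓ SL3 → similarityGroup f ⊓ SL3 ≤ M ⊓ SL3)
    (h7 : ∀ σ f q, Fintype.card F = q ^ 2 → (∀ x, σ x = x ^ q) → HForm σ 1 f →
      M ⊓ SL3 ≤ similarityGroup f ⊓ SL3 → similarityGroup f ⊓ SL3 ≤ M ⊓ SL3)
    (h8 : ∀ H ≤ SL3, ResCase H → M ⊓ SL3 ≤ H → H ≤ M ⊓ SL3) : IsMaximalIn SL3 (M ⊓ SL3) := by
  refine max_of_cases inf_le_right (fun h => hne (h.trans inf_le_left)) fun H hH hle => ?_
  rcases S5775.result H hH with ⟨W, a, b, rfl⟩ | ⟨a, D, b, rfl⟩ | ⟨a, K, b, rfl⟩ |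
    ⟨F₁, r, P, a, b, rfl⟩ | ⟨p, R, a, b, c, d, rfl⟩ | ⟨a, Q, b, rfl⟩ | ⟨σ, f, a, rfl⟩ | h
  · exact absurd (hle.trans inf_le_left) (h1.not_le_stab a b)
  · exact h2 a D b hle
  · exact h3 K b hle
  · exact h4 F₁ r P a b hle
  · obtain ⟨ω, x, y, h⟩ := exists_exR (three_ne_zero_of_mod (natCast_card_eq_zero b) (by omega))
      (absIrr_iff.2 d.absIrred) d.symplecticType
    exact h5 p R ω x y a b c h hle
  · rw [quadSim_eq b (two_ne_zero_of_odd a)] at hle ⊢
    exact h6 _ (two_ne_zero_of_odd a) (hform_of_symmetric (isSymmetricForm_polar b)) hle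
  · obtain ⟨q, h1, h2⟩ := exists_q_of_unitary a
    exact h7 _ f q h1 h2 (hform_of_unitary a) hle
  · exact h8 H hH.1.le (hres H hH h) hle

lemma ResCase.card {H : Subgroup (G3 F)} (h : ResCase H) :
    (11 ≤ Fintype.card F ∧ Nat.card (H8.ModSc H) = 168) ∨
    ((Fintype.card F = 4 ∨ 19 ≤ Fintype.card F) ∧ Nat.card (H8.ModSc H) = 360) :=
  h.imp id fun h => ⟨h.1, card_modSc_A6 h.2⟩

lemma inF_SL {X : M3 F} (h : X.det = 1) : InF e0 1 SL3 X :=
  inF_of (by rw [h]; exact one_ne_zero) fun g hg => (mem_SL_frame hg).2 h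

lemma inF_mono {e : Fin 3 ≃ Fin 3} {P : G3 F} {G : Subgroup (G3 F)} {X : M3 F}
    (h : InF e P G X) (s : Equiv.Perm (Fin 3)) (hs : ∀ x y, x ≠ s y → X x y = 0) :
    InF e P (decompositionStabilizer (blockSub e P id) ⊓ G) X :=
  let ⟨g, hg, h⟩ := h
  ⟨g, ⟨inF_decomp h s hs, hg⟩, h⟩

lemma dM_mono (a b : F) : ∀ x y, x ≠ (1 : Equiv.Perm (Fin 3)) y → dM a b x y = 0 := by
  intro x y h
  fin_cases x <;> fin_cases y <;> first | rfl | exact (h rfl).elim

lemma yM_mono : ∀ x y, x ≠ finRotate 3 y → yM F x y = 0 := by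
  intro x y h
  fin_cases x <;> fin_cases y <;> first | rfl | exact (h rfl).elim

lemma wM_mono : ∀ x y, x ≠ Equiv.swap (0 : Fin 3) 2 y → wM F x y = 0 := by
  intro x y h
  fin_cases x <;> fin_cases y <;> first | rfl | exact (h rfl).elim

lemma exists_blockSub {D : Fin 3 → Submodule F (Fin 3 → F)} (hD : IsMDecomposition 1 D) :
    ∃ (e : Fin 3 ≃ Fin 3) (P : G3 F), D = blockSub e P id := by
  choose v hv hv0 using IsMDecomposition.exists_ne_zero hD
  obtain ⟨e, P, -, h, -⟩ := IsMDecomposition.exists_mono hD hv hv0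
  exact ⟨e, P, h⟩

lemma sq_dvd_le {n m : ℕ} (h : n ^ 2 ∣ 3 * m) (hm : m = 168 ∨ m = 360) : n ∣ 6 := by
  have : n ≤ 32 := by
    by_contra h1
    have := Nat.le_of_dvd (by omega) h
    have : 33 ^ 2 ≤ n ^ 2 := Nat.pow_le_pow_left (by omega) 2
    omega
  rcases hm with rfl | rfl <;> interval_cases n <;> omega

lemma sl_frame (hres : H8.ResSL3 F) (hq : 5 ≤ Fintype.card F)
    (D : Fin 3 → Submodule F (Fin 3 → F)) (hD : IsMDecomposition 1 D) :
    IsMaximalIn SL3 (decompositionStabilizer D ⊓ SL3) := by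
  obtain ⟨e, P, rfl⟩ := exists_blockSub hD
  have k : ∀ X : M3 F, X.det = 1 → InF e P SL3 X := fun X h =>
    inF_of (by rw [h]; exact one_ne_zero) fun g hg => (mem_SL_frame hg).2 h
  have hd : ∀ a b : Fˣ, InF e P _ (dM (a : F) b) := fun a b =>
    inF_mono (k _ (dM_det a.ne_zero b.ne_zero)) _ (dM_mono _ _)
  have ht : ∀ a : Fˣ, InF e P _ (tM (a : F)) := fun a => dM_one (a : F) ▸ hd a 1
  have hy := inF_mono (k _ yM_det) _ yM_mono
  have hw := inF_mono (k _ wM_det) _ wM_mono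
  obtain ⟨a, -, ha⟩ := exists_sq_ne_one (⊤ : Subgroup Fˣ) (by rw [card_top_units]; omega)
  refine sl_max hres (SL_not_le_decomp (by simp) hD) (irr_of_ty a.ne_zero ha (ht a) hy)
    (fun _ D' hD' hle => ?_) (fun K hK hle => ?_) (fun F₁ r P₁ hr h1 hle => ?_)
    (fun p R ω x y hp h1 h2 hR hle => ?_) (fun f h2 hf hle => ?_) (fun σ f q h1 hσ hf hle => ?_)
    (fun H hH h hle => ?_)
  · obtain ⟨e', P', rfl⟩ := exists_blockSub hD'
    refine le_of_frames (e := e) (e' := e') (P := P) (P' := P') (fun X => ?_) hle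
    rw [Subgroup.mem_inf, Subgroup.mem_inf, mem_decomp_frame_iff, mem_decomp_frame_iff,
      mem_SL_frame (frameGL_val e P X), mem_SL_frame (frameGL_val e' P' X)]
  · exact absurd (hle.trans inf_le_left) (not_le_field_of_sq hw wM_sq not_scal_wM hK)
  · have h2 := card_le_of_tM (F₁ := F₁) ⊤ (fun a _ => ht a) fun g hg => sub_trace (hle hg).1
    rw [card_top_units] at h2
    have h3 := two_le_card F₁
    have h4 := Nat.pow_le_pow_right (by omega : 0 < Nat.card F₁) hr.two_le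
    have h5 : Nat.card F₁ = 2 := by
      by_contra h5
      have : 3 * Nat.card F₁ ≤ Nat.card F₁ ^ 2 := by nlinarith [show 3 ≤ Nat.card F₁ by omega]
      omega
    rw [h5] at h1 h2
    have h6 : Fintype.card F = 5 := by omega
    exact (not_prime_pow (p := 5) (by norm_num) hr.two_le (h6.symm.trans h1)).elim
  · exact absurd (hle.trans inf_le_left) (hR.not_le_of_klein (two_ne_zero_of_prime
      (natCast_card_eq_zero h1) hp (by omega)) (ht (-1)) hw)
  · exact absurd (hle.trans inf_le_left) (not_sim_of_ty hf.toSesq a.ne_zero ha (ht a) hy)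
  · have h2 := card_le_of_tM (F₁ := fixField σ) ⊤ (fun a _ => ht a) fun g hg =>
      sim_real hf (hle hg).1
    rw [card_top_units, card_fixField_q h1 hσ] at h2
    have h5 : q ≤ 2 := by
      by_contra h5
      have : 3 * q ≤ q ^ 2 := by nlinarith
      omega
    nlinarith
  · have h1 := ((card_sq_dvd ⊤ fun a _ b _ => hd a b).trans (Subgroup.card_dvd_of_le hle)).trans
      (card_dvd_three_mul hH)
    rw [card_top_units] at h1
    have h2 := Nat.le_of_dvd (by norm_num) (sq_dvd_le h1 (h.card.imp And.right And.right))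
    rcases h.card with h | h <;> omega

lemma fld_dvd {K : Subalgebra F (M3 F)} (hK : IsFieldSubalgebra 3 K) {θ : G3 F}
    (hθ : (θ : M3 F) ∈ K) (hd : (θ : M3 F).det = 1) {k : ℕ} {v : Fin 3 → F} {c : F} (hv : v ≠ 0)
    (h : ((θ ^ k : G3 F) : M3 F) *ᵥ v = c • v) : orderOf θ ∣ 3 * k :=
  orderOf_dvd_of_pow_eq_one (pow_three_of_scal hd (fld_eigen hK (by
    rw [Units.val_pow_eq_pow_val]; exact K.pow_mem hθ k) hv h))

lemma sl_field (hres : H8.ResSL3 F) (hq : Fintype.card F ≠ 4) (K : Subalgebra F (M3 F))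
    (hK : IsFieldSubalgebra 3 K) : IsMaximalIn SL3 (subalgebraNormalizer K ⊓ SL3) := by
  have h2 : 2 ≤ Fintype.card F := Fintype.one_lt_card
  obtain ⟨θ, hθ, hd, ho⟩ := fld_singer hK (a := Fintype.card F - 1)
    (N := Fintype.card F ^ 2 + Fintype.card F + 1) (by
      obtain ⟨s, hs⟩ := Nat.exists_eq_add_of_le' (by omega : 1 ≤ Fintype.card F)
      rw [hs, eq_comm, Nat.sub_eq_iff_eq_add (Nat.one_le_pow _ _ (by omega)), Nat.add_sub_cancel]
      ring) dvd_rfl
  have hm : θ ∈ subalgebraNormalizer K ⊓ SL3 := ⟨mem_norm_of_mem hK hθ, mem_specialLinear_iff.2 hd⟩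
  have h18 : ¬ orderOf θ ∣ 18 := fun h => by
    rw [ho] at h
    have := Nat.le_of_dvd (by norm_num) h
    have h3 : Fintype.card F ≤ 3 := by nlinarith
    generalize Fintype.card F = q at *
    interval_cases q <;> omega
  have hs : ∀ k, k ∣ 6 → ¬ IsScal ((θ ^ k : G3 F) : M3 F) := fun k hk h =>
    h18 ((orderOf_dvd_of_pow_eq_one (pow_three_of_scal hd h)).trans (Nat.mul_dvd_mul_left 3 hk))
  have hs1 : ¬ IsScal (θ : M3 F) := by simpa using hs 1 (one_dvd _)
  refine sl_max hres (not_le_field_of_sq (inF_SL wM_det) wM_sq not_scal_wM hK) (fld_irr hK hm hθ hs1)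
    (fun _ D' hD' hle => ?_) (fun K' hK' hle => ?_) (fun F₁ r P₁ hr h1 hle => ?_)
    (fun p R ω x y hp h1 h2 hR hle => ?_) (fun f h2 hf hle => ?_) (fun σ f q h1 hσ hf hle => ?_)
    (fun H hH h hle => ?_)
  · obtain ⟨v, c, hv, h⟩ := decomp_eigen hD' (hle hm).1
    exact absurd (fld_dvd hK hθ hd hv h) h18
  · rw [fld_eq hK hK' (by rw [Units.val_pow_eq_pow_val]; exact K.pow_mem hθ 6)
      (fld_pow_six hK' (hle hm).1) (hs 6 dvd_rfl)]
  · exfalso
    obtain ⟨k, k1, k3, h⟩ := fld_sub hK hθ hd (hle hm).1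
    have h3 := two_le_card F₁
    generalize Nat.card F₁ = s at *
    have h4 : 1 < s ^ k := Nat.one_lt_pow (by omega) h3
    have h5 := Nat.le_of_dvd (by omega) (orderOf_dvd_of_pow_eq_one h)
    have h6 := Nat.pow_le_pow_right (by omega : 0 < s) k3
    rw [ho] at h5
    rcases hr.eq_two_or_odd' with rfl | h7
    · have h8 : s ≠ 2 := fun h => hq (by rw [h1, h]; rfl)
      have : 3 * s ^ 3 ≤ (s ^ 2) ^ 2 := by
        rw [show (s ^ 2) ^ 2 = s * s ^ 3 by ring]
        exact Nat.mul_le_mul_right _ (by omega)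
      rw [h1] at h5
      omega
    · have h8 : s ^ 3 ≤ Fintype.card F := by
        rw [h1]
        exact Nat.pow_le_pow_right (by omega) (by have := hr.two_le; obtain ⟨_, _⟩ := h7; omega)
      have h9 : 2 ^ 3 ≤ s ^ 3 := Nat.pow_le_pow_left h3 3
      nlinarith [Nat.sub_le (s ^ k) 1]
  · exfalso
    obtain ⟨k, k1, k9, h⟩ := hR.pigeon (hle hm).1 hR.hx
    obtain ⟨v, c, hv, h⟩ := hR.pair.eigen h
    have h3 := fld_dvd hK hθ hd hv h
    rw [ho, h1] at h3
    have h4 := Nat.le_of_dvd (by omega) h3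
    have h5 : p ≤ 8 := by nlinarith
    have h6 : p = 7 := by
      interval_cases p <;> simp_all (config := {decide := true})
    subst h6
    interval_cases k <;> omega
  · obtain ⟨v, c, hv, h⟩ := sim_eigen hf.toSesq (hle hm).1 hd
    exact absurd (fld_eigen hK hθ hv h) hs1
  · exfalso
    obtain ⟨μ, m1, m2, m3⟩ := hf.sim_law (hle hm).1 hd
    rw [hσ] at m2 m3
    have h3 := fld_unit hK hθ hd h1 m1 m2 m3
    simp only [← orderOf_dvd_iff_pow_eq_one, ho, h1] at h3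
    have h4 : 3 ≤ q := by
      have := two_le_q h1
      have : q ≠ 2 := fun h => hq (by rw [h1, h]; rfl)
      omega
    have h5 : 3 * q ≤ q ^ 2 := by nlinarith
    have h6 : 3 * q ^ 2 ≤ q ^ 3 := by nlinarith
    have h7 : 3 * q ^ 3 ≤ q ^ 4 := by nlinarith
    rw [← pow_mul, show 2 * 2 = 4 from rfl] at h3
    rcases h3 with h3 | h3 | h3 | h3
    · have := Nat.le_of_dvd (by omega) h3
      omega
    · have h8 := (Nat.dvd_sub (dvd_mul_left _ 3) h3)
      have := Nat.le_of_dvd (by omega) h8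
      omega
    · have := Nat.le_of_dvd (by omega) h3
      omega
    · have := Nat.le_of_dvd (by omega) h3
      omega
  · exfalso
    have h1 := (Subgroup.orderOf_dvd_natCard H (hle hm)).trans (card_dvd_three_mul hH)
    rw [ho] at h1
    have h3 := h.card
    generalize Fintype.card F = q at *
    rcases h3 with ⟨h3, h4⟩ | ⟨h3, h4⟩ <;> rw [h4] at h1 <;> have := Nat.le_of_dvd (by norm_num) h1
    · have : q ≤ 22 := by nlinarith
      interval_cases q <;> omega
    · have : q ≤ 33 := by nlinarith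
      interval_cases q <;> omega

lemma sl_subfield (hres : H8.ResSL3 F) (F₀ : Subfield F) (r : ℕ) (P : G3 F) (hr : r.Prime)
    (hF : Fintype.card F = Nat.card F₀ ^ r) : IsMaximalIn SL3 (subfieldSubgroup F₀ P ⊓ SL3) := by
  have k : ∀ X : M3 F, Rat F₀ X → X.det = 1 → InF e0 P (subfieldSubgroup F₀ P ⊓ SL3) X :=
    fun X hX h => inF_of (by rw [h]; exact one_ne_zero) fun g hg =>
      ⟨(mem_subfield_frame_iff hg).2 ⟨1, one_ne_zero, by rwa [one_smul]⟩, (mem_SL_frame hg).2 h⟩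
  have hU : HasU e0 P (subfieldSubgroup F₀ P ⊓ SL3) F₀ := fun c hc => ⟨0, 1, fun _ => one_ne_zero,
    k _ (fun i j => by fin_cases i <;> fin_cases j <;> simp [hc]) (by simp [det_fin_three])⟩
  have hw := k _ (fun i j => by fin_cases i <;> fin_cases j <;> simp [wM]) wM_det
  have hc := k !![0, 0, 1; 1, 0, 0; 0, 1, 1] (fun i j => by fin_cases i <;> fin_cases j <;> simp)
    (by simp [det_fin_three])
  refine sl_max hres (SL_not_le_subfield (by simp) hr hF P) (irr_of_unip hU hw)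
    (fun _ D' hD' hle => ?_) (fun K' hK' hle => ?_) (fun F₁ r' P₁ hr' h1 hle => ?_)
    (fun p R ω x y hp h1 h2 hR hle => ?_) (fun f h2 hf hle => ?_) (fun σ f q h1 hσ hf hle => ?_)
    (fun H hH h hle => ?_)
  · obtain ⟨a, ha, ha'⟩ := k !![1, 1, 0; 0, 1, 0; 0, 0, 1]
      (fun i j => by fin_cases i <;> fin_cases j <;> simp) (by simp [det_fin_three])
    obtain ⟨b, hb, hb'⟩ := k !![1, 0, 0; 0, 1, 1; 0, 0, 1]
      (fun i j => by fin_cases i <;> fin_cases j <;> simp) (by simp [det_fin_three])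
    obtain ⟨T, hT, hT'⟩ := k !![1, 0, 1; 0, 1, 0; 0, 0, 1]
      (fun i j => by fin_cases i <;> fin_cases j <;> simp) (by simp [det_fin_three])
    refine absurd (decomp_comm_tv hD' (hle ha).1 (hle hb).1 (Units.ext ?_) (sq_of_TM hT').1)
      ((sq_of_TM hT').2 one_ne_zero)
    simp only [Units.val_mul, ha', hb', hT', ← map_mul (frameEquiv e0 P)]
    congr 1
    ext i j
    fin_cases i <;> fin_cases j <;> simp [mul_apply, Fin.sum_univ_three]
  · exact absurd (hle.trans inf_le_left) (not_le_field_of_sq hw wM_sq not_scal_wM hK')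
  · obtain ⟨rfl, -⟩ := subfield_eq_of_le (hU.le_subfield (hle.trans inf_le_left)) hr hr' hF h1
    refine le_of_frames (e := e0) (e' := e0) (P := P) (P' := P₁) (fun X => ?_) hle
    rw [Subgroup.mem_inf, Subgroup.mem_inf, mem_subfield_frame_iff (frameGL_val e0 P X),
      mem_subfield_frame_iff (frameGL_val e0 P₁ X), mem_SL_frame (frameGL_val e0 P X),
      mem_SL_frame (frameGL_val e0 P₁ X)]
  · exact (not_prime_pow hp hr.two_le (h1.symm.trans hF)).elim
  · exact absurd (hle.trans inf_le_left) (not_sim_of_comp hf.toSesq hc)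
  · exact absurd (hle.trans inf_le_left) (not_sim_of_comp hf.toSesq hc)
  · exact le_inf (res_subfield hH hle (h.card.imp And.right And.right)) hH

lemma ExR.irr {R : Subgroup (G3 F)} (h : ActsAbsolutelyIrreducibly (matrixSet R))
    {M : Subgroup (G3 F)} (hle : R ≤ M) : Irr M := (absIrr_iff.2 h).1.mono hle

lemma sl_extra (hres : H8.ResSL3 F) (p : ℕ) (R : Subgroup (G3 F)) (hp : p.Prime)
    (hF : Fintype.card F = p) (h3 : p % 3 = 1) (hR : IsLinearSymplecticTypeData 3 R) :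
    IsMaximalIn SL3 (subgroupNormalizer R ⊓ SL3) := by
  obtain ⟨ω, x, y, h⟩ := exists_exR (three_ne_zero_of_mod (natCast_card_eq_zero hF) (by omega))
    (absIrr_iff.2 hR.absIrred) hR.symplecticType
  have h2 := two_ne_zero_of_prime (natCast_card_eq_zero hF) hp (by omega)
  obtain ⟨e, P, hx, hy⟩ := h.pair.frame
  have hle0 : R ≤ subgroupNormalizer R ⊓ SL3 := fun z hz =>
    ⟨Subgroup.le_normalizer hz, mem_specialLinear_iff.2 (h.det_eq hx hy hz)⟩
  have hd := sM_det h.pair.h3 h.pair.hω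
  have hs : InF e P (subgroupNormalizer R ⊓ SL3) (sM ω) :=
    inF_of (by rw [hd.1]; exact one_ne_zero) fun g hg => ⟨h.sM_mem hx hy hg, (mem_SL_frame hg).2 hd.1⟩
  have hs' : InF e P (subgroupNormalizer R ⊓ SL3) (sM' ω) :=
    inF_of (by rw [hd.2]; exact one_ne_zero) fun g hg => ⟨h.sM'_mem hx hy hg, (mem_SL_frame hg).2 hd.2⟩
  refine sl_max hres (h.not_le_of_klein h2 (inF_SL (tM_det (by simp))) (inF_SL wM_det))
    (ExR.irr hR.absIrred hle0)
    (fun _ D' hD' hle => ?_) (fun K' hK' hle => ?_) (fun F₁ r' P₁ hr' h1 hle => ?_)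
    (fun p' R' ω' x' y' hp' h1 h2 hR' hle => ?_) (fun f h2 hf hle => ?_)
    (fun σ f q h1 hσ hf hle => ?_) (fun H hH h' hle => ?_)
  · exact absurd (hle.trans inf_le_left) (h.not_le_decomp hx hy hle0 hs hD')
  · exact absurd (hle.trans inf_le_left) (not_le_field_of_sq
      (sM_sq h.pair.h3 h.pair.hω ▸ hs.mul hs) zM_sq not_scal_zM hK')
  · exact (not_prime_pow hp hr'.two_le (hF.symm.trans h1)).elim
  · obtain ⟨x', y', hR'⟩ := hR'.change h.pair.hω
    obtain ⟨e', P', hx', hy'⟩ := hR'.pair.frame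
    refine le_of_frames (e := e) (e' := e') (P := P) (P' := P') (fun X => ?_) hle
    rw [Subgroup.mem_inf, Subgroup.mem_inf, h.norm_iff hx hy hR' hx' hy',
      mem_SL_frame (frameGL_val e P X), mem_SL_frame (frameGL_val e' P' X)]
  · exact absurd (sub_eq_zero.2 (sim_scal_comm hf.toSesq (hle (hle0 h.hx)).1 (hle (hle0 h.hy)).1
      h.pair.ne_zero h.pair.xy)) h.pair.sq_ne_one
  · exact (not_prime_pow hp le_rfl (hF.symm.trans h1)).elim
  · exfalso
    rcases h' with ⟨-, h1⟩ | ⟨-, h1⟩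
    · have h4 := (Subgroup.card_dvd_of_le (hle0.trans hle)).trans (card_dvd_three_mul hH)
      obtain ⟨_, _, -, -, ⟨-, -, -, m, hm, h5⟩ | ⟨h5, -⟩ | ⟨h5, -⟩⟩ := hR.field
      · rw [h1, h5] at h4
        have := (pow_dvd_pow 3 (by omega : 3 ≤ 1 + 2 * m)).trans h4
        omega
      · omega
      · omega
    · exact not_A6_of_sM h.pair.h3 h.pair.hω (hs.mono hle) (hs'.mono hle) h1

lemma full_sim {σ : F →+* F} {f : (Fin 3 → F) → (Fin 3 → F) → F} (hf : Sesq σ f) {P : G3 F}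
    {d : F} (hd : d ≠ 0) (hG : frameGram f e0 P = d • jM F) :
    Full σ e0 P (similarityGroup f ⊓ SL3) ⊤ := fun X _ h1 h2 =>
  inF_of (by rw [h2]; exact one_ne_zero) fun g hg =>
    ⟨(hf.mem_sim_frame hd hG hg).2 ⟨1, by rw [h1, one_smul]⟩, (mem_SL_frame hg).2 h2⟩

lemma sim_le_of_frames {σ : F →+* F} {f f' : (Fin 3 → F) → (Fin 3 → F) → F} (hf : Sesq σ f)
    (hf' : Sesq σ f') {P P' : G3 F} {d d' : F} (hd : d ≠ 0) (hG : frameGram f e0 P = d • jM F)
    (hd' : d' ≠ 0) (hG' : frameGram f' e0 P' = d' • jM F)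
    (hle : similarityGroup f ⊓ SL3 ≤ similarityGroup f' ⊓ SL3) :
    similarityGroup f' ⊓ SL3 ≤ similarityGroup f ⊓ SL3 := by
  refine le_of_frames (e := e0) (e' := e0) (P := P) (P' := P') (fun X => ?_) hle
  rw [Subgroup.mem_inf, Subgroup.mem_inf, hf.mem_sim_frame hd hG (frameGL_val e0 P X),
    hf'.mem_sim_frame hd' hG' (frameGL_val e0 P' X), mem_SL_frame (frameGL_val e0 P X),
    mem_SL_frame (frameGL_val e0 P' X)]

lemma HasU.top_res {e : Fin 3 ≃ Fin 3} {P : G3 F} {H : Subgroup (G3 F)} (hU : HasU e P H ⊤)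
    (h : ResCase H) : Fintype.card F = 4 ∧ Nonempty (H8.ModSc H ≃* alternatingGroup (Fin 6)) := by
  have h1 := hU.dvd_modSc
  rw [card_top_subfield] at h1
  have h2 := FiniteField.isPrimePow_card F
  rcases h with ⟨h3, h4⟩ | ⟨h3 | h3, h4⟩
  · exact absurd (h4 ▸ h1) (not_dvd_168 h2 h3)
  · exact ⟨h3, h4⟩
  · exact absurd (card_modSc_A6 h4 ▸ h1) (not_dvd_360 h2 (by omega))

lemma sl_orth (hres : H8.ResSL3 F) (hq : Odd (Fintype.card F)) (Q : (Fin 3 → F) → F)
    (hQ : IsNondegenerateQuadraticForm Q) : IsMaximalIn SL3 (quadSimilarityGroup Q ⊓ SL3) := by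
  have h2 := two_ne_zero_of_odd hq
  rw [quadSim_eq hQ h2]
  have hf := hform_of_symmetric (isSymmetricForm_polar hQ)
  generalize QuadraticMap.polar Q = f at hf
  obtain ⟨P, d, hd, hG⟩ := hyp_sym hf h2
  have hF := full_sim hf.toSesq hd hG
  have hU := hF.hasU (fun _ => rfl) fun d _ _ => ⟨d / 2, trivial, by
    rw [RingHom.id_apply]; field_simp; ring⟩
  refine sl_max hres (SL_not_le_sim (by simp) hf.toSesq) (irr_of_unip hU hF.wM)
    (fun h5 D' hD' hle => ?_) (fun K' hK' hle => ?_) (fun F₁ r' P₁ hr' h1 hle => ?_)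
    (fun p' R' ω' x' y' hp' h1 h3 hR' hle => ?_) (fun f' _ hf' hle => ?_)
    (fun σ f' q h1 hσ hf' hle => ?_) (fun H hH h' hle => ?_)
  · have := hU.dvd_six hD' (hle.trans inf_le_left)
    rw [card_top_subfield] at this
    exact absurd this (not_dvd_six (FiniteField.isPrimePow_card F) (by omega))
  · exact absurd (hle.trans inf_le_left) (not_le_field_of_sq hF.wM wM_sq not_scal_wM hK')
  · exact absurd (top_le_iff.1 (hU.le_subfield (hle.trans inf_le_left)))
      (ne_top_of_card_pow hr'.two_le h1)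
  · exact absurd (hle.trans inf_le_left) (hR'.not_le_of_klein h2
      (hF.tM (by simp) rfl trivial) hF.wM)
  · obtain ⟨P', d', hd', hG'⟩ := hyp_sym hf' h2
    exact sim_le_of_frames hf.toSesq hf'.toSesq hd hG hd' hG' hle
  · have h3 := card_le_of_tM (F₁ := fixField σ) ⊤ (fun a _ => hF.tM a.ne_zero rfl trivial)
      fun g hg => sim_real hf' (hle hg).1
    rw [card_top_units, card_fixField_q h1 hσ] at h3
    have h4 := two_le_q h1
    obtain ⟨k, rfl⟩ := (odd_card_iff_q h1).1 hq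
    have : 3 * (2 * k + 1) ≤ (2 * k + 1) ^ 2 := by nlinarith [show 1 ≤ k by omega]
    omega
  · rw [((hU.mono hle).top_res h').1] at hq
    exact absurd hq (by decide)

lemma sl_unit (hres : H8.ResSL3 F) (σ' : F ≃+* F) (f : (Fin 3 → F) → (Fin 3 → F) → F)
    (hf' : IsUnitaryForm σ' f) : IsMaximalIn SL3 (similarityGroup f ⊓ SL3) := by
  obtain ⟨q, hq, hσ⟩ := exists_q_of_unitary hf'
  have hf := hform_of_unitary hf'
  generalize (σ' : F →+* F) = σ at hf hσ
  have hne := qHom_ne hq hσ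
  have h2q := two_le_q hq
  obtain ⟨P, d, hd, hG⟩ := hyp_unit hf hne
  have hF := full_sim hf.toSesq hd hG
  have hU := hF.hasU hf.invol fun d _ hd =>
    let ⟨μ, h⟩ := exists_trace_eq hf.invol hne hd; ⟨μ, trivial, h⟩
  refine sl_max hres (SL_not_le_sim (by simp) hf.toSesq) (irr_of_unip hU hF.wM)
    (fun h5 D' hD' hle => ?_) (fun K' hK' hle => ?_) (fun F₁ r' P₁ hr' h1 hle => ?_)
    (fun p' R' ω' x' y' hp' h1 h3 hR' hle => ?_) (fun f' _ hf' hle => ?_)
    (fun σ' f' q' h1 hσ' hf' hle => ?_) (fun H hH h' hle => ?_)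
  · have := hU.dvd_six hD' (hle.trans inf_le_left)
    rw [card_top_subfield] at this
    exact absurd this (not_dvd_six (FiniteField.isPrimePow_card F) (by omega))
  · exact absurd (hle.trans inf_le_left) (not_le_field_of_sq hF.wM wM_sq not_scal_wM hK')
  · exact absurd (top_le_iff.1 (hU.le_subfield (hle.trans inf_le_left)))
      (ne_top_of_card_pow hr'.two_le h1)
  · exact (not_prime_pow hp' le_rfl (h1.symm.trans hq)).elim
  · obtain ⟨e, P', hG'⟩ := hf.exists_on_frame hq hσ (n := 3) (by simp)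
    obtain ⟨A, hA, hA'⟩ := exists_norm_one hq hσ
    obtain ⟨a, ha, ha'⟩ := exists_sq_ne_one A (by omega)
    have k : ∀ X : M3 F, tw σ 1 X = 1 → X.det = 1 → InF e P' (similarityGroup f ⊓ SL3) X :=
      fun X h1 h2 => inF_of (by rw [h2]; exact one_ne_zero) fun g hg =>
        ⟨(hf.toSesq.mem_sim_frame one_ne_zero (hG'.trans (one_smul _ _).symm) hg).2
          ⟨1, by rw [h1, one_smul]⟩, (mem_SL_frame hg).2 h2⟩
    exact absurd (hle.trans inf_le_left) (not_sim_of_ty hf'.toSesq a.ne_zero ha'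
      (k _ (dM_one (a : F) ▸ tw_dM (hA' a ha) (by simp)) (tM_det a.ne_zero)) (k _ tw_yM yM_det))
  · obtain rfl : q = q' := Nat.pow_left_injective two_ne_zero (hq.symm.trans h1)
    obtain rfl : σ = σ' := RingHom.ext fun x => (hσ x).trans (hσ' x).symm
    obtain ⟨P', d', hd', hG'⟩ := hyp_unit hf' hne
    exact sim_le_of_frames hf.toSesq hf'.toSesq hd hG hd' hG' hle
  · exfalso
    obtain ⟨h4, h6⟩ := (hU.mono hle).top_res h'
    obtain rfl : q = 2 := Nat.pow_left_injective two_ne_zero (hq.symm.trans h4)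
    have h0 : (2 : F) = 0 := by
      have := natCast_card_eq_zero h4
      exact mul_self_eq_zero.1 (by rw [← this]; norm_num)
    obtain ⟨ω, hω⟩ := exists_trace_eq hf.invol hne (map_one σ)
    rw [hσ] at hω
    obtain ⟨a, ha, ha'⟩ := hF _ (fun _ _ => trivial) (tw_uM hf.invol (c := 1) (b := ω)
      (by simp only [hσ]; grind)) (by simp [det_fin_three])
    obtain ⟨b, hb, hb'⟩ := hF _ (fun _ _ => trivial) (tw_uM hf.invol (c := ω) (b := ω)
      (by simp only [hσ]; grind)) (by simp [det_fin_three])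
    refine not_A6_of_q8 (hle ha) (hle hb) (c := 1) (d := 1) ?_ ?_ ?_ h6 <;>
      simp only [ha', hb', ← map_mul (frameEquiv e0 P), one_smul, isScal_frameEquiv_iff, hσ]
    · congr 1
      ext i j
      fin_cases i <;> fin_cases j <;> simp [mul_apply, Fin.sum_univ_three] <;> grind
    · congr 1
      ext i j
      fin_cases i <;> fin_cases j <;> simp [mul_apply, Fin.sum_univ_three] <;> grind
    · refine not_scal_of (i := 0) (j := 2) (by decide) ?_
      simp [mul_apply, Fin.sum_univ_three]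
      grind

theorem sl3_geom_max (hres : H8.ResSL3 F) :
    (∀ W : Submodule F (Fin 3 → F), W ≠ ⊥ → W ≠ ⊤ → Cfsg.Geo.IsMaximalIn (Cfsg.Geo.specialLinear (Fin 3) F) (Cfsg.Geo.subspaceStabilizer W ⊓ Cfsg.Geo.specialLinear (Fin 3) F)) ∧
    (5 ≤ Fintype.card F → ∀ D : Fin 3 → Submodule F (Fin 3 → F), Cfsg.Geo.IsMDecomposition 1 D → Cfsg.Geo.IsMaximalIn (Cfsg.Geo.specialLinear (Fin 3) F) (Cfsg.Geo.decompositionStabilizer D ⊓ Cfsg.Geo.specialLinear (Fin 3) F)) ∧
    (Fintype.card F ≠ 4 → ∀ K : Subalgebra F (Matrix (Fin 3) (Fin 3) F), Cfsg.Geo.IsFieldSubalgebra 3 K → Cfsg.Geo.IsMaximalIn (Cfsg.Geo.specialLinear (Fin 3) F) (Cfsg.Geo.subalgebraNormalizer K ⊓ Cfsg.Geo.specialLinear (Fin 3) F)) ∧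
    (∀ (F₀ : Subfield F) (r : ℕ) (P : Matrix.GeneralLinearGroup (Fin 3) F), r.Prime → Fintype.card F = Nat.card F₀ ^ r → Cfsg.Geo.IsMaximalIn (Cfsg.Geo.specialLinear (Fin 3) F) (Cfsg.Geo.subfieldSubgroup F₀ P ⊓ Cfsg.Geo.specialLinear (Fin 3) F)) ∧
    (∀ (p : ℕ) (R : Subgroup (Matrix.GeneralLinearGroup (Fin 3) F)), p.Prime → Fintype.card F = p → p % 3 = 1 → Cfsg.Geo.IsLinearSymplecticTypeData 3 R → Cfsg.Geo.IsMaximalIn (Cfsg.Geo.specialLinear (Fin 3) F) (Cfsg.Geo.subgroupNormalizer R ⊓ Cfsg.Geo.specialLinear (Fin 3) F)) ∧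
    (Odd (Fintype.card F) → ∀ Q : (Fin 3 → F) → F, Cfsg.Geo.IsNondegenerateQuadraticForm Q → Cfsg.Geo.IsMaximalIn (Cfsg.Geo.specialLinear (Fin 3) F) (Cfsg.Geo.quadSimilarityGroup Q ⊓ Cfsg.Geo.specialLinear (Fin 3) F)) ∧
    (∀ (σ : F ≃+* F) (f : (Fin 3 → F) → (Fin 3 → F) → F), Cfsg.Geo.IsUnitaryForm σ f → Cfsg.Geo.IsMaximalIn (Cfsg.Geo.specialLinear (Fin 3) F) (Cfsg.Geo.similarityGroup f ⊓ Cfsg.Geo.specialLinear (Fin 3) F)) :=
  ⟨H6.sub_maximal, sl_frame hres, sl_field hres, sl_subfield hres, sl_extra hres, sl_orth hres,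
    sl_unit hres⟩

end Cfsg.Agent.H7
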