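import Cfsg.Agent.H7.M3SL
import Cfsg.Agent.S5778

/-! The geometric maximal subgroups of `SU₃(q)`, given the residual ones. -/

set_option autoImplicit false
set_option linter.unusedSectionVars false
set_option linter.unusedVariables false
set_option linter.unnecessarySimpa false
set_option linter.style.haveILetI false
set_option linter.unusedSimpArgs false

namespace Cfsg.Agent.H7

open Cfsg Cfsg.Geo Matrix
open scoped MatrixGroups Kronecker commutatorElement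

variable {F : Type*} [Field F] [Fintype F]

lemma exists_q0 {q s r : ℕ} (h : q ^ 2 = s ^ r) (hr : Odd r) (hs : 2 ≤ s) :
    ∃ q₀, 2 ≤ q₀ ∧ q = q₀ ^ r ∧ s = q₀ ^ 2 := by
  obtain ⟨c, h1, h2⟩ := Nat.exists_eq_pow_of_exponent_coprime_of_pow_eq_pow
    (Nat.coprime_two_left.2 hr) h
  refine ⟨c, ?_, h1, h2⟩
  by_contra h3
  have : c ^ 2 ≤ 1 ^ 2 := Nat.pow_le_pow_left (by omega) 2
  omega

lemma three_le_of_odd {r : ℕ} (hr : r.Prime) (h : Odd r) : 3 ≤ r := by
  have := hr.two_le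
  obtain ⟨_, _⟩ := h
  omega

section SU

variable {q : ℕ} (hF : Fintype.card F = q ^ 2) (hq : 3 ≤ q) {σ : F →+* F} (hσ : ∀ x, σ x = x ^ q)
  (hf : HForm σ 1 (hermForm 3 F q)) (hres : H8.ResSU3 F q)

local notation "hh" => hermForm 3 F q
local notation "SU3" => SUf (hermForm 3 F q)

/-- the residual possibilities -/
def ResU (q : ℕ) (H : Subgroup (G3 F)) : Prop :=
  q.Prime ∧ H8.NoTv H ∧ (q = 5 ∨ ((q = 3 ∨ 13 ≤ q) ∧ Nat.card (H8.ModSc H) = 168) ∨
    (11 ≤ q ∧ Nonempty (H8.ModSc H ≃* alternatingGroup (Fin 6))))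

include hF in
lemma charP_of_prime (hp : q.Prime) : CharP F q := by
  have h0 := natCast_card_eq_zero hF
  rw [Nat.cast_pow] at h0
  haveI := Fact.mk hp
  exact (CharP.charP_iff_prime_eq_zero hp).2 (eq_zero_of_pow_eq_zero h0)

include hF hq hσ hf hres in
lemma su_max {M : Subgroup (G3 F)} (hne : ¬ SU3 ≤ M)
    (h1 : ∀ W, W ≠ ⊥ → IsTotallySingularFor hh W →
      M ⊓ SU3 ≤ subspaceStabilizer W ⊓ SU3 → subspaceStabilizer W ⊓ SU3 ≤ M ⊓ SU3)
    (h2 : ∀ W, W ≠ ⊥ → IsNondegenerateOn hh W → 2 * Module.finrank F W < 3 →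
      M ⊓ SU3 ≤ subspaceStabilizer W ⊓ SU3 → subspaceStabilizer W ⊓ SU3 ≤ M ⊓ SU3)
    (h3 : ∀ D : Fin 3 → Submodule F (Fin 3 → F), IsNondegenerateMDecomposition hh 1 D →
      M ⊓ SU3 ≤ decompositionStabilizer D ⊓ SU3 → decompositionStabilizer D ⊓ SU3 ≤ M ⊓ SU3)
    (h4 : ∀ K, IsFieldSubalgebra 3 K →
      M ⊓ SU3 ≤ subalgebraNormalizer K ⊓ SU3 → subalgebraNormalizer K ⊓ SU3 ≤ M ⊓ SU3)
    (h5 : ∀ (F₁ : Subfield F) r P, r.Prime → Odd r → Fintype.card F = Nat.card F₁ ^ r →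
      IsFormRationalStructure hh F₁ 1 P →
      M ⊓ SU3 ≤ subfieldSubgroup F₁ P ⊓ SU3 → subfieldSubgroup F₁ P ⊓ SU3 ≤ M ⊓ SU3)
    (h6 : ∀ (F₁ : Subfield F) P, (2 : F) ≠ 0 → Fintype.card F = Nat.card F₁ ^ 2 →
      IsFormRationalStructure hh F₁ 1 P →
      M ⊓ SU3 ≤ subfieldSubgroup F₁ P ⊓ SU3 → subfieldSubgroup F₁ P ⊓ SU3 ≤ M ⊓ SU3)
    (h7 : ∀ R ω x y, q.Prime → q % 3 = 2 → 11 ≤ q → ExR R ω x y → R ≤ similarityGroup hh →
      M ⊓ SU3 ≤ subgroupNormalizer R ⊓ SU3 → subgroupNormalizer R ⊓ SU3 ≤ M ⊓ SU3)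
    (h8 : ∀ H ≤ specialLinear (Fin 3) F, ResU q H → ¬ M ⊓ SU3 ≤ H) : IsMaximalIn SU3 (M ⊓ SU3) := by
  refine max_of_cases inf_le_right (fun h => hne (h.trans inf_le_left)) fun H hH hle => ?_
  rcases S5778.result q hF hq H hH with ⟨W, a, b, rfl⟩ | ⟨W, a, b, c, rfl⟩ | ⟨a, D, b, rfl⟩ |
    ⟨-, -, K, b, -, rfl⟩ | ⟨F₁, r, P, a, b, c, d, rfl⟩ | ⟨a, -, F₁, P, b, c, rfl⟩ |
    ⟨p, R, a, rfl, b, c, d, d', d'', -, -, rfl⟩ | h
  · exact h1 W a b hle
  · exact h2 W a b c hle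
  · exact h3 D b hle
  · exact h4 K b hle
  · exact h5 F₁ r P a b c d hle
  · exact h6 F₁ P (two_ne_zero_of_odd ((odd_card_iff_q hF).2 a)) b c hle
  · haveI := charP_of_prime hF a
    obtain ⟨ω, x, y, h⟩ := exists_exR (three_ne_zero_of_mod (CharP.cast_eq_zero F q) (by omega))
      (absIrr_iff.2 d') d
    exact h7 R ω x y a b c h d'' hle
  · exact absurd hle (h8 H (hH.1.le.trans inf_le_right) (hres H hH h))

include hf in
lemma Irr.su_ts {M : Subgroup (G3 F)} (h : Irr M) {W : Submodule F (Fin 3 → F)} (h0 : W ≠ ⊥)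
    (hW : IsTotallySingularFor hh W) : ¬ M ≤ subspaceStabilizer W ⊓ SU3 := fun hle =>
  h.not_le_stab h0 (by
    rintro rfl
    obtain ⟨⟨x, hx⟩, -⟩ := hf.nondeg (Pi.single 0 1) (by simp)
    exact hx (hW _ trivial _ trivial)) (hle.trans inf_le_left)

lemma Irr.su_nd {M : Subgroup (G3 F)} (h : Irr M) {W : Submodule F (Fin 3 → F)} (h0 : W ≠ ⊥)
    (hW : 2 * Module.finrank F W < 3) : ¬ M ≤ subspaceStabilizer W ⊓ SU3 := fun hle =>
  h.not_le_stab h0 (by
    rintro rfl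
    simp at hW) (hle.trans inf_le_left)

include hf in
lemma inF_SU {e : Fin 3 ≃ Fin 3} {P : G3 F} {J : M3 F} {d : F} (hd : d ≠ 0)
    (hG : frameGram hh e P = d • J) {X : M3 F} (h1 : tw σ J X = J) (h2 : X.det = 1) :
    InF e P SU3 X :=
  inF_of (by rw [h2]; exact one_ne_zero) fun g hg => (hf.toSesq.mem_SUf_frame hd hG hg).2 ⟨h1, h2⟩

lemma inF_stab {e : Fin 3 ≃ Fin 3} {P : G3 F} {G : Subgroup (G3 F)} {X : M3 F} (h : InF e P G X)
    {W : Submodule F (Fin 3 → F)} {i : Fin 3} (hu : frameVec e P (Pi.single i 1) ∈ W)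
    (hW : ∀ v ∈ W, ∃ c : F, v = c • frameVec e P (Pi.single i 1))
    (hX : ∀ j, j ≠ i → X j i = 0) : InF e P (subspaceStabilizer W ⊓ G) X := by
  obtain ⟨g, hg, h⟩ := h
  refine ⟨g, ⟨mem_stab_line hu hW (a := X i i) ?_, hg⟩, h⟩
  rw [h, frameEquiv_mulVec, ← map_smul]
  congr 1
  ext j
  by_cases hj : j = i
  · simp [hj]
  · simp [hj, hX]

include hf in
lemma not_mem_nd {e : Fin 3 ≃ Fin 3} {P : G3 F} {d : F} (hG : frameGram hh e P = d • jM F)
    {W : Submodule F (Fin 3 → F)} (h1 : IsNondegenerateOn hh W) (h2 : 2 * Module.finrank F W < 3) :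
    frameVec e P (Pi.single 0 1) ∉ W := fun h => by
  obtain ⟨⟨x, hx, h3⟩, -⟩ := h1 _ h (by simp)
  obtain ⟨c, rfl⟩ := line_of_finrank h2 h (by simp) x hx
  rw [hf.smul_left, ← frameGram_apply (f := hermForm 3 F q), hG] at h3
  simp [jM] at h3

include hF hq hσ hf hres in
lemma su_ts (W : Submodule F (Fin 3 → F)) (h0 : W ≠ ⊥) (hW : IsTotallySingularFor hh W) :
    IsMaximalIn SU3 (subspaceStabilizer W ⊓ SU3) := by
  have hne := qHom_ne hF hσ
  obtain ⟨u, hu, hu0⟩ := Submodule.exists_mem_ne_zero_of_ne_bot h0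
  obtain ⟨P, d, hd, h1, hG⟩ := hyp_of_iso hf (fun d => exists_trace_eq hf.invol hne) hu0 (hW _ hu _ hu)
  have h2 : frameVec e0 P (Pi.single 0 1) ∈ W := h1 ▸ W.smul_mem d hu
  have h3 := ts_line hf.toSesq hd hG hW h2
  have k : ∀ X : M3 F, tw σ (jM F) X = jM F → X.det = 1 → X 1 0 = 0 → X 2 0 = 0 →
      InF e0 P (subspaceStabilizer W ⊓ SU3) X := fun X a b c c' =>
    inF_stab (inF_SU hf hd hG a b) h2 h3 fun j hj => by fin_cases j <;> simp_all
  have hU : HasU e0 P (subspaceStabilizer W ⊓ SU3) ⊤ := fun c _ => by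
    obtain ⟨b, hb⟩ := exists_trace_eq hf.invol hne (d := -(c * σ c))
      (by rw [map_neg, map_mul, hf.invol, mul_comm])
    exact ⟨b, -σ c, fun h => by simpa using h, k _ (tw_uM hf.invol (by rw [hb, neg_add_cancel]))
      (by simp [det_fin_three]) rfl rfl⟩
  obtain ⟨ζ, hζ0, hζ⟩ := exists_trace_zero hf.invol hne
  have hT := k _ (tw_TM hζ) (by simp [det_fin_three]) rfl rfl
  have hm : ∀ W' : Submodule F (Fin 3 → F), W' ≠ ⊥ → subspaceStabilizer W ⊓ SU3 ≤
      subspaceStabilizer W' ⊓ SU3 → frameVec e0 P (Pi.single 0 1) ∈ W' := fun W' h0' hle => by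
    obtain ⟨b, d', hd', h⟩ := hU 1 trivial
    exact mem_of_unip one_ne_zero (hd' one_ne_zero) h
      (fun g hg v hv => (mem_subspaceStabilizer_iff.1 (hle hg).1 v).1 hv) h0'
  refine su_max hF hq hσ hf hres (SU_not_le_stab hF hσ hf (by simp) h0 (by
      rintro rfl
      obtain ⟨⟨x, hx⟩, -⟩ := hf.nondeg (Pi.single 0 1) (by simp)
      exact hx (hW _ trivial _ trivial)))
    (fun W' a b hle => ?_) (fun W' a b c hle => ?_) (fun D hD hle => ?_) (fun K hK hle => ?_)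
    (fun F₁ r P₁ a b c _ hle => ?_) (fun F₁ P₁ _ a _ hle => ?_) (fun R ω x y a b c hR _ hle => ?_)
    (fun H _ h => not_le_of_noTv hζ0 hT h.2.1)
  · rw [eq_of_line h2 (hm W' a hle) h3 (ts_line hf.toSesq hd hG b (hm W' a hle))]
  · exact absurd (hm W' a hle) (not_mem_nd hf hG b c)
  · have := hU.dvd_six hD.decomp (hle.trans inf_le_left)
    rw [card_top_subfield] at this
    exact absurd this (not_dvd_six (FiniteField.isPrimePow_card F) (by nlinarith))
  · refine absurd (hle.trans inf_le_left) ?_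
    by_cases h2 : (2 : F) = 0
    · refine not_le_field_of_sq hT ?_ (not_scal_of (i := 0) (j := 2) (by decide) hζ0) hK
      ext i j
      fin_cases i <;> fin_cases j <;> simp [mul_apply, Fin.sum_univ_three]
      linear_combination ζ * h2
    · refine not_le_field_of_sq (k _ (tw_tM (a := -1) (by simp) (by simp)) (tM_det (by simp)) rfl rfl)
        (by simpa using tM_inv (a := (-1 : F)) (by simp)) ?_ hK
      rintro ⟨c, hc⟩
      have a0 := congrFun (congrFun hc 0) 0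
      have a1 := congrFun (congrFun hc 1) 1
      simp [tM] at a0 a1
      exact h2 (by linear_combination a1 - a0)
  · exact absurd (top_le_iff.1 (hU.le_subfield (hle.trans inf_le_left)))
      (ne_top_of_card_pow a.two_le c)
  · exact absurd (top_le_iff.1 (hU.le_subfield (hle.trans inf_le_left)))
      (ne_top_of_card_pow le_rfl a)
  · haveI := charP_of_prime hF a
    exact absurd (hle.trans inf_le_left) (not_le_of_noTv hζ0 hT (hR.noTv a c))

include hF hq hσ hf hres in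
lemma su_nd (W : Submodule F (Fin 3 → F)) (h0 : W ≠ ⊥) (hW : IsNondegenerateOn hh W)
    (hW' : 2 * Module.finrank F W < 3) : IsMaximalIn SU3 (subspaceStabilizer W ⊓ SU3) := by
  have hne := qHom_ne hF hσ
  obtain ⟨w, hw, hw0⟩ := Submodule.exists_mem_ne_zero_of_ne_bot h0
  have h3 := line_of_finrank hW' hw hw0
  have hww : hh w w ≠ 0 := by
    obtain ⟨⟨x, hx, h⟩, -⟩ := hW w hw hw0
    obtain ⟨c, rfl⟩ := h3 x hx
    rw [hf.smul_left] at h
    exact right_ne_zero_of_mul h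
  obtain ⟨u, hu, hu0, huu⟩ := hf.exists_iso_of_pair hF hσ (U := perp hf.toSesq W) (by
    have := card_le_finrank_add_perp hf.toSesq W
    rw [Fintype.card_fin] at this
    omega)
  obtain ⟨v, a1, a2, a3⟩ := hyp_partner hf (fun d => exists_trace_eq hf.invol hne) hu0 huu
    (hu w hw) (Or.inr hww)
  obtain ⟨hd, P, -, h1, hG⟩ := hyp_frame hf huu a1 a2 (hu w hw) a3 hw0
  generalize hh w w = d at hd hG
  subst h1
  have k : ∀ X : M3 F, tw σ (jM F) X = jM F → X.det = 1 → X 0 1 = 0 → X 2 1 = 0 →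
      InF e0 P (subspaceStabilizer W ⊓ SU3) X := fun X a b c c' =>
    inF_stab (inF_SU hf hd hG a b) hw h3 fun j hj => by fin_cases j <;> simp_all
  obtain ⟨ζ, hζ0, hζ⟩ := exists_trace_zero hf.invol hne
  have hT' : ∀ b, σ b = b → InF e0 P _ !![1, 0, b * ζ; 0, 1, 0; 0, 0, 1] := fun b hb =>
    k _ (tw_TM (by rw [map_mul, hb, ← mul_add, hζ, mul_zero])) (by simp [det_fin_three]) rfl rfl
  have hT := k _ (tw_TM hζ) (by simp [det_fin_three]) rfl rfl
  have hwM := k _ tw_wM wM_det rfl rfl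
  refine su_max hF hq hσ hf hres (SU_not_le_stab hF hσ hf (by simp) h0 (by
      rintro rfl
      simp at hW'))
    (fun W' a b hle => ?_) (fun W' a b c hle => ?_) (fun D hD hle => ?_) (fun K hK hle => ?_)
    (fun F₁ r P₁ a b c _ hle => ?_) (fun F₁ P₁ h2 a b hle => ?_) (fun R ω x y a b c hR _ hle => ?_)
    (fun H _ h => not_le_of_noTv hζ0 hT h.2.1)
  · exfalso
    rcases inv_of_TM hζ0 hT hwM (hle.trans inf_le_left) a with ⟨h4, h5⟩ | h4
    · have := b _ h4 _ h5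
      rw [← frameGram_apply (f := hermForm 3 F q), hG] at this
      simp [jM, hd] at this
    · have := b _ h4 _ h4
      rw [← frameGram_apply (f := hermForm 3 F q), hG] at this
      simp [jM, hd] at this
  · rcases inv_of_TM hζ0 hT hwM (hle.trans inf_le_left) a with ⟨h4, h5⟩ | h4
    · exact absurd h4 (not_mem_nd hf hG b c)
    · rw [eq_of_line hw h4 h3 (line_of_finrank c h4 hw0)]
  · exfalso
    obtain ⟨b, b1, b2, b3⟩ := exists_fixed_ne hF hσ hq
    obtain ⟨s, hs, hs'⟩ := hT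
    obtain ⟨t, ht, ht'⟩ := hT' b b1
    have h4 : ((s * t : G3 F) : M3 F) = frameEquiv e0 P !![1, 0, (b + 1) * ζ; 0, 1, 0; 0, 0, 1] := by
      rw [Units.val_mul, hs', ht', ← map_mul (frameEquiv e0 P)]
      congr 1
      ext i j
      fin_cases i <;> fin_cases j <;> simp [mul_apply, Fin.sum_univ_three]
      ring
    exact decomp_three_tv hD.decomp (hle hs).1 (hle ht).1 (sq_of_TM hs').1 (sq_of_TM ht').1
      (sq_of_TM h4).1 ((sq_of_TM hs').2 hζ0) ((sq_of_TM ht').2 (mul_ne_zero b2 hζ0))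
      ((sq_of_TM h4).2 (mul_ne_zero (fun h => b3 (eq_neg_of_add_eq_zero_left h)) hζ0))
  · exact absurd (hle.trans inf_le_left) (not_le_field_of_sq hwM wM_sq not_scal_wM hK)
  · exfalso
    have k2 : ∀ b, σ b = b → Rat F₁ (b • cj P₁⁻¹ (frameEquiv e0 P !![0, 0, ζ; 0, 0, 0; 0, 0, 0])) :=
      fun b hb => by
        obtain ⟨t, ht, ht'⟩ := hT' b hb
        have := (sub_unip (hle ht).1 (by rw [pow_succ, pow_two, (sq_of_TM ht').1, zero_mul])).sub
          (rat_one _)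
        rw [ht', ← map_one (cj P₁⁻¹), ← map_one (frameEquiv e0 P), ← map_sub, ← map_sub] at this
        convert this using 1
        rw [← map_smul, ← map_smul]
        congr 2
        ext i j
        fin_cases i <;> fin_cases j <;> simp [one_apply]
    have k3 := k2 1 (map_one σ)
    rw [one_smul] at k3
    have h4 : fixField σ ≤ F₁ := fun b hb => k3.mem_of_smul (by
      rw [Ne, map_eq_zero_iff _ (cj _).injective, map_eq_zero_iff _ (frameEquiv e0 P).injective]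
      intro h
      exact hζ0 (congrFun (congrFun h 0) 2)) (k2 b hb)
    have := (subfield_eq_of_le h4 Nat.prime_two a (by rw [card_fixField_q hF hσ, hF]) c).2
    have := three_le_of_odd a b
    omega
  · obtain ⟨B, hB, h⟩ := exists_sym_of_rat hF hσ hf a b
    exact absurd (hle.trans h) (not_le_of_noTv hζ0 hT (sim_noTv hB h2))
  · haveI := charP_of_prime hF a
    exact absurd (hle.trans inf_le_left) (not_le_of_noTv hζ0 hT (hR.noTv a c))

include hF hq hσ hf hres in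
lemma su_frame (h5 : q ≠ 5) (D : Fin 3 → Submodule F (Fin 3 → F))
    (hD : IsNondegenerateMDecomposition hh 1 D) :
    IsMaximalIn SU3 (decompositionStabilizer D ⊓ SU3) := by
  obtain ⟨e, P, hG, rfl, -⟩ := hf.mono_on hF hσ hD
  have hG' := hG.trans (one_smul F _).symm
  obtain ⟨A, hA, hA'⟩ := exists_norm_one hF hσ
  have hd : ∀ a b : F, a * σ a = 1 → b * σ b = 1 → InF e P _ (dM a b) := fun a b ha hb =>
    inF_mono (inF_SU hf one_ne_zero hG' (tw_dM ha hb) (dM_det (left_ne_zero_of_mul_eq_one ha)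
      (left_ne_zero_of_mul_eq_one hb))) _ (dM_mono _ _)
  have ht : ∀ a : F, a * σ a = 1 → InF e P _ (tM a) := fun a ha => dM_one a ▸ hd a 1 ha (by simp)
  have hy := inF_mono (inF_SU hf one_ne_zero hG' tw_yM yM_det) _ yM_mono
  have hw := inF_mono (inF_SU hf one_ne_zero hG' tw_one_wM wM_det) _ wM_mono
  obtain ⟨a, ha, ha'⟩ := exists_sq_ne_one A (by omega)
  have hirr := irr_of_ty a.ne_zero ha' (ht a (hA' a ha)) hy
  refine su_max hF hq hσ hf hres (SU_not_le_decomp hF hσ hf (by simp) (by omega) hD)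
    (fun W' a b hle => absurd hle (hirr.su_ts hf a b))
    (fun W' a b c hle => absurd hle (hirr.su_nd a c)) (fun D' hD' hle => ?_) (fun K hK hle => ?_)
    (fun F₁ r P₁ a b c _ hle => ?_) (fun F₁ P₁ h2 a b hle => ?_) (fun R ω x y a b c hR _ hle => ?_)
    (fun H hH h hle => ?_)
  · obtain ⟨e', P', hG₁, rfl, -⟩ := hf.mono_on hF hσ hD'
    refine le_of_frames (e := e) (e' := e') (P := P) (P' := P') (fun X => ?_) hle
    rw [Subgroup.mem_inf, Subgroup.mem_inf, mem_decomp_frame_iff, mem_decomp_frame_iff,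
      hf.toSesq.mem_SUf_frame one_ne_zero hG' (frameGL_val e P X),
      hf.toSesq.mem_SUf_frame one_ne_zero (hG₁.trans (one_smul F _).symm) (frameGL_val e' P' X)]
  · exact absurd (hle.trans inf_le_left) (not_le_field_of_sq hw wM_sq not_scal_wM hK)
  · exfalso
    have h2 := card_le_of_tM (F₁ := F₁) A (fun a ha => ht a (hA' a ha)) fun g hg =>
      sub_trace (hle hg).1
    obtain ⟨q₀, h3, h4, h6⟩ := exists_q0 (hF.symm.trans c) b (two_le_card F₁)
    have h7 := Nat.pow_le_pow_right (by omega : 0 < q₀) (three_le_of_odd a b)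
    have h8 : 2 * q₀ ^ 2 ≤ q₀ ^ 3 := by nlinarith
    omega
  · obtain ⟨B, hB, h⟩ := exists_sym_of_rat hF hσ hf a b
    exact absurd (hle.trans h) (not_sim_of_ty hB.toSesq (Units.ne_zero _) ha' (ht _ (hA' _ ha)) hy)
  · haveI := charP_of_prime hF a
    exact absurd (hle.trans inf_le_left) (hR.not_le_of_klein (two_ne_zero_of_prime
      (CharP.cast_eq_zero F q) a (by omega)) (ht (-1) (by simp)) hw)
  · have h1 := ((card_sq_dvd A fun a ha b hb => hd a b (hA' a ha) (hA' b hb)).trans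
      (Subgroup.card_dvd_of_le hle)).trans (card_dvd_three_mul hH)
    rw [hA] at h1
    have h2 := sq_dvd_le h1 (by
      rcases h.2.2 with h | h | h
      exacts [absurd h h5, Or.inl h.2, Or.inr (card_modSc_A6 h.2)])
    have := Nat.le_of_dvd (by norm_num) h2
    have h3 : q = 3 ∨ q = 4 := by omega
    rcases h3 with rfl | rfl <;> omega

include hF hq hσ hf hres in
lemma su_field (h3 : q ≠ 3) (h5 : q ≠ 5) (K : Subalgebra F (M3 F)) (hK : IsFieldSubalgebra 3 K)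
    (hadj : IsAdjointClosedFor hh K) : IsMaximalIn SU3 (subalgebraNormalizer K ⊓ SU3) := by
  obtain ⟨t, ht⟩ : ∃ t, q = t + 1 := ⟨q - 1, by omega⟩
  have e1 : q ^ 3 - 1 = t * (t ^ 2 + 3 * t + 3) := by
    rw [ht, Nat.sub_eq_iff_eq_add (Nat.one_le_pow _ _ (by omega))]; ring
  have e2 : q ^ 2 - 1 = t * (t + 2) := by
    rw [ht, Nat.sub_eq_iff_eq_add (Nat.one_le_pow _ _ (by omega))]; ring
  obtain ⟨θ, hθ, hd, ho⟩ := fld_singer hK (a := t * (t + 2) * (t ^ 2 + 3 * t + 3))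
    (N := t ^ 2 + t + 1) (by
      rw [hF, ht, eq_comm, Nat.sub_eq_iff_eq_add (Nat.one_le_pow _ _ (by positivity))]
      ring) (by rw [hF, e2]; exact dvd_mul_right _ _)
  have hi := hf.isom_of_pow hF hσ hK hadj hθ (m := t ^ 2 + t + 1) (by omega) (by
      rw [e1]
      have h1 := Nat.gcd_dvd_left (t ^ 2 + t + 1) (t * (t ^ 2 + 3 * t + 3))
      have h2 := Nat.gcd_dvd_right (t ^ 2 + t + 1) (t * (t ^ 2 + 3 * t + 3))
      have h4 := (Nat.dvd_add_right h2).1 (show _ ∣ t * (t ^ 2 + 3 * t + 3) + 2 by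
        rw [show t * (t ^ 2 + 3 * t + 3) + 2 = (t ^ 2 + t + 1) * (t + 2) by ring]
        exact h1.mul_right _)
      rcases (Nat.dvd_prime Nat.prime_two).1 h4 with h | h
      · exact h
      · rw [h] at h1
        have := (Nat.even_mul_succ_self t).two_dvd
        rw [mul_add, mul_one, ← pow_two] at this
        omega) (c := 1) (by simp)
    (by rw [← ho, ← Units.val_pow_eq_pow_val, pow_orderOf_eq_one, one_smul, Units.val_one])
  have hm : θ ∈ subalgebraNormalizer K ⊓ SU3 := ⟨mem_norm_of_mem hK hθ, mem_SUf.2 ⟨hi, hd⟩⟩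
  have t3 : 3 ≤ t := by omega
  have h18 : ¬ orderOf θ ∣ 18 := fun h => by
    rw [ho] at h
    have := Nat.le_of_dvd (by norm_num) h
    have h3 : t ≤ 3 := by nlinarith
    interval_cases t
    omega
  have hs : ∀ k, k ∣ 6 → ¬ IsScal ((θ ^ k : G3 F) : M3 F) := fun k hk h =>
    h18 ((orderOf_dvd_of_pow_eq_one (pow_three_of_scal hd h)).trans (Nat.mul_dvd_mul_left 3 hk))
  have hs1 : ¬ IsScal (θ : M3 F) := by simpa using hs 1 (one_dvd _)
  have hirr := fld_irr hK hm hθ hs1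
  obtain ⟨P, d, hd0, hG⟩ := hyp_unit hf (qHom_ne hF hσ)
  refine su_max hF hq hσ hf hres
    (not_le_field_of_sq (inF_SU hf hd0 hG tw_wM wM_det) wM_sq not_scal_wM hK)
    (fun W' a b hle => absurd hle (hirr.su_ts hf a b))
    (fun W' a b c hle => absurd hle (hirr.su_nd a c)) (fun D' hD' hle => ?_) (fun K' hK' hle => ?_)
    (fun F₁ r P₁ a b c _ hle => ?_) (fun F₁ P₁ h2 a b hle => ?_) (fun R ω x y a b c hR _ hle => ?_)
    (fun H hH h hle => ?_)
  · obtain ⟨v, c, hv, h⟩ := decomp_eigen hD'.decomp (hle hm).1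
    exact absurd (fld_dvd hK hθ hd hv h) h18
  · rw [fld_eq hK hK' (by rw [Units.val_pow_eq_pow_val]; exact K.pow_mem hθ 6)
      (fld_pow_six hK' (hle hm).1) (hs 6 dvd_rfl)]
  · exfalso
    obtain ⟨k, k1, k3, h⟩ := fld_sub hK hθ hd (hle hm).1
    obtain ⟨s, h2, h4, h6⟩ := exists_q0 (hF.symm.trans c) b (two_le_card F₁)
    rw [← orderOf_dvd_iff_pow_eq_one, ho, h6] at h
    have h7 : 1 < (s ^ 2) ^ k := Nat.one_lt_pow (by omega) (Nat.one_lt_pow (by omega) h2)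
    have h8 := Nat.le_of_dvd (by omega) h
    have h9 : 4 * s ≤ s ^ 3 := by nlinarith
    by_cases hr : r = 3
    · subst hr
      by_cases hk : k = 3
      · subst hk
        rw [← pow_mul, mul_comm 2, pow_mul, ← h4, e2] at h
        have h10 := Nat.dvd_sub h (dvd_mul_left _ 3)
        rw [show 3 * (t * (t + 2)) - 3 * (t ^ 2 + t + 1) = 3 * t - 3 by
          rw [show t * (t + 2) = t ^ 2 + 2 * t by ring]; omega] at h10
        have := Nat.le_of_dvd (by omega) h10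
        have : 3 * t ≤ t ^ 2 := by nlinarith
        omega
      · have h10 := Nat.pow_le_pow_right (by positivity : 0 < s ^ 2) (show k ≤ 2 by omega)
        have h11 : (s ^ 2) ^ 2 = s * (t + 1) := by rw [← ht, h4]; ring
        have h12 : 3 * s ≤ t := by omega
        have : 3 * s * (t + 1) ≤ t * (t + 1) := Nat.mul_le_mul_right _ h12
        nlinarith [Nat.sub_le ((s ^ 2) ^ k) 1]
    · have h10 := Nat.pow_le_pow_right (by positivity : 0 < s ^ 2) k3
      have h11 : s ^ 5 ≤ t + 1 := by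
        rw [← ht, h4]
        exact Nat.pow_le_pow_right (by omega) (by have := three_le_of_odd a b; obtain ⟨_, _⟩ := b; omega)
      have h12 : s ^ 3 ≤ s ^ 5 := Nat.pow_le_pow_right (by omega) (by norm_num)
      have h13 : 3 * s ≤ t := by omega
      have h14 : (s ^ 2) ^ 3 = s * s ^ 5 := by ring
      have : 3 * s * s ^ 5 ≤ t * (t + 1) := Nat.mul_le_mul h13 h11
      nlinarith [Nat.sub_le ((s ^ 2) ^ k) 1]
  · obtain ⟨B, hB, h⟩ := exists_sym_of_rat hF hσ hf a b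
    obtain ⟨v, c, hv, h⟩ := sim_eigen hB.toSesq (h (hle hm)) hd
    exact absurd (fld_eigen hK hθ hv h) hs1
  · exfalso
    obtain ⟨k, k1, k9, h⟩ := hR.pigeon (hle hm).1 hR.hx
    obtain ⟨v, c, hv, h⟩ := hR.pair.eigen h
    have h3 := fld_dvd hK hθ hd hv h
    rw [ho] at h3
    have h4 := Nat.le_of_dvd (by omega) h3
    nlinarith [show 10 ≤ t by omega]
  · have h1 := (Subgroup.orderOf_dvd_natCard H (hle hm)).trans (card_dvd_three_mul hH)
    rw [ho] at h1
    rcases h.2.2 with h | ⟨h, h4⟩ | ⟨h, h4⟩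
    · exact h5 h
    · rw [h4] at h1
      have := Nat.le_of_dvd (by norm_num) h1
      have : t ≤ 22 := by nlinarith
      have : 12 ≤ t := by omega
      interval_cases t <;> omega
    · rw [card_modSc_A6 h4] at h1
      have := Nat.le_of_dvd (by norm_num) h1
      have : t ≤ 33 := by nlinarith
      have : 10 ≤ t := by omega
      interval_cases t <;> omega

include hf in
lemma full_rat {F₀ : Subfield F} {P : G3 F} {d : F} (hd : d ≠ 0)
    (hG : frameGram hh e0 P = d • jM F) : Full σ e0 P (subfieldSubgroup F₀ P ⊓ SU3) F₀ :=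
  fun X hX h1 h2 => inF_of (by rw [h2]; exact one_ne_zero) fun g hg =>
    ⟨(mem_subfield_frame_iff hg).2 ⟨1, one_ne_zero, by rwa [one_smul]⟩,
      (hf.toSesq.mem_SUf_frame hd hG hg).2 ⟨h1, h2⟩⟩

include hf in
lemma rat_le_of_frames {F₀ : Subfield F} {P P' : G3 F} {d d' : F} (hd : d ≠ 0)
    (hG : frameGram hh e0 P = d • jM F) (hd' : d' ≠ 0) (hG' : frameGram hh e0 P' = d' • jM F)
    (hle : subfieldSubgroup F₀ P ⊓ SU3 ≤ subfieldSubgroup F₀ P' ⊓ SU3) :
    subfieldSubgroup F₀ P' ⊓ SU3 ≤ subfieldSubgroup F₀ P ⊓ SU3 := by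
  refine le_of_frames (e := e0) (e' := e0) (P := P) (P' := P') (fun X => ?_) hle
  rw [Subgroup.mem_inf, Subgroup.mem_inf, mem_subfield_frame_iff (frameGL_val e0 P X),
    mem_subfield_frame_iff (frameGL_val e0 P' X),
    hf.toSesq.mem_SUf_frame hd hG (frameGL_val e0 P X),
    hf.toSesq.mem_SUf_frame hd' hG' (frameGL_val e0 P' X)]

include hF hσ in
lemma exists_ne_of_odd {F₀ : Subfield F} {r : ℕ} (hr : Odd r)
    (h : Fintype.card F = Nat.card F₀ ^ r) : ∃ a ∈ F₀, σ a ≠ a := by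
  by_contra h1
  push Not at h1
  obtain ⟨k, hk⟩ := card_subfield_le_pow (F₁ := fixField σ) h1
  rw [hF, ← card_fixField_q hF hσ, hk, ← pow_mul] at h
  have := Nat.pow_right_injective (two_le_card F₀) h
  obtain ⟨_, _⟩ := hr
  omega

include hF hσ hf in
lemma rat_frame_odd {F₀ : Subfield F} {r : ℕ} {P : G3 F} (hr : Odd r)
    (h : Fintype.card F = Nat.card F₀ ^ r) (h1 : IsFormRationalStructure hh F₀ 1 P) :
    ∃ (P' : G3 F) (d : F), d ≠ 0 ∧ frameGram hh e0 P' = d • jM F ∧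
      subfieldSubgroup F₀ P' = subfieldSubgroup F₀ P := by
  obtain ⟨a, ha, ha'⟩ := exists_ne_of_odd hF hσ hr h
  haveI := Fintype.ofFinite F₀
  exact rat_frame hf h1 fun σ₀ h₀ f₀ hf₀ =>
    hyp_unit hf₀ ⟨⟨a, ha⟩, fun h => ha' ((h₀ _).symm.trans (congrArg Subtype.val h))⟩

include hF hσ in
lemma fix_of_two {F₀ : Subfield F} (h : Fintype.card F = Nat.card F₀ ^ 2) :
    Nat.card F₀ = q ∧ ∀ x ∈ F₀, σ x = x := by
  have hq : Nat.card F₀ = q := Nat.pow_left_injective two_ne_zero (h.symm.trans hF)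
  exact ⟨hq, fun x hx => by rw [hσ, ← hq]; exact (mem_subfield_iff_pow F₀ x).1 hx⟩

include hF hσ hf in
lemma rat_frame_two {F₀ : Subfield F} {P : G3 F} (h2 : (2 : F) ≠ 0)
    (h : Fintype.card F = Nat.card F₀ ^ 2) (h1 : IsFormRationalStructure hh F₀ 1 P) :
    ∃ (P' : G3 F) (d : F), d ≠ 0 ∧ frameGram hh e0 P' = d • jM F ∧
      subfieldSubgroup F₀ P' = subfieldSubgroup F₀ P := by
  refine rat_frame hf h1 fun σ₀ h₀ f₀ hf₀ => ?_
  obtain rfl : σ₀ = RingHom.id F₀ :=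
    RingHom.ext fun x => Subtype.ext ((h₀ x).trans ((fix_of_two hF hσ h).2 x x.2))
  exact hyp_sym hf₀ fun h => h2 (congrArg Subtype.val h)

include hF hq hσ hf hres in
lemma su_odd (F₀ : Subfield F) (r : ℕ) (P₀ : G3 F) (hr : r.Prime) (ho : Odd r)
    (h0 : Fintype.card F = Nat.card F₀ ^ r) (h1 : IsFormRationalStructure hh F₀ 1 P₀) :
    IsMaximalIn SU3 (subfieldSubgroup F₀ P₀ ⊓ SU3) := by
  obtain ⟨P, d, hd, hG, h⟩ := rat_frame_odd hF hσ hf ho h0 h1
  rw [← h]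
  have hM := full_rat (F₀ := F₀) hf hd hG
  have hU := hM.hasU hf.invol fun d hd hd' => by
    obtain ⟨a, ha, ha'⟩ := exists_ne_of_odd hF hσ ho h0
    obtain ⟨μ, hμ⟩ := exists_trace_eq (σ := σ.restrict F₀ F₀ fun x hx => ringHom_mem_subfield σ hx)
      (fun a => Subtype.ext (hf.invol a)) ⟨⟨a, ha⟩, fun h => ha' (congrArg Subtype.val h)⟩
      (d := ⟨d, hd⟩) (Subtype.ext hd')
    exact ⟨μ, μ.2, congrArg Subtype.val hμ⟩
  have hirr := irr_of_unip hU hM.wM
  obtain ⟨s, h2, h4, h6⟩ := exists_q0 (hF.symm.trans h0) ho (two_le_card F₀)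
  refine su_max hF hq hσ hf hres
    (SU_not_le_subfield hF hσ hf (by simp) (ne_top_of_card_pow hr.two_le h0) P)
    (fun W' a b hle => absurd hle (hirr.su_ts hf a b))
    (fun W' a b c hle => absurd hle (hirr.su_nd a c)) (fun D' hD' hle => ?_) (fun K' hK' hle => ?_)
    (fun F₁ r P₁ a b c c' hle => ?_) (fun F₁ P₁ h2 a b hle => ?_)
    (fun R ω x y a b c hR _ hle => (not_prime_pow a hr.two_le h4).elim)
    (fun H hH h hle => not_prime_pow h.1 hr.two_le h4)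
  · exact absurd (hU.dvd_six hD'.decomp (hle.trans inf_le_left))
      (not_dvd_six (isPrimePow_card F₀) (by nlinarith))
  · exact absurd (hle.trans inf_le_left) (not_le_field_of_sq hM.wM wM_sq not_scal_wM hK')
  · obtain ⟨rfl, -⟩ := subfield_eq_of_le (hU.le_subfield (hle.trans inf_le_left)) hr a h0 c
    obtain ⟨P', d', hd', hG', h'⟩ := rat_frame_odd hF hσ hf ho h0 c'
    rw [← h'] at hle ⊢
    exact rat_le_of_frames hf hd hG hd' hG' hle
  · have := (subfield_eq_of_le (hU.le_subfield (hle.trans inf_le_left)) hr Nat.prime_two h0 a).2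
    have := three_le_of_odd hr ho
    omega

include hF hq hσ hf hres in
lemma su_two (ho : Odd q) (h7 : 7 ≤ q) (F₀ : Subfield F) (P₀ : G3 F)
    (h0 : Fintype.card F = Nat.card F₀ ^ 2) (h1 : IsFormRationalStructure hh F₀ 1 P₀) :
    IsMaximalIn SU3 (subfieldSubgroup F₀ P₀ ⊓ SU3) := by
  have h2 := two_ne_zero_of_odd ((odd_card_iff_q hF).2 ho)
  obtain ⟨P, d, hd, hG, h⟩ := rat_frame_two hF hσ hf h2 h0 h1
  rw [← h]
  obtain ⟨h3, h4⟩ := fix_of_two hF hσ h0
  have hM := full_rat (F₀ := F₀) hf hd hG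
  have hU := hM.hasU hf.invol fun d hd hd' => by
    have : d / 2 ∈ F₀ := F₀.div_mem hd (ofNat_mem F₀ 2)
    exact ⟨d / 2, this, by rw [h4 _ this]; field_simp; ring⟩
  have hirr := irr_of_unip hU hM.wM
  refine su_max hF hq hσ hf hres
    (SU_not_le_subfield hF hσ hf (by simp) (ne_top_of_card_pow le_rfl h0) P)
    (fun W' a b hle => absurd hle (hirr.su_ts hf a b))
    (fun W' a b c hle => absurd hle (hirr.su_nd a c)) (fun D' hD' hle => ?_) (fun K' hK' hle => ?_)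
    (fun F₁ r P₁ a b c c' hle => ?_) (fun F₁ P₁ h2 a b hle => ?_)
    (fun R ω x y a b c hR _ hle => ?_) (fun H hH h hle => ?_)
  · exact absurd (hU.dvd_six hD'.decomp (hle.trans inf_le_left))
      (not_dvd_six (isPrimePow_card F₀) (by omega))
  · exact absurd (hle.trans inf_le_left) (not_le_field_of_sq hM.wM wM_sq not_scal_wM hK')
  · have := (subfield_eq_of_le (hU.le_subfield (hle.trans inf_le_left)) Nat.prime_two a h0 c).2
    have := three_le_of_odd a b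
    omega
  · obtain ⟨rfl, -⟩ := subfield_eq_of_le (hU.le_subfield (hle.trans inf_le_left)) Nat.prime_two
      Nat.prime_two h0 a
    obtain ⟨P', d', hd', hG', h'⟩ := rat_frame_two hF hσ hf h2 h0 b
    rw [← h'] at hle ⊢
    exact rat_le_of_frames hf hd hG hd' hG' hle
  · exact absurd (hle.trans inf_le_left) (hR.not_le_of_klein h2
      (hM.tM (by simp) (by simp) (by simp)) hM.wM)
  · have h5 := (hU.mono hle).dvd_modSc
    have h6 := isPrimePow_card F₀
    rw [h3] at h5 h6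
    rcases h.2.2 with h | ⟨h, h8⟩ | ⟨h, h8⟩
    · omega
    · exact not_dvd_168 h6 (by omega) (h8 ▸ h5)
    · exact not_dvd_360 h6 h (card_modSc_A6 h8 ▸ h5)

include hF hσ hf in
lemma ExR.su_frame {R : Subgroup (G3 F)} {ω : F} {x y : G3 F} (h : ExR R ω x y) (h3 : q % 3 = 2)
    (hs : R ≤ similarityGroup hh) : R ≤ SU3 ∧ σ ω = ω * ω ∧ ∃ (e : Fin 3 ≃ Fin 3) (P : G3 F),
      frameGram hh e P = (1 : F) • 1 ∧ (x : M3 F) = frameEquiv e P (xM ω) ∧
        (y : M3 F) = frameEquiv e P (yM F) := by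
  have k : ∀ c : F, c ^ 3 = 1 → σ c = c * c := fun c hc => by
    rw [hσ, ← Nat.div_add_mod q 3, pow_add, pow_mul, hc, one_pow, one_mul, h3, pow_two]
  have h1 : R ≤ SU3 := fun z hz => by
    obtain ⟨e, P, hx, hy⟩ := h.pair.frame
    have hd := h.det_eq hx hy hz
    obtain ⟨c, hc⟩ := hs hz
    have h4 := tw_cube hf.toSesq.det_ne_zero hd ((hf.toSesq.sim_iff _ _).1 hc)
    have h5 : σ c = c := Sesq.mult_unique hf.toSesq fun u v => by
      rw [← hc u v, hf.herm1 _ (_ *ᵥ u), hc, map_mul, ← hf.herm1]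
    rw [k _ h4] at h5
    rw [show (c : F) = 1 from mul_right_cancel₀ c.ne_zero (by rw [h5, one_mul])] at hc
    exact mem_SUf.2 ⟨fun u v => by rw [hc, one_mul], hd⟩
  obtain ⟨e, P, h2, hx, hy⟩ := ex3_frame hF hσ hf (by simp) h.pair.h3 h.pair.hω h.pair.x3 h.pair.y3
    h.pair.xy h.pair.traces.1 h.pair.traces.2 (mem_SUf.1 (h1 h.hx)).1 (mem_SUf.1 (h1 h.hy)).1
  exact ⟨h1, k _ h.pair.cube, e, P, h2.trans (one_smul F _).symm, hx, hy⟩

include hF hq hσ hf hres in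
lemma su_extra (p : ℕ) (R : Subgroup (G3 F)) (hp : p.Prime) (hqp : q = p) (h3 : p % 3 = 2)
    (h11 : 11 ≤ p) (hR : IsSymplecticTypeGroup 3 R) (ha : ActsAbsolutelyIrreducibly (matrixSet R))
    (hsim : R ≤ similarityGroup hh) (h27 : Nat.card R = 27)
    (hZ : Nat.card (Subgroup.center R) = 3) : IsMaximalIn SU3 (subgroupNormalizer R ⊓ SU3) := by
  subst hqp
  haveI := charP_of_prime hF hp
  obtain ⟨ω, x, y, h⟩ := exists_exR (three_ne_zero_of_mod (CharP.cast_eq_zero F q) (by omega))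
    (absIrr_iff.2 ha) hR
  obtain ⟨hR', hω, e, P, hG, hx, hy⟩ := h.su_frame hF hσ hf h3 hsim
  have hle0 : R ≤ subgroupNormalizer R ⊓ SU3 := le_inf Subgroup.le_normalizer hR'
  have hd := sM_det h.pair.h3 h.pair.hω
  have ht := sM_tw h.pair.h3 h.pair.hω hω
  have hs : InF e P (subgroupNormalizer R ⊓ SU3) (sM ω) :=
    inF_of (by rw [hd.1]; exact one_ne_zero) fun g hg => ⟨h.sM_mem hx hy hg,
      (hf.toSesq.mem_SUf_frame one_ne_zero hG hg).2 ⟨ht.1, hd.1⟩⟩
  have hs' : InF e P (subgroupNormalizer R ⊓ SU3) (sM' ω) :=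
    inF_of (by rw [hd.2]; exact one_ne_zero) fun g hg => ⟨h.sM'_mem hx hy hg,
      (hf.toSesq.mem_SUf_frame one_ne_zero hG hg).2 ⟨ht.2, hd.2⟩⟩
  have hirr := ExR.irr ha hle0
  refine su_max hF hq hσ hf hres (h.not_le_of_klein (two_ne_zero_of_prime
      (CharP.cast_eq_zero F q) hp (by omega)) (inF_SU hf one_ne_zero hG
        (dM_one (-1 : F) ▸ tw_dM (by simp) (by simp)) (tM_det (by simp)))
        (inF_SU hf one_ne_zero hG tw_one_wM wM_det))
    (fun W' a b hle => absurd hle (hirr.su_ts hf a b))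
    (fun W' a b c hle => absurd hle (hirr.su_nd a c)) (fun D' hD' hle => ?_) (fun K' hK' hle => ?_)
    (fun F₁ r P₁ a b c c' hle => ?_) (fun F₁ P₁ h2 a b hle => ?_)
    (fun R' ω' x' y' a b c hR' hsim' hle => ?_) (fun H hH h' hle => ?_)
  · exact absurd (hle.trans inf_le_left) (h.not_le_decomp hx hy hle0 hs hD'.decomp)
  · exact absurd (hle.trans inf_le_left) (not_le_field_of_sq
      (sM_sq h.pair.h3 h.pair.hω ▸ hs.mul hs) zM_sq not_scal_zM hK')
  · obtain ⟨s, -, h4, -⟩ := exists_q0 (hF.symm.trans c) b (two_le_card F₁)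
    exact (not_prime_pow hp a.two_le h4).elim
  · obtain ⟨B, hB, h'⟩ := exists_sym_of_rat hF hσ hf a b
    exact absurd (sub_eq_zero.2 (sim_scal_comm hB.toSesq (h' (hle (hle0 h.hx)))
      (h' (hle (hle0 h.hy))) h.pair.ne_zero h.pair.xy)) h.pair.sq_ne_one
  · obtain ⟨x', y', hR'⟩ := hR'.change h.pair.hω
    obtain ⟨-, -, e', P', hG', hx', hy'⟩ := hR'.su_frame hF hσ hf h3 hsim'
    refine le_of_frames (e := e) (e' := e') (P := P) (P' := P') (fun X => ?_) hle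
    rw [Subgroup.mem_inf, Subgroup.mem_inf, h.norm_iff hx hy hR' hx' hy',
      hf.toSesq.mem_SUf_frame one_ne_zero hG (frameGL_val e P X),
      hf.toSesq.mem_SUf_frame one_ne_zero hG' (frameGL_val e' P' X)]
  · rcases h'.2.2 with h1 | ⟨-, h1⟩ | ⟨-, h1⟩
    · omega
    · have h4 := (Subgroup.card_dvd_of_le (hle0.trans hle)).trans (card_dvd_three_mul hH)
      rw [h1, h27] at h4
      omega
    · exact not_A6_of_sM h.pair.h3 h.pair.hω (hs.mono hle) (hs'.mono hle) h1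

end SU

theorem su3_geom_max {q : ℕ} (hF : Fintype.card F = q ^ 2) (hq : 3 ≤ q) (hres : H8.ResSU3 F q) :
    (∀ W : Submodule F (Fin 3 → F), W ≠ ⊥ → Cfsg.Geo.IsTotallySingularFor (Cfsg.hermForm 3 F q) W → Cfsg.Geo.IsMaximalIn (Cfsg.GU 3 F q ⊓ Cfsg.Geo.specialLinear (Fin 3) F) (Cfsg.Geo.subspaceStabilizer W ⊓ (Cfsg.GU 3 F q ⊓ Cfsg.Geo.specialLinear (Fin 3) F))) ∧
    (∀ W : Submodule F (Fin 3 → F), W ≠ ⊥ → Cfsg.Geo.IsNondegenerateOn (Cfsg.hermForm 3 F q) W → 2 * Module.finrank F W < 3 → Cfsg.Geo.IsMaximalIn (Cfsg.GU 3 F q ⊓ Cfsg.Geo.specialLinear (Fin 3) F) (Cfsg.Geo.subspaceStabilizer W ⊓ (Cfsg.GU 3 F q ⊓ Cfsg.Geo.specialLinear (Fin 3) F))) ∧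
    (q ≠ 5 → ∀ D : Fin 3 → Submodule F (Fin 3 → F), Cfsg.Geo.IsNondegenerateMDecomposition (Cfsg.hermForm 3 F q) 1 D → Cfsg.Geo.IsMaximalIn (Cfsg.GU 3 F q ⊓ Cfsg.Geo.specialLinear (Fin 3) F) (Cfsg.Geo.decompositionStabilizer D ⊓ (Cfsg.GU 3 F q ⊓ Cfsg.Geo.specialLinear (Fin 3) F))) ∧
    (q ≠ 3 → q ≠ 5 → ∀ K : Subalgebra F (Matrix (Fin 3) (Fin 3) F), Cfsg.Geo.IsFieldSubalgebra 3 K → Cfsg.Geo.IsAdjointClosedFor (Cfsg.hermForm 3 F q) K → Cfsg.Geo.IsMaximalIn (Cfsg.GU 3 F q ⊓ Cfsg.Geo.specialLinear (Fin 3) F) (Cfsg.Geo.subalgebraNormalizer K ⊓ (Cfsg.GU 3 F q ⊓ Cfsg.Geo.specialLinear (Fin 3) F))) ∧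
    (∀ (F₀ : Subfield F) (r : ℕ) (P : Matrix.GeneralLinearGroup (Fin 3) F), r.Prime → Odd r → Fintype.card F = Nat.card F₀ ^ r → Cfsg.Geo.IsFormRationalStructure (Cfsg.hermForm 3 F q) F₀ 1 P → Cfsg.Geo.IsMaximalIn (Cfsg.GU 3 F q ⊓ Cfsg.Geo.specialLinear (Fin 3) F) (Cfsg.Geo.subfieldSubgroup F₀ P ⊓ (Cfsg.GU 3 F q ⊓ Cfsg.Geo.specialLinear (Fin 3) F))) ∧
    (Odd q → 7 ≤ q → ∀ (F₀ : Subfield F) (P : Matrix.GeneralLinearGroup (Fin 3) F), Fintype.card F = Nat.card F₀ ^ 2 → Cfsg.Geo.IsFormRationalStructure (Cfsg.hermForm 3 F q) F₀ 1 P → Cfsg.Geo.IsMaximalIn (Cfsg.GU 3 F q ⊓ Cfsg.Geo.specialLinear (Fin 3) F) (Cfsg.Geo.subfieldSubgroup F₀ P ⊓ (Cfsg.GU 3 F q ⊓ Cfsg.Geo.specialLinear (Fin 3) F))) ∧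
    (∀ (p : ℕ) (R : Subgroup (Matrix.GeneralLinearGroup (Fin 3) F)), p.Prime → q = p → p % 3 = 2 → 11 ≤ p → Cfsg.Geo.IsSymplecticTypeGroup 3 R → Cfsg.Geo.ActsAbsolutelyIrreducibly (Cfsg.Geo.matrixSet R) → R ≤ Cfsg.Geo.similarityGroup (Cfsg.hermForm 3 F q) → Nat.card R = 27 → Nat.card (Subgroup.center R) = 3 → Cfsg.Geo.IsMaximalIn (Cfsg.GU 3 F q ⊓ Cfsg.Geo.specialLinear (Fin 3) F) (Cfsg.Geo.subgroupNormalizer R ⊓ (Cfsg.GU 3 F q ⊓ Cfsg.Geo.specialLinear (Fin 3) F))) := by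
  obtain ⟨σ, hσ⟩ := exists_qHom hF
  have hf := hform_hermForm hF hσ 3
  exact ⟨su_ts hF hq hσ hf hres, su_nd hF hq hσ hf hres, su_frame hF hq hσ hf hres,
    su_field hF hq hσ hf hres, su_odd hF hq hσ hf hres, su_two hF hq hσ hf hres,
    su_extra hF hq hσ hf hres⟩

end Cfsg.Agent.H7
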