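import Cfsg.Agent.H5.U.Frame4
import Cfsg.Agent.H5.U.Sub2

/-! Maximal subgroups of `SU_5(q)`: stabilisers of orthonormal frames. -/

set_option autoImplicit false
set_option linter.unusedSimpArgs false
set_option linter.unusedSectionVars false
set_option linter.unusedVariables false

namespace Cfsg.Agent.H6.U5

open Module Cfsg.Agent.H6 Cfsg.Agent.H5.U Cfsg.Agent.H5.U.HF

section

variable {F : Type*} {V : Type*} [Field F] [StarRing F] [AddCommGroup V] [Module F V]
  [NStar F] [Finite F] [FiniteDimensional F V] {h : H5.U.HF F V} {M : Subgroup (V ≃ₗ[F] V)}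
  {b : Fin 5 → V} {s x : V ≃ₗ[F] V}

/-- diagonal with entries `± 1` -/
def Dg (b : Fin 5 → V) (s : V ≃ₗ[F] V) : Prop := ∀ m, s (b m) = b m ∨ s (b m) = -b m

theorem Dg.mono (hs : Dg b s) : Mono b s := fun m =>
  (hs m).elim (fun e => ⟨m, 1, by simp [e]⟩) fun e => ⟨m, -1, by simp [e]⟩

theorem Dg.mul (hs : Dg b s) (hx : Dg b x) : Dg b (s * x) := fun m => by
  rcases hs m with e | e <;> rcases hx m with e' | e' <;> simp [H5.U.mul_app, e, e']

theorem Dg.conj (hb : h.ONB b) (hs : Dg b s) (hx : Mono b x) : Dg b (x⁻¹ * s * x) := fun m => by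
  obtain ⟨j, c, e⟩ := hx m
  refine (hs j).imp (fun e' => ?_) fun e' => ?_ <;>
    simp only [H5.U.mul_app, e, map_smul, e', map_neg, smul_neg] <;>
    rw [← map_smul, ← e, inv_apply_apply]

theorem ext5 (hb : h.ONB b) (e : ∀ m, s (b m) = x (b m)) : s = x :=
  LinearEquiv.toLinearMap_injective (hb.basis.ext fun m => by simpa using e m)

theorem Dg.sq (hb : h.ONB b) (hs : Dg b s) : s * s = 1 := ext5 hb fun m => by
  rcases hs m with e | e <;> simp [H5.U.mul_app, e]

theorem mono_rk1 (f : h.Fr b M) (h2 : (2 : F) ≠ 0) (hB : Bad b M) (hx : x ∈ M) {k : Fin 5} {ε : F}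
    (hε : ε ≠ 0) (hk : s (b k) = -ε • b k) (hs : ∀ m, m ≠ k → s (b m) = ε • b m)
    (hm : Mono b (x⁻¹ * s * x)) : Mono b x := by
  have hb := f.onb
  have hx1 := (f.le hx).1
  have h1 : ∀ v, s v = ε • v - (2 * ε * h v (b k)) • b k := fun v => by
    have : (s : V →ₗ[F] V) = ε • LinearMap.id - (2 * ε) • (h.lin (b k)).smulRight (b k) :=
      hb.basis.ext fun m => by
        by_cases e : m = k
        · subst e; simp [hk, hb.self]; module
        · simp [hs m e, hb.ne e]
    simpa [smul_smul] using congrArg (fun g => g v) this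
  obtain ⟨m, hm0⟩ := hb.exists_coord (u := x⁻¹ (b k)) (ne_zero_left (h := h) (y := x⁻¹ (b k)) (by
    rw [(f.le (inv_mem hx)).1, hb.self]; exact one_ne_zero))
  obtain ⟨j, c, e⟩ := hm m
  rw [H5.U.mul_app, H5.U.mul_app, h1, map_sub, map_smul, map_smul, inv_apply_apply] at e
  have key : ∀ i, i ≠ m → i ≠ j → h (x (b i)) (b k) = 0 := fun i h3 h4 => by
    have := congrArg (fun v => h v (b i)) e
    simp only [sub_left, smul_left, hb.ne h3.symm, hb.ne h4.symm, GU_left hx1 (b m)] at this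
    rw [GU_left hx1]
    exact symm0 (mul_left_cancel₀ (mul_ne_zero (mul_ne_zero h2 hε) (symm_ne hm0))
      (by linear_combination -this))
  obtain ⟨i, hi⟩ := exists_not_mem_list [m, j] (by simp)
  obtain ⟨i', hi'⟩ := exists_not_mem_list [m, j, i] (by simp)
  simp only [List.mem_cons, List.not_mem_nil, or_false, not_or] at hi hi'
  exact f.mono_of_perp h2 (by simp) hB hx hi'.2.2 (key _ hi'.1 hi'.2.1) (key _ hi.1 hi.2)

theorem mono_dg (f : h.Fr b M) (h2 : (2 : F) ≠ 0) (hB : Bad b M) (hx : x ∈ M) (hs : s ∈ h.GU)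
    (ds : Dg b s) {p n : Fin 5} (hp : s (b p) = b p) (hn : s (b n) = -b n)
    (hm : Mono b (x⁻¹ * s * x)) : Mono b x := by
  have hb := f.onb
  have hx1 := (f.le hx).1
  by_cases h1 : ∀ m, m ≠ n → s (b m) = b m
  · exact mono_rk1 f h2 hB hx one_ne_zero (k := n) (by simp [hn]) (by simpa using h1) hm
  by_cases h3 : ∀ m, m ≠ p → s (b m) = -b m
  · exact mono_rk1 f h2 hB hx (ε := -1) (by simp) (k := p) (by simp [hp]) (by simpa using h3) hm
  push Not at h1 h3
  obtain ⟨n', n1, n2⟩ := h1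
  obtain ⟨p', p1, p2⟩ := h3
  replace n2 := (ds n').resolve_left n2
  replace p2 := (ds p').resolve_right p2
  have yy : x⁻¹ * s * x * (x⁻¹ * s * x) = 1 := by
    rw [show x⁻¹ * s * x * (x⁻¹ * s * x) = x⁻¹ * (s * s) * x by group, ds.sq hb]; simp
  choose σ c e using hm
  have e2 : ∀ m, b m = (c m * c (σ m)) • b (σ (σ m)) := fun m => by
    rw [mul_smul, ← e, ← map_smul, ← e, ← H5.U.mul_app, yy]; rfl
  have inv : Function.Involutive σ := fun m => by
    by_contra h0
    simpa [hb.self, hb.ne h0] using congrArg (fun v => h v (b m)) (e2 m)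
  have : Fact (Nat.Prime 2) := ⟨Nat.prime_two⟩
  obtain ⟨m, hm⟩ := Equiv.Perm.exists_fixed_point_of_prime (p := 2) (n := 1) (by simp)
    (σ := inv.toPerm σ) (by ext m; simp [sq, inv m])
  replace hm : σ m = m := hm
  have e3 := congrArg (fun v => h v (b m)) (e2 m)
  simp only [hm, smul_left, hb.self, mul_one] at e3
  have e4 : s (x (b m)) = c m • x (b m) := by
    have := congrArg x (e m)
    rwa [H5.U.mul_app, H5.U.mul_app, apply_inv_apply, map_smul, hm] at this
  rw [← inv_inv x]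
  refine hb.mono_inv ?_
  rcases mul_self_eq_one_iff.1 e3.symm with e5 | e5 <;> rw [e5] at e4
  · exact f.mono_of_perp h2 (by simp) hB (inv_mem hx) n1 (k := m)
      (by rw [← GU_right hx1]; exact symm0 (perp_of_opp h2 hs (by simpa using e4) n2))
      (by rw [← GU_right hx1]; exact symm0 (perp_of_opp h2 hs (by simpa using e4) hn))
  · exact f.mono_of_perp h2 (by simp) hB (inv_mem hx) p1 (k := m)
      (by rw [← GU_right hx1]; exact perp_of_opp h2 hs p2 (by simpa using e4))
      (by rw [← GU_right hx1]; exact perp_of_opp h2 hs hp (by simpa using e4))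

theorem mono_of_bad5 (f : h.Fr b M) (h2 : (2 : F) ≠ 0) (hB : Bad b M) {g : V ≃ₗ[F] V}
    (hg : g ∈ M) : Mono b g := by
  have := finite_equiv F V
  have hb := f.onb
  have dg : ∀ τ : Fin 5 → F, (∀ a, τ a * star (τ a) = 1) → ∏ a, τ a = 1 →
      ∃ s ∈ M, ∀ m, s (b m) = τ m • b m := fun τ h1 h3 => by
    obtain ⟨s, hs, e⟩ := f.exists_diag (e := id) Function.injective_id τ h1 h3
    refine ⟨s, hs, fun m => ?_⟩
    rw [e, Finset.sum_eq_single m (fun i _ hi => by simp [hb.ne hi.symm]) (by simp)]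
    simp [hb.self]; module
  obtain ⟨c, cM, hc⟩ := dg ![1, -1, -1, -1, -1] (fun a => by fin_cases a <;> simp)
    (by simp [Fin.prod_univ_five])
  obtain ⟨a, aM, ha⟩ := dg ![1, -1, -1, 1, 1] (fun a => by fin_cases a <;> simp)
    (by simp [Fin.prod_univ_five])
  have dc : Dg b c := fun m => by fin_cases m <;> simp [hc]
  have da : Dg b a := fun m => by fin_cases m <;> simp [ha]
  have Lc : ∀ x ∈ M, Mono b (x⁻¹ * c * x) → Mono b x := fun x hx =>
    mono_dg f h2 hB hx (f.le cM).1 dc (p := 0) (n := 1) (by simp [hc]) (by simp [hc])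
  have La : ∀ x ∈ M, Mono b (x⁻¹ * a * x) → Mono b x := fun x hx =>
    mono_dg f h2 hB hx (f.le aM).1 da (p := 0) (n := 1) (by simp [ha]) (by simp [ha])
  have cc := dc.sq hb
  have tM := mul_mem (mul_mem hg aM) (inv_mem hg)
  have tt : g * a * g⁻¹ * (g * a * g⁻¹) = 1 := by rw [conj_mul, da.sq hb]; simp
  have hρ := fun l : ℕ => pow_mem (mul_mem cM tM) l
  rcases dihedral_cases c (g * a * g⁻¹) with ⟨k, hk⟩ | ⟨j, z1, zz⟩
  · exfalso
    have h3 := dihedral_odd cc tt hk
    rw [inv_inv] at h3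
    have h4 : a = ((c * (g * a * g⁻¹)) ^ k * g)⁻¹ * c * ((c * (g * a * g⁻¹)) ^ k * g) := by
      calc a = g⁻¹ * (g * a * g⁻¹) * g := by group
        _ = _ := by nth_rw 1 [h3]; group
    have h5 := Lc _ (mul_mem (hρ k) hg) (h4 ▸ da.mono)
    generalize (c * (g * a * g⁻¹)) ^ k * g = w at h4 h5
    have key : ∀ m, a (b m) = b m → ∃ d : F, w (b m) = d • b 0 := fun m hm => by
      obtain ⟨j, d, e⟩ := h5 m
      have h6 := congrArg (fun v => h (w v) (b j)) hm
      simp only [h4, H5.U.mul_app, apply_inv_apply, e, map_smul, hc, smul_left, hb.self] at h6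
      have d0 := hb.mono_ne e
      refine ⟨d, ?_⟩
      fin_cases j
      · exact e
      all_goals exact absurd (by simp at h6; linear_combination -h6) (mul_ne_zero h2 d0)
    obtain ⟨d, e⟩ := key 3 (by simp [ha])
    obtain ⟨d', e'⟩ := key 4 (by simp [ha])
    simpa using hb.mono_inj e e'
  obtain ⟨l, hl⟩ := dihedral_conj cc tt j
  have hi := inv_eq_of_mul_eq_one_right zz
  have h3 := dihedral_left cc tt j
  have h4 := dihedral_right cc tt j
  have zM := hρ j
  have yM := hρ l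
  generalize (c * (g * a * g⁻¹)) ^ j = z at z1 zz hl hi h3 h4 zM
  generalize (c * (g * a * g⁻¹)) ^ l = y at hl yM
  have mz : Mono b z := Lc z zM (by rw [← h3, mul_assoc, zz, mul_one]; exact dc.mono)
  have mz' : Mono b (g⁻¹ * z * g) := La _ (mul_mem (mul_mem (inv_mem hg) zM) hg) (by
    rw [show (g⁻¹ * z * g)⁻¹ * a * (g⁻¹ * z * g) = g⁻¹ * (z⁻¹ * (g * a * g⁻¹) * z) * g by group,
      ← h4, mul_assoc _ z, zz]
    simpa [mul_assoc] using da.mono)
  have dz : Dg b (c * z) := by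
    rcases hl with e | e
    · exact e ▸ dc.conj hb (Lc y yM (e ▸ dc.mono.mul mz))
    · replace e : c * z = (g⁻¹ * y)⁻¹ * a * (g⁻¹ * y) := by rw [e]; group
      exact e ▸ da.conj hb (La _ (mul_mem (inv_mem hg) yM) (e ▸ dc.mono.mul mz))
  replace dz := dc.mul dz
  rw [← mul_assoc, cc, one_mul] at dz
  obtain ⟨n, hn⟩ : ∃ n, z (b n) = -b n := by
    by_contra! h0
    exact z1 (ext5 hb fun m => (dz m).resolve_right (h0 m))
  obtain ⟨p, hp⟩ : ∃ p, z (b p) = b p := by
    by_contra! h0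
    have h5 : (z : V →ₗ[F] V) = (-1 : F) • LinearMap.id := hb.basis.ext fun m => by
      simpa using (dz m).resolve_left (h0 m)
    have h6 := (mem_SU.1 (f.le zM)).2
    rw [h5, LinearMap.det_smul, hb.card, LinearMap.det_id] at h6
    exact h2 (by simp at h6; linear_combination -h6)
  exact mono_dg f h2 hB hg (f.le zM).1 dz hp hn mz'

theorem frame_core5 (f : h.Fr b M) (hg : ∃ g ∈ M, ¬ Mono b g) : h.SU ≤ M := by
  by_cases h2 : (2 : F) = 0
  · by_cases h3 : ∃ t : F, star t = t ∧ t ≠ 0 ∧ t ≠ 1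
    · exact f.core_even h2 (by simp) h3 hg
    have hq : ∀ t : F, star t = t → t = 0 ∨ t = 1 := fun t ht => by
      by_contra! h4
      exact h3 ⟨t, ht, h4⟩
    obtain ⟨v, hv, hT, i, j, k, hij, hik, hjk, hi, hj, hk⟩ := f.exists_wt3 h2 (by simp) hg
    obtain ⟨m, hm⟩ : ∃ m, h v (b m) = 0 := by
      by_contra! h0
      have hN : ∀ n, h v (b n) * h (b n) v = 1 := fun n => by
        simpa using norm_eq_one_of_F4 hq (h0 n)
      rw [f.onb.form, Fin.sum_univ_five] at hv
      simp only [hN] at hv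
      exact one_ne_zero (α := F) (by linear_combination hv - 2 * h2)
    exact f.SU_le_F4 hq (by simp) hv (xIn_of_F4 hq hT) hij hik hjk hi hj hk hm
  by_cases hB : Bad b M
  · obtain ⟨g, hg, hg'⟩ := hg
    exact absurd (mono_of_bad5 f h2 hB hg) hg'
  · simp only [Bad, not_forall] at hB
    obtain ⟨y, hy, k, a, hk, hm⟩ := hB
    exact f.SU_le_of_good h2 (by simp) hy hk hm

end

theorem frame_max5 {F : Type*} [Field F] [Fintype F] (q : ℕ) (hF : Fintype.card F = q ^ 2)
    (D : Fin 5 → Submodule F (Fin 5 → F))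
    (hD : Geo.IsNondegenerateMDecomposition (hermForm 5 F q) 1 D) :
    Geo.IsMaximalIn (GU 5 F q ⊓ Geo.specialLinear (Fin 5) F)
      (Geo.decompositionStabilizer D ⊓ (GU 5 F q ⊓ Geo.specialLinear (Fin 5) F)) := by
  let _ := powStar hF
  have := powStar_nstar hF
  obtain ⟨b, hb, hb'⟩ := (dec_of_decomp hF hD).exists_ONB
  exact H5.U.isMaximalIn_of_core (LinearEquiv.refl F _) (stdHF (Fin 5) F) _ _ (mem_GU_iff hF 5)
    (HF.Mono b) (fun g _ => (mem_decompositionStabilizer' hD.decomp).trans (hb' _))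
    (hb.exists_not_mono (by simp)) fun M hM hH hg => frame_core5 ⟨hb, hM, hH⟩ hg

end Cfsg.Agent.H6.U5
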