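import Cfsg.Agent.H7.U5Big
import Cfsg.Agent.H5.U.Six

/-! Maximal subgroups of `SU_5(q)`: non-degenerate subspaces and subfield subgroups. -/

set_option autoImplicit false
set_option linter.unusedSimpArgs false
set_option linter.unusedSectionVars false
set_option linter.unusedVariables false

namespace Cfsg.Agent.H6.U5

open Module Cfsg.Agent.H6 Cfsg.Agent.H5.U Cfsg.Agent.H5.U.HF

section A

variable {F : Type*} {V : Type*} [Field F] [StarRing F] [AddCommGroup V] [Module F V]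
  [NStar F] [Finite F] [FiniteDimensional F V] {h : H5.U.HF F V} {M : Subgroup (V ≃ₗ[F] V)}

theorem nd_core5 {W : Submodule F V} (hW : h.NdOn W) (hd : 2 * finrank F W < finrank F V)
    (h5 : finrank F V = 5)
    (hM : M ≤ h.SU) (hH : ∀ g ∈ h.SU, g ∈ stabV W → g ∈ M) (hg : ∃ g ∈ M, g ∉ stabV W) :
    h.SU ≤ M := by
  obtain ⟨g, hgM, hg⟩ := hg
  have hg1 := (hM hgM).1
  have hdim := hW.finrank_perp
  have hW' := hW.perp
  have hSU : h.SUW (h.perp W) ≤ M := fun k hk => hH k hk.2 (by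
    have := stabV_perp hk.1.1 (GUW_mem_stabV hk.1)
    rwa [perp_perp] at this)
  have hX : ∀ v ∈ W, h v v = 0 → h.XIn M v := fun v hv _ c _ =>
    hH _ (T_mem_SU _ _) (GUW_mem_stabV (T_mem_SUW hv c).1)
  have hXg : ∀ u ∈ (h.perp W).map (g : V →ₗ[F] V), h u u = 0 → h.XIn M u := by
    rintro _ ⟨x, hx, rfl⟩ hxx
    rw [LinearEquiv.coe_coe, hg1] at hxx
    exact XIn.map hM hxx (fun c _ => hSU (T_mem_SUW hx c)) hgM
  have hdg : finrank F ((h.perp W).map (g : V →ₗ[F] V)) = finrank F (h.perp W) :=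
    LinearEquiv.finrank_map_eq _ _
  obtain ⟨u₁, hu₁, huu₁, hu₁'⟩ := (hW'.map hg1).exists_iso_not_mem (A := h.perp W) (by omega)
    (fun h' => hg (by
      have := stabV_perp hg1 (mem_stabV_of_fd (W := h.perp W) (g := g) fun x hx => h' ⟨x, hx, rfl⟩)
      rwa [perp_perp] at this))
  obtain ⟨u₂, hu₂, huu₂, hu₂'⟩ := (hW'.map hg1).exists_iso_not_mem (A := W) (by omega)
    (fun h' => by have := Submodule.finrank_mono h'; omega)
  obtain ⟨u, huu, hu, h1, h2⟩ : ∃ u, h u u = 0 ∧ h.XIn M u ∧ u ∉ W ∧ u ∉ h.perp W := by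
    by_cases h1 : u₁ ∈ W
    swap; · exact ⟨u₁, huu₁, hXg _ hu₁ huu₁, h1, hu₁'⟩
    by_cases h2 : u₂ ∈ h.perp W
    swap; · exact ⟨u₂, huu₂, hXg _ hu₂ huu₂, hu₂', h2⟩
    have h3 : h (u₁ + u₂) (u₁ + u₂) = 0 := by simp [huu₁, huu₂, h2 _ h1, symm0 (h2 _ h1)]
    refine ⟨u₁ + u₂, h3, hXg _ (Submodule.add_mem _ hu₁ hu₂) h3, fun h' => hu₂' ?_, fun h' => hu₁' ?_⟩
    · simpa using W.sub_mem h' h1
    · simpa using (h.perp W).sub_mem h' h2
  obtain ⟨a, ha, b, hb, rfl⟩ := hW.proj u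
  have a0 : a ≠ 0 := by rintro rfl; exact h2 (by simpa using hb)
  have b0 : b ≠ 0 := by rintro rfl; exact h1 (by simpa using ha)
  by_cases h4 : 4 ≤ finrank F (h.perp W)
  · exact SU_le_of_mixed hM hW' h4 hSU (by rwa [perp_perp]) (by rwa [perp_perp]) a0 hb b0 huu hu
  obtain ⟨x, hx, xa⟩ := hW.exists_ne ha a0
  obtain ⟨y, hy, yb⟩ := hW'.exists_ne hb b0
  have XB : ∀ v ∈ h.perp W, h.XIn M v := fun v hv c _ => hSU (T_mem_SUW hv c)
  obtain ⟨e, he, e0, ee, w, hw, w0, hew⟩ := exists_ME_of_two hM hW hW' (by omega) (by omega)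
    (fun x hx y hy => symm0 (hy x hx)) hX (fun v hv _ => XB v hv) (Or.inr ⟨by omega, hSU⟩) huu hu hx
    (by simpa [symm0 (hb x hx)] using xa) hy (by simpa [hy a ha] using yb)
  obtain ⟨z, hz, zw⟩ := hW'.exists_ne hw w0
  obtain ⟨v, hv, vv, vw⟩ := hW'.exists_iso_ne' (by omega) hz zw
  have h6 := H9.U4.T_sub_mem hM hew vv (symm0 (hv e he)) del_tr (XB v hv _ del_tr)
  have h7 : ∀ y ∈ h.perp W, y ∈ h.ME M e ee := fun y hy =>
    hW'.mem_addSubgroup (by omega) _ (fun y hy yy => by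
      by_cases y0 : y = 0
      · simp [y0]
      obtain ⟨k, hk, k1⟩ := hW'.trans_iso (by omega) (Submodule.smul_mem _ (del F * h w v) hv)
        (smul_ne_zero (mul_ne_zero del_ne (symm_ne vw)) (ne_zero_left vw)) (by simp [vv]) hy y0 yy
      exact k1 ▸ ME_map hM h6 (hSU hk) (hk.1.2 e (le_perp_perp W he))) hy
  obtain ⟨f, hf, ff, ef⟩ := hW.exists_partner he e0 ee
  have h8 := finrank_inf_hyp he hf ee ef
  have h9 : W ⊓ h.pv e ⊓ h.pv f = ⊥ := Submodule.finrank_eq_zero.1 (by omega)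
  refine SU_le_of_Q_X hM ee (qIn_of_ME ee (hX e he ee) fun w _ we => ?_) ff (by simp [ef]) (hX f hf ff)
  obtain ⟨x, hx, z, hz, rfl⟩ := hW.proj w
  refine add_mem ?_ (h7 z hz)
  rw [sub_eq_zero.1 ((Submodule.mem_bot F).1 (h9.le (⟨⟨W.sub_mem hx (W.smul_mem _ he), by
    simpa [ee, hz e he] using we⟩, by simp [ef]⟩ : x - h x f • e ∈ W ⊓ h.pv e ⊓ h.pv f)))]
  exact smul_self_mem_ME ee (hX e he ee) _

variable {cj : V →+ V}

theorem o_aux (c : h.Conj 1 cj) (h2 : (2 : F) ≠ 0) (h5 : 5 ≤ finrank F V) (hM : M ≤ h.SU)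
    (hH : ∀ g ∈ h.SU, ConjStab cj g → g ∈ M) (hne : ¬ h.SU ≤ M) {g : V ≃ₗ[F] V} (hgM : g ∈ M)
    {a e u w : V} (ha : cj a = a) (haa : h a a = 0) (hu : u = g a) (hga : ∀ l : F, cj u ≠ l • u)
    (he : cj e = e) (he0 : e ≠ 0) (hee : h e e = 0) (heu : h e u = 0) (hw : cj w = w)
    (hwa : h w a = 0) (hwe : h (g w) e = 0) (hwS' : g w ∉ Submodule.span F {u, cj u}) : False := by
  have hg1 := (hM hgM).1
  subst hu
  set u := g a with hu
  obtain ⟨o, ho⟩ := c.E_stab h2 ha hw haa hwa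
  have h3 := M.mul_mem (M.mul_mem hgM (hH _ (E_mem_SU _ _ _) ho)) (M.inv_mem hgM)
  rw [conj_E hg1 o] at h3
  have o' := o.map hg1
  have h4 := c.rat_of_fix h2 h5 hM hH hne he he0 hee h3 (E_apply_of_perp heu (symm0 hwe))
  obtain ⟨x, hx1, hx2⟩ := exists_dual_pair' (h := h) (x := u) (w := g w) (fun s hs =>
    hwS' (Submodule.mem_span_pair.2 ⟨s, 0, by simp [hs]⟩)) (-1)
  let A : Submodule F V :=
    { carrier := {x | cj (h.E u (g w) (h w w / 2) x - x) ∈ Submodule.span F {u, g w}}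
      add_mem' := fun {x y} hx hy => by
        simp only [Set.mem_setOf_eq, map_add, map_sub] at *
        convert Submodule.add_mem _ hx hy using 1; abel
      zero_mem' := by simp
      smul_mem' := fun s x hx => by
        simp only [Set.mem_setOf_eq] at *
        rw [map_smul, ← smul_sub, c.smul]; exact Submodule.smul_mem _ _ hx }
  have hA : ∀ x, x ∈ A ↔ cj (h.E u (g w) (h w w / 2) x - x) ∈ Submodule.span F {u, g w} :=
    fun _ => Iff.rfl
  have h7 : x ∈ A := by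
    by_contra h7
    obtain ⟨z, -, hz, hz'⟩ := c.exists_rat_not_mem (U := ⊤) (S := A) (fun _ _ => trivial)
      fun h' => h7 (h' trivial)
    refine hz' ((hA _).2 ?_)
    rw [map_sub, h4 z hz, hz, E_apply o']
    exact Submodule.mem_span_pair.2 ⟨-(h z (g w) + h w w / 2 * h z u), h z u, by module⟩
  obtain ⟨s, t, hst⟩ := Submodule.mem_span_pair.1 ((hA _).1 h7)
  have h8 : h x (g w) = -1 := by rw [← h.conj, hx2]; simp
  rw [E_apply_of_perp_left o' (symm0 hx1), h8] at hst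
  simp only [neg_smul, one_smul, sub_neg_eq_add, add_sub_cancel_left] at hst
  have ht : t ≠ 0 := by rintro rfl; exact hga s (by simpa using hst.symm)
  refine hwS' (Submodule.mem_span_pair.2 ⟨-(t⁻¹ * s), t⁻¹, ?_⟩)
  rw [← hst]; match_scalars <;> field_simp <;> ring


theorem o_core5 (c : h.Conj 1 cj) (h2 : (2 : F) ≠ 0) (h5 : 5 ≤ finrank F V) (hM : M ≤ h.SU)
    (hH : ∀ g ∈ h.SU, ConjStab cj g → g ∈ M) (hg : ∃ g ∈ M, ¬ ConjStab cj g) : h.SU ≤ M := by
  by_contra hne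
  obtain ⟨g, hgM, hg⟩ := hg
  have hg1 := (hM hgM).1
  obtain ⟨a, ha, haa, hga⟩ := c.exists_irrat h2 (by omega) hg1 hg
  have a0 : a ≠ 0 := by rintro rfl; exact hga 0 (by simp)
  have big : ∀ (g : V ≃ₗ[F] V) (u : V) (K : Submodule F V), 3 ≤ finrank F K →
      ¬ K ≤ (Submodule.span F {u, cj u}).map ((g⁻¹ : V ≃ₗ[F] V) : V →ₗ[F] V) := fun g u K h3 h' => by
    have := Submodule.finrank_mono h'
    rw [LinearEquiv.finrank_map_eq] at this
    have := finrank_span_pair_le (F := F) u (cj u)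
    omega
  have rat : ∀ e, cj e = e → e ≠ 0 → h e e = 0 → h e (g a) = 0 → ∀ l : F,
      cj (g⁻¹ e) ≠ l • g⁻¹ e := fun e he e0 ee eu l hl => by
    obtain ⟨w, hw1, hw, hwS⟩ := c.exists_rat_not_mem (U := h.pv a ⊓ h.pv (g⁻¹ e))
      (fun x hx => ⟨c.pv_inv ha x hx.1, by
        show h (cj x) (g⁻¹ e) = 0
        rw [c.left, hl, smul_left, symm0 hx.2]; simp⟩) (big g (g a) _ (by
      have := finrank_inf_pv (h := h) (h.pv a) (g⁻¹ e)
      have := finrank_pv (h := h) a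
      omega))
    exact o_aux c h2 h5 hM hH hne hgM ha haa rfl hga he e0 ee eu hw hw1.1
      (by rw [GU_left hg1]; exact hw1.2) fun h' => hwS ⟨g w, h', by simp⟩
  have uu : h (g a) (g a) = 0 := by rw [hg1, haa]
  have K3 : 3 ≤ finrank F ↥(⊤ ⊓ h.pv (g a) ⊓ h.pv (cj (g a))) := by
    have := finrank_inf_pv₂ (h := h) ⊤ (g a) (cj (g a))
    simp only [finrank_top] at *; omega
  by_cases hb : h (cj (g a)) (g a) = 0
  · have e0 : g a + cj (g a) ≠ 0 := fun h0 => hga (-1) (by linear_combination (norm := module) h0)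
    have u2 : h (cj (g a)) (cj (g a)) = 0 := by rw [c.form, uu, mul_zero]
    have ee : h (g a + cj (g a)) (g a + cj (g a)) = 0 := by simp [uu, u2, hb, symm0 hb]
    have eu : h (g a + cj (g a)) (g a) = 0 := by simp [uu, hb]
    obtain ⟨w, hw1, hw, hwS⟩ := c.exists_rat_not_mem (c.inv_pv₂ (U := ⊤) (fun _ _ => trivial) (g a))
      (big g⁻¹ (g⁻¹ (g a + cj (g a))) _ K3)
    exact o_aux c h2 h5 hM hH hne (inv_mem hgM) (c.add_cj _) ee rfl (rat _ (c.add_cj _) e0 ee eu)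
      ha a0 haa (by rw [← GU_left hg1]; exact symm0 eu) hw
      (by rw [add_right, show h w (g a) = 0 from hw1.1.2, show h w (cj (g a)) = 0 from hw1.2, add_zero])
      (by rw [← GU_right hg1]; exact hw1.1.2) fun h' => hwS ⟨g⁻¹ w, h', by simp⟩
  obtain ⟨e, he1, he, he0, hee⟩ := c.exists_rat_iso
    (c.inv_pv₂ (U := ⊤) (fun _ _ => trivial) (g a)) K3
  obtain ⟨w, hw1, hw, hwS⟩ := c.exists_rat_not_mem (c.inv_pv₂ (c.pv_inv ha) (g⁻¹ e))
    (S := (Submodule.span F {g a, cj (g a)}).map ((g⁻¹ : V ≃ₗ[F] V) : V →ₗ[F] V)) (fun h' => by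
      have h3 := Submodule.eq_of_le_of_finrank_le h' (by
        rw [LinearEquiv.finrank_map_eq]
        have := finrank_inf_pv₂ (h := h) (h.pv a) (g⁻¹ e) (cj (g⁻¹ e))
        have := finrank_pv (h := h) a
        have := finrank_span_pair_le (F := F) (g a) (cj (g a))
        omega)
      have h4 := (h3.ge ⟨cj (g a), Submodule.subset_span (by simp), rfl⟩).1.1
      exact hb (by rw [GU_right hg1]; exact h4))
  exact o_aux c h2 h5 hM hH hne hgM ha haa rfl hga he he0 hee he1.1.2 hw hw1.1.1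
    (by rw [GU_left hg1]; exact hw1.1.2) fun h' => hwS ⟨g w, h', by simp⟩

end A

section B

variable {K : Type*} [Field K] [StarRing K] [NStar K] [Finite K]
  {F : Type*} [Field F] [StarRing F] [NStar F] [Finite F] [Algebra K F]
  {V₀ : Type*} [AddCommGroup V₀] [Module K V₀] [FiniteDimensional K V₀]
  {V : Type*} [AddCommGroup V] [Module F V] [Module K V] [IsScalarTower K F V]
  [FiniteDimensional F V]
  {h₀ : H5.U.HF K V₀} {h : H5.U.HF F V} {j : V₀ →ₗ[K] V} {M : Subgroup (V ≃ₗ[F] V)}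
  (r : RS h₀ h j) (hM : M ≤ h.SU) (hH : ∀ g ∈ h.SU, PH F j g → g ∈ M)
  (hr : (finrank K F).Prime) (h5 : 5 ≤ finrank K V₀) (hne : ¬ h.SU ≤ M)
include r hM hH hr h5 hne

theorem norm_rat5 (hro : Odd (finrank K F)) (h2 : (2 : F) ≠ 0) {w : V} (ww : h w w = 0)
    (hw : h.T w (algebraMap K F (del K)) ∈ M) {e : V₀} (he : h₀ e e = 0) :
    ∃ s : K, h (j e) w * h w (j e) = algebraMap K F s := by
  by_cases h0 : h (j e) w = 0
  · exact ⟨0, by simp [h0]⟩
  have he0 : e ≠ 0 := by rintro rfl; simp at h0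
  have h1 := symm_ne h0
  have d0 := (map_ne_zero (algebraMap K F)).2 (del_ne (F := K))
  have d1 : star (algebraMap K F (del K)) = -algebraMap K F (del K) := by rw [r.st, star_del, map_neg]
  set d := algebraMap K F (del K) with hd
  have dt : d + star d = 0 := by simp [d1]
  let k : Subfield (F0 F) := (algebraMap K F).fieldRange.comap (F0 F).subtype
  have := H1.dickson_lemma (F := F0 F) (fun h => h2 (congrArg Subtype.val h))
    ((H1.plGL M (j e) ((d * h (j e) w) • w) 0 0 fun v => h v w = 0 ∧ h v (j e) = 0).comap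
      (Matrix.GeneralLinearGroup.map (F0 F).subtype)) k
    (δ := ⟨d * d * (h (j e) w * h w (j e)), by simp [mem_F0, d1, mul_comm]⟩)
    (fun h => by simpa [d0, h0, h1] using congrArg Subtype.val h) (fun s => ⟨?_, ?_⟩) ?_ ?_
  · obtain ⟨s, hs⟩ := this
    exact ⟨s / (del K * del K), by rw [map_div₀, hs, map_mul, ← hd]; simp; field_simp⟩
  · rintro ⟨t, ht, g1, g2, -, -, g3⟩
    simp at g1 g2
    obtain ⟨g4, g5⟩ := eq_T_of (hM ht).1 (e := (d * h (j e) w) • w) (γ := s) (r.iso he)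
      (by simp [d0, h0, h1]) (by rw [map_smul, g2, add_comm]) g1 fun x a b => g3 x ⟨by
        simpa [d0, h1, d1] using a, b⟩
    obtain ⟨a, ha⟩ := (r.step1 hM hH hr h5 hne he he0).1 _ g4 (g5 ▸ ht)
    exact ⟨a / del K, by rw [map_div₀, ← ha, ← hd]; simp; field_simp⟩
  · rintro ⟨a, ha⟩
    simp at ha
    have a1 : star a = a := (algebraMap K F).injective (by rw [← r.st, ha]; simp [d1, mul_comm])
    have a2 : a * del K + star (a * del K) = 0 := by simp [a1]
    have a3 : algebraMap K F (a * del K) + star (algebraMap K F (a * del K)) = 0 := by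
      rw [r.st, ← map_add, a2, map_zero]
    refine ⟨_, r.T_mem hM hH he a2, by simp [T_apply_of_perp (r.iso he)], ?_, by simp, by simp,
      fun v hv => T_apply_of_perp hv.2⟩
    rw [T_apply (r.iso he) a3, map_mul, ha, ← hd]
    simp
    match_scalars <;> field_simp
  · exact ⟨_, hw, by simp [T_apply ww dt], by simp [T_apply ww dt, ww], by simp, by simp,
      fun v hv => T_apply_of_perp hv.1⟩
  by_cases c : Nat.card (F0 K) < 4
  · exact Or.inr (H9.U4.not_five_dvd' hro c)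
  · refine Or.inl ((not_lt.1 c).trans (Nat.card_le_card_of_injective (fun x => (⟨⟨algebraMap K F x, by
      rw [mem_F0, r.st, star_F0]⟩, x, rfl⟩ : k)) fun x y e => ?_))
    exact Subtype.ext ((algebraMap K F).injective (congrArg (fun z : k => (z.1 : F)) e))

theorem core_odd5 (hro : Odd (finrank K F)) (h2 : (2 : F) ≠ 0) {g : V ≃ₗ[F] V} (hg : g ∈ M) :
    PH F j g := by
  by_contra hc
  obtain ⟨e, -, e0, ee⟩ := exists_iso (h := h₀) (K := ⊤) (by simp; omega)
  have gen : ∀ x, h₀ x x = 0 → x ≠ 0 → h (j x) (g (j e)) ≠ 0 := fun x xx x0 h0 =>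
    hc (r.block hM hH hr h5 hne hg xx x0 ee e0 h0)
  have ww : h (g (j e)) (g (j e)) = 0 := by rw [(hM hg).1, r.iso ee]
  have hw := mul_mem (mul_mem hg (r.T_mem hM hH ee (del_tr (F := K)))) (inv_mem hg)
  rw [conj_T (hM hg).1 (r.iso ee) (by rw [r.st, ← map_add, del_tr, map_zero])] at hw
  generalize g (j e) = w at gen ww hw
  have hN := fun x => norm_rat5 r hM hH hr h5 hne hro h2 ww hw (e := x)
  have key : ∀ x y, h₀ x x = 0 → x ≠ 0 → h₀ y y = 0 → h₀ x y = 0 →
      ∃ s : K, h (j y) w = algebraMap K F s * h (j x) w := fun x y xx x0 yy xy => by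
    obtain ⟨θ, hθ⟩ := NStar.exists_ne (F := K)
    obtain ⟨s, hs⟩ := hN x xx
    obtain ⟨t, ht⟩ := hN y yy
    obtain ⟨u, hu⟩ := hN (x + y) (by simp [xx, yy, xy, symm0 xy])
    obtain ⟨v, hv⟩ := hN (x + θ • y) (by simp [xx, yy, xy, symm0 xy])
    simp only [map_add, j_smul (F := F), add_left, add_right, smul_left, smul_right, r.st] at hu hv
    have k1 := symm_ne (gen x xx x0)
    have k2 := (map_ne_zero (algebraMap K F)).2 (sub_ne_zero.2 hθ.symm)
    have k3 : algebraMap K F s ≠ 0 := hs ▸ mul_ne_zero (gen x xx x0) k1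
    refine ⟨(v - s - θ * star θ * t - star θ * (u - s - t)) / ((θ - star θ) * s), ?_⟩
    simp only [map_div₀, map_sub, map_mul, ← hs, ← ht, ← hu, ← hv] at k2 ⊢
    have := gen x xx x0
    field_simp; ring
  let A : AddSubgroup V₀ :=
    { carrier := {x | ∃ s : K, h (j x) w = algebraMap K F s * h (j e) w}
      add_mem' := by
        rintro x y ⟨s, hs⟩ ⟨t, ht⟩
        exact ⟨s + t, by rw [map_add, add_left, hs, ht, map_add, add_mul]⟩
      zero_mem' := ⟨0, by simp⟩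
      neg_mem' := by
        rintro x ⟨s, hs⟩
        exact ⟨-s, by rw [map_neg, neg_left, hs, map_neg, neg_mul]⟩ }
  have k1 := gen e ee e0
  obtain ⟨y, hy⟩ := r.rat_of_val (v := (star (h (j e) w))⁻¹ • w) fun x => by
    obtain ⟨s, hs⟩ := (ndOn_top (h := h₀)).mem_addSubgroup (by simp; omega) A (fun y _ yy => by
      obtain ⟨a, -, a0, aa, ha⟩ := exists_iso_perp (h := h₀) ⊤ [e, y] (by simp; omega)
      obtain ⟨s, hs⟩ := key e a ee e0 aa (symm0 (ha e (by simp)))
      obtain ⟨t, ht⟩ := key a y aa a0 yy (ha y (by simp))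
      exact ⟨t * s, by rw [ht, hs, map_mul, mul_assoc]⟩) (y := x) trivial
    exact ⟨s, by simp [hs]; field_simp⟩
  refine gen y ((algebraMap K F).injective ?_) (by rintro rfl; simp [symm_ne k1, ne_zero_right k1] at hy)
    (by simp [← hy, ww])
  simp [← r.form, ← hy, ww]

end B

variable {F : Type*} [Field F] [Fintype F] (q : ℕ) (hF : Fintype.card F = q ^ 2)
include hF

theorem nd_max5 (W : Submodule F (Fin 5 → F)) (hW0 : W ≠ ⊥)
    (hW : Geo.IsNondegenerateOn (hermForm 5 F q) W) (hdim : 2 * Module.finrank F W < 5) :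
    Geo.IsMaximalIn (GU 5 F q ⊓ Geo.specialLinear (Fin 5) F)
      (Geo.subspaceStabilizer W ⊓ (GU 5 F q ⊓ Geo.specialLinear (Fin 5) F)) := by
  let _ := powStar hF
  have := powStar_nstar hF
  have hW' := ndOn_of_isNondegenerateOn hF hW
  exact H5.U.isMaximalIn_of_core (LinearEquiv.refl F _) (stdHF (Fin 5) F) _ _ (mem_GU_iff hF 5)
    (fun g => g ∈ stabV W) (fun g _ => Iff.rfl)
    (HF.nd_ne hW0 hW' (by rintro rfl; simp at hdim))
    fun M hM hH hg => nd_core5 hW' (by simpa using hdim) (by simp) hM hH hg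

theorem oddsub_max5 (F₀ : Subfield F) (r : ℕ) (P : GL (Fin 5) F) (hr : r.Prime) (hro : Odd r)
    (hcard : Fintype.card F = Nat.card F₀ ^ r)
    (hP : Geo.IsFormRationalStructure (hermForm 5 F q) F₀ 1 P) :
    Geo.IsMaximalIn (GU 5 F q ⊓ Geo.specialLinear (Fin 5) F)
      (Geo.subfieldSubgroup F₀ P ⊓ (GU 5 F q ⊓ Geo.specialLinear (Fin 5) F)) :=
  odd_subfield_maximal_of 5 q hF (by omega) F₀ r hr hro hcard P hP
    fun h₀ h j rs h1 h2 M hM hH ⟨g, hg, hg'⟩ => by_contra fun hne => hg' (by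
      by_cases h3 : (2 : F) = 0
      exacts [rs.core_even hM hH h1 (by simp) hne h2 h3 hg,
        core_odd5 rs hM hH h1 (by simp) hne h2 h3 hg])

theorem o_max5 (hodd : Odd q) (F₀ : Subfield F) (P : GL (Fin 5) F)
    (hcard : Fintype.card F = Nat.card F₀ ^ 2)
    (hP : Geo.IsFormRationalStructure (hermForm 5 F q) F₀ 1 P) :
    Geo.IsMaximalIn (GU 5 F q ⊓ Geo.specialLinear (Fin 5) F)
      (Geo.subfieldSubgroup F₀ P ⊓ (GU 5 F q ⊓ Geo.specialLinear (Fin 5) F)) :=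
  o_subfield_maximal_of 5 q hF le_rfl hodd F₀ hcard P hP
    fun h cj c h2 M hM hH hg => o_core5 c h2 (by simp) hM hH hg

end Cfsg.Agent.H6.U5
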