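import Cfsg.Agent.H5.U.Ext5

/-! Transitive unipotent subgroups of the affine group in dimension three. -/

set_option autoImplicit false
set_option linter.unusedSimpArgs false
set_option linter.unusedSectionVars false
set_option linter.unusedVariables false

namespace Cfsg.Agent.H6.U7

open Cfsg.Agent.H5.U

variable {F : Type*} [Field F] [StarRing F] [NStar F] [Fintype F] {q : ℕ}

theorem exists_alt {d ρ : F} (hd : d + star d = 0) (r0 : ρ ≠ 0) : ∃ x, star ρ * x - star x * ρ = d := by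
  obtain ⟨τ, hτ⟩ := exists_tr_one F
  have := star_ne_zero' r0
  refine ⟨d * τ / star ρ, ?_⟩
  rw [star_div₀, star_star, star_mul', eq_neg_of_add_eq_zero_right hd]
  field_simp
  linear_combination d * hτ

theorem alt (hq : Fintype.card F = q ^ 2) (Γ Θ : AddSubgroup F) (hΘ : q < Nat.card Θ)
    (H : ∀ r ∈ Θ, ∀ r' ∈ Θ, star r * r' - star r' * r ∈ Γ) {d : F} (hd : d + star d = 0) : d ∈ Γ := by
  by_contra hn
  obtain ⟨ψ, hψ⟩ := (AddChar.exists_apply_ne_zero (α := F ⧸ Γ) (a := (d : F ⧸ Γ))).2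
    fun e => hn ((QuotientAddGroup.eq_zero_iff d).1 e)
  let β : F → F →+ F := fun r =>
    { toFun := fun x => star r * x - star x * r
      map_zero' := by simp
      map_add' := fun x y => by simp; ring }
  have := Fintype.ofFinite (F ⧸ Θ)
  have h1 := Nat.card_le_card_of_injective (fun r : Θ => ψ.compAddMonoidHom
    (QuotientAddGroup.map Θ Γ (β r) fun x hx => H _ r.2 x hx)) fun r r' e => by
      by_contra k
      obtain ⟨x, hx⟩ := exists_alt hd (ρ := r.1 - r'.1) fun e => k (Subtype.ext (sub_eq_zero.1 e))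
      have : ψ (β r x) = ψ (β r' x) := DFunLike.congr_fun e (x : F ⧸ Θ)
      refine hψ ?_
      rw [show d = β r x - β r' x by rw [← hx]; simp [β]; ring, QuotientAddGroup.mk_sub,
        AddChar.map_sub_eq_div, this, div_self (ψ.val_isUnit _).ne_zero]
  rw [Nat.card_eq_fintype_card (α := AddChar _ _), AddChar.card_eq, ← Nat.card_eq_fintype_card] at h1
  have h2 := Θ.card_eq_card_quotient_mul_card_addSubgroup
  rw [Nat.card_eq_fintype_card, hq] at h2
  nlinarith

/-- coordinates of a transitive unipotent affine group -/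
structure Qs (Q : F → F → F → F → F → F → Prop) : Prop where
  mul : ∀ {x y s z t r x' y' s' z' t' r' : F}, Q x y s z t r → Q x' y' s' z' t' r' →
    Q (x + x') (y + y') (s + s' + x * y') (z + z') (t + t' + y * z') (r + r' + x * t' + s * z')
  inv : ∀ {x y s z t r : F}, Q x y s z t r →
    Q (-x) (-y) (x * y - s) (-z) (y * z - t) (x * t + s * z - r - x * y * z)
  surj : ∀ z t r, ∃ x y s, Q x y s z t r

variable {Q : F → F → F → F → F → F → Prop} {x y s z t r x' y' s' z' t' r' : F}

theorem Qs.comm (c : Qs Q) (a : Q x y s z t r) (b : Q x' y' s' z' t' r') :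
    Q 0 0 (x * y' - x' * y) 0 (y * z' - y' * z)
      (x * t' + s * z' - x' * t - s' * z - (x + x') * (y * z' - y' * z)) := by
  convert c.mul (c.inv (c.mul b a)) (c.mul a b) using 1 <;> ring

theorem Qs.cases (c : Qs Q) (hq : Fintype.card F = q ^ 2) (hst : ∀ t : F, star t = t ^ q) :
    (∃ t r, ¬ (t = 0 ∧ r = 0) ∧ ∀ l, Q 0 0 0 0 (l * t) (l * r)) ∨
    q < Nat.card {r // Q 0 0 0 0 0 r} ∨
    ((∀ x, ∃ y s z t r, Q x y s z t r) ∧ (∃ y s z t r, y ≠ 0 ∧ Q 0 y s z t r) ∧
      ∀ t, ∃ s r, Q 0 0 s 0 t r) ∨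
    ((2 : F) = 0 ∧ ∃ c, c ≠ 0 ∧ ∀ k, star k = k → Q 0 0 0 0 0 (k * c)) := by
  by_contra! H
  obtain ⟨nA, nB, nC, nD⟩ := H
  replace nA : ∀ t r, (∀ l, Q 0 0 0 0 (l * t) (l * r)) → t = 0 ∧ r = 0 := fun t r e => by
    by_contra k
    obtain ⟨l, hl⟩ := nA t r (by tauto)
    exact hl (e l)
  have a1 : ∀ {s r}, Q 0 0 s 0 0 r → s = 0 := fun {s r} e => (nA 0 s fun l => by
    obtain ⟨x, y, s', e'⟩ := c.surj l 0 0
    convert c.comm e e' using 1 <;> ring).2
  have a2 : ∀ {x y s r}, Q x y s 0 0 r → x = 0 := fun {x y s r} e => (nA 0 x fun l => by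
    obtain ⟨x', y', s', e'⟩ := c.surj 0 l 0
    have k := c.comm e e'
    simp only [mul_zero, sub_zero] at k
    rw [a1 k] at k
    convert k using 1 <;> ring).2
  choose X Y S hY using fun r => c.surj 0 0 r
  replace hY : ∀ r, Q 0 (Y r) (S r) 0 0 r := fun r => a2 (hY r) ▸ hY r
  obtain ⟨r0, y0⟩ : ∃ r, Y r ≠ 0 := by
    by_contra! k
    refine one_ne_zero (nA 0 1 fun l => ?_).2
    have e := hY l
    rw [k] at e
    simpa [a1 e] using e
  have a3 : ∀ {x y s t r}, Q x y s 0 t r → x = 0 := fun {x y s t r} e => by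
    have k := c.comm (hY r0) e
    simp only [mul_zero, sub_zero, zero_mul] at k
    simpa [y0] using a1 k
  choose φ Y' S' hφ using fun z => c.surj z 0 0
  have a4 : ∀ {x y s z t r}, Q x y s z t r → x = φ z := fun {x y s z t r} e => by
    have k := c.mul e (c.inv (hφ z))
    rw [add_neg_cancel z] at k
    exact add_neg_eq_zero.1 (a3 k)
  have ad : ∀ z z', φ (z + z') = φ z + φ z' := fun z z' => (a4 (c.mul (hφ z) (hφ z'))).symm
  have φ0 : φ 0 = 0 := a3 (hφ 0)
  have n1 : ∀ r z, ∃ ρ, Q 0 0 (-(φ z * Y r)) 0 (Y r * z) ρ := fun r z => ⟨_, by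
    convert c.comm (hY r) (hφ z) using 1 <;> ring⟩
  obtain ⟨z0, x0⟩ : ∃ z, φ z ≠ 0 := by
    by_contra! k
    refine y0 (nA (Y r0) (S r0) fun l => ?_).1
    convert c.comm (hY r0) (hφ l) using 1 <;> simp [k, mul_comm]
  have a5 : ∀ {s t r s' r'}, Q 0 0 s 0 t r → Q 0 0 s' 0 t r' → s = s' := fun {s t r s' r'} e e' => by
    have k := c.mul e (c.inv e')
    simp only [neg_zero, add_zero, mul_zero, zero_sub, add_neg_cancel] at k
    exact add_neg_eq_zero.1 (a1 k)
  have th : ∀ z z', Q 0 0 0 0 0 (-(Y r0 * (φ z * z' + φ z' * z))) := fun z z' => by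
    obtain ⟨ρ, e⟩ := n1 r0 z
    convert c.comm e (hφ z') using 1 <;> ring
  by_cases inj : Function.Injective φ
  · obtain ⟨t, ht⟩ := nC (fun x => by
      obtain ⟨z, rfl⟩ := Finite.surjective_of_injective inj x
      exact ⟨_, _, _, _, _, hφ z⟩) ⟨_, _, _, _, _, y0, hY r0⟩
    obtain ⟨ρ, e⟩ := n1 r0 (t / Y r0)
    rw [mul_div_cancel₀ _ y0] at e
    exact ht _ _ e
  obtain ⟨z1, x1, z2⟩ : ∃ z, φ z = 0 ∧ z ≠ 0 := by
    by_contra! k
    exact inj fun a b e => sub_eq_zero.1 (k _ (by
      have := ad (a - b) b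
      rw [sub_add_cancel, e] at this
      simpa using this))
  let k : Subfield F :=
    { carrier := {r | ∀ z, φ (r * z) = r * φ z}
      mul_mem' := fun {a b} ha hb z => by rw [mul_assoc, ha, hb, mul_assoc]
      one_mem' := fun z => by simp
      add_mem' := fun {a b} ha hb z => by rw [add_mul, ad, ha, hb, add_mul]
      zero_mem' := fun z => by simp [φ0]
      neg_mem' := fun {a} ha z => by
        have := ad (a * z) (-a * z)
        rw [neg_mul, add_neg_cancel, φ0, ha, ← neg_mul] at this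
        linear_combination -this
      inv_mem' := fun a ha z => by
        by_cases a0 : a = 0
        · simp [a0, φ0]
        have := ha (a⁻¹ * z)
        rw [mul_inv_cancel_left₀ a0] at this
        rw [this, inv_mul_cancel_left₀ a0] }
  have h1 := Nat.card_le_card_of_injective (fun r : F => ((⟨Y r / Y r0, fun z => by
      obtain ⟨ρ, e⟩ := n1 r z
      obtain ⟨ρ', e'⟩ := n1 r0 (Y r / Y r0 * z)
      rw [← mul_assoc, mul_div_cancel₀ _ y0] at e'
      exact mul_right_cancel₀ y0 (by rw [mul_right_comm, div_mul_cancel₀ _ y0]; linear_combination a5 e e')⟩, ⟨r - Function.invFun Y (Y r), by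
      have e := c.mul (hY r) (c.inv (hY (Function.invFun Y (Y r))))
      rw [Function.invFun_eq (f := Y) ⟨r, rfl⟩] at e
      simp only [neg_zero, add_zero, mul_zero, zero_sub, add_neg_cancel, zero_mul, sub_zero] at e
      rw [a1 e] at e
      convert e using 1; ring⟩) : k × {r // Q 0 0 0 0 0 r})) fun a b e => by
    have e1 := (div_left_inj' y0).1 (Subtype.mk.inj (Prod.mk.inj e).1)
    have e2 := Subtype.mk.inj (Prod.mk.inj e).2
    rwa [e1, sub_left_inj] at e2
  have c0 : -(Y r0 * φ z0 * z1) ≠ 0 := by simp [y0, x0, z2]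
  have m : ∀ r ∈ k, Q 0 0 0 0 0 (r * -(Y r0 * φ z0 * z1)) := fun r hr => by
    convert th (r * z0) z1 using 1
    rw [hr, x1]; ring
  have j : Function.Injective fun r : k => (⟨_, m r r.2⟩ : {r // Q 0 0 0 0 0 r}) := fun a b e =>
    Subtype.ext (mul_right_cancel₀ c0 (Subtype.mk.inj e))
  have h2 := Nat.card_le_card_of_injective _ j
  rw [Nat.card_prod, Nat.card_eq_fintype_card, hq] at h1
  have h3 : q ≤ Nat.card k := by
    by_contra! lt
    have : 0 < q := by omega
    nlinarith [Nat.mul_le_mul_left (Nat.card k) nB]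
  by_cases h2 : (2 : F) = 0
  · obtain ⟨a, ha, e⟩ := nD h2 _ c0
    refine e (m a ?_)
    have hF : Nat.card (F0 F) = q :=
      Nat.pow_left_injective two_ne_zero (by simp only [← card_eq_sq, ← hq, Nat.card_eq_fintype_card (α := F)])
    have := Fintype.ofFinite k
    have le : k ≤ F0 F := fun r hr => by
      have := congrArg Subtype.val (FiniteField.pow_card (⟨r, hr⟩ : k))
      rw [← Nat.card_eq_fintype_card, show Nat.card k = q by omega] at this
      exact (hst r).trans this
    obtain ⟨b, hb⟩ := ((Nat.bijective_iff_injective_and_card (Subfield.inclusion le)).2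
      ⟨(Subfield.inclusion le).injective, by omega⟩).2 ⟨a, ha⟩
    obtain rfl : b.1 = a := congrArg Subtype.val hb
    exact b.2
  obtain ⟨r, hr⟩ := ((Nat.bijective_iff_injective_and_card _).2 ⟨j, by omega⟩).2 ⟨_, th z0 z0⟩
  have e : r * z1 = z0 + z0 := mul_left_cancel₀ (mul_ne_zero y0 x0) (by
    linear_combination -Subtype.mk.inj hr)
  have := r.2 z1
  rw [e, ad, x1] at this
  exact mul_ne_zero h2 x0 (by linear_combination this)

end Cfsg.Agent.H6.U7
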