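import Cfsg.Agent.H7.U7E1
import Cfsg.Agent.H7.U5E

/-! Unipotent subgroups of `SU_7(q)` that are transitive on a coset of a totally isotropic plane. -/

set_option autoImplicit false
set_option linter.unusedSimpArgs false
set_option linter.unusedSectionVars false
set_option linter.unusedVariables false

namespace Cfsg.Agent.H6.U7

open Module Cfsg.Agent.H6 Cfsg.Agent.H5.U Cfsg.Agent.H5.U.HF

variable {F : Type*} {V : Type*} [Field F] [StarRing F] [NStar F] [Fintype F] [AddCommGroup V]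
  [Module F V] {h : HF F V} {q : ℕ} {U : Subgroup (V ≃ₗ[F] V)} {a b c u f1 f2 f3 : V}

/-- the flag -/
structure Fl (h : HF F V) (U : Subgroup (V ≃ₗ[F] V)) (a b c u f1 f2 f3 : V) : Prop where
  gu : U ≤ h.GU
  aa : h a a = 0
  ba : h b a = 0
  ca : h c a = 0
  bb : h b b = 0
  cb : h c b = 0
  cc : h c c = 0
  ua : h u a = 0
  ub : h u b = 0
  uc : h u c = 0
  uu : h u u = 1
  a1 : h f1 a = 1
  b1 : h f1 b = 0
  c1 : h f1 c = 0
  a2 : h f2 a = 0
  b2 : h f2 b = 1
  c2 : h f2 c = 0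
  a3 : h f3 a = 0
  b3 : h f3 b = 0
  c3 : h f3 c = 1
  dim : ∀ v, h v a = 0 → h v b = 0 → h v c = 0 → h v u = 0 → ∃ α β γ : F, v = α • a + β • b + γ • c
  fa : ∀ g ∈ U, g a = a

/-- coordinates of an element -/
structure Co (U : Subgroup (V ≃ₗ[F] V)) (a b c u : V) (g : V ≃ₗ[F] V) (x y s z t r : F) : Prop where
  mem : g ∈ U
  gb : g b = b + x • a
  gc : g c = c + y • b + s • a
  gu : g u = u + z • c + t • b + r • a

/-- elements of the centre of the radical -/
def Sg (h : HF F V) (U : Subgroup (V ≃ₗ[F] V)) (a b c : V) (g : V ≃ₗ[F] V) (m1 m2 m3 m4 m5 m6 : F) : Prop :=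
  g ∈ U ∧ ∀ v, g v = v + (m1 * h v a + m2 * h v b + m3 * h v c) • a + (m4 * h v a + m5 * h v b) • b +
    (m6 * h v a) • c

variable (l : Fl h U a b c u f1 f2 f3) {g k : V ≃ₗ[F] V} {x y s z t r x' y' s' z' t' r' : F}
include l

theorem Fl.mul (e : Co U a b c u g x y s z t r) (e' : Co U a b c u k x' y' s' z' t' r') :
    Co U a b c u (g * k) (x + x') (y + y') (s + s' + x * y') (z + z') (t + t' + y * z')
      (r + r' + x * t' + s * z') := by
  refine ⟨mul_mem e.mem e'.mem, ?_, ?_, ?_⟩ <;>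
    simp only [H5.U.mul_app, e.gb, e.gc, e.gu, e'.gb, e'.gc, e'.gu, map_add, map_smul, l.fa _ e.mem] <;> module

theorem Fl.inv (e : Co U a b c u g x y s z t r) :
    Co U a b c u g⁻¹ (-x) (-y) (x * y - s) (-z) (y * z - t) (x * t + s * z - r - x * y * z) := by
  refine ⟨inv_mem e.mem, g.injective ?_, g.injective ?_, g.injective ?_⟩ <;>
    simp only [apply_inv_apply, e.gb, e.gc, e.gu, map_add, map_smul, l.fa _ e.mem] <;> module

theorem Fl.pa (e : g ∈ U) (v : V) : h (g v) a = h v a := by rw [← l.gu e v a, l.fa _ e]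

theorem Fl.pb (e : Co U a b c u g x y s z t r) (v : V) : h (g v) b = h v b - star x * h v a := by
  have := l.gu e.mem v b
  rw [e.gb, add_right, smul_right, l.pa e.mem] at this
  linear_combination this

theorem Fl.pc (e : Co U a b c u g x y s z t r) (v : V) :
    h (g v) c = h v c - star y * h v b + (star x * star y - star s) * h v a := by
  have := l.gu e.mem v c
  simp only [e.gc, add_right, smul_right, l.pa e.mem, l.pb e] at this
  linear_combination this

/-- elements acting trivially on the first two steps -/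
theorem Fl.nl (e : Co U a b c u g 0 0 s 0 t r) (v : V) (hv : s * h v a = 0) : ∃ α β γ : F,
    g v = v - (star t * h v b + star r * h v a) • u + (α • a + β • b + γ • c) := by
  have h1 := l.gu e.mem v u
  have h2 : star s * h v a = 0 := by
    rcases mul_eq_zero.1 hv with e | e <;> simp [e]
  simp only [e.gu, add_right, smul_right, l.pa e.mem, l.pb e, star_zero, zero_mul, add_zero, sub_zero] at h1
  obtain ⟨α, β, γ, k⟩ := l.dim (g v - v + (star t * h v b + star r * h v a) • u)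
    (by simp [l.pa e.mem, l.ua]) (by simp [l.pb e, l.ub]) (by simp [l.pc e, l.uc, h2])
    (by simp only [add_left, sub_left, smul_left, l.uu]; linear_combination h1)
  exact ⟨α, β, γ, by rw [← k]; abel⟩

theorem Fl.tm (e : Co U a b c u g 0 0 0 0 (x * t) (x * r)) (e' : Co U a b c u k 0 0 0 0 (y * t) (y * r)) :
    h.T (t • b + r • a) (star x * y - star y * x) ∈ U := by
  refine (U.mul_mem_cancel_right (mul_mem e'.mem e.mem)).1 ?_
  convert mul_mem e.mem e'.mem using 1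
  ext v
  obtain ⟨α, β, γ, h1⟩ := l.nl e v (zero_mul _)
  obtain ⟨α', β', γ', h2⟩ := l.nl e' v (zero_mul _)
  rw [H5.U.mul_app, T_apply (by simp [l.aa, l.bb, l.ba, symm0 l.ba]) (by simp [mul_comm]), H5.U.mul_app,
    H5.U.mul_app, add_right, smul_right, smul_right, l.pa e'.mem, l.pa e.mem, l.pb e', l.pb e]
  conv_lhs => rw [h1]
  conv_rhs => rw [h2]
  simp only [map_add, map_sub, map_smul, e.gb, e.gc, e.gu, e'.gb, e'.gc, e'.gu, l.fa _ e.mem, l.fa _ e'.mem,
    h1, h2, star_mul', star_zero]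
  match_scalars <;> ring

theorem Fl.sq (h2 : (2 : F) = 0) (e : Co U a b c u g 0 0 0 0 0 r) : h.T a (star r * r) ∈ U := by
  convert mul_mem e.mem e.mem using 1
  ext v
  obtain ⟨α, β, γ, h1⟩ := l.nl e v (zero_mul _)
  rw [T_apply l.aa (by rw [star_mul', star_star]; linear_combination star r * r * h2), H5.U.mul_app, h1]
  simp only [map_add, map_sub, map_smul, e.gb, e.gc, e.gu, l.fa _ e.mem, h1, star_zero]
  match_scalars
  · rfl
  · linear_combination (star r * r * h v a - α) * h2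
  · linear_combination (star r * h v a) * h2
  · linear_combination -β * h2
  · linear_combination -γ * h2

theorem Fl.sg (e : Co U a b c u g 0 0 s 0 t r) (e' : Co U a b c u k 0 0 s' 0 t' r') :
    ∃ σ m1 m2 m3 m4 m6, Sg h U a b c σ m1 m2 m3 m4 (star t * t' - star t' * t) m6 := by
  have e1 := l.mul e' e
  have e2 : Co U a b c u (g * k * (k * g)⁻¹) 0 0 0 0 0 0 := by
    convert l.mul (l.mul e e') (l.inv e1) using 1 <;> ring
  have h1 : ∀ v, h v a = 0 → ∃ κ : F, (g * k * (k * g)⁻¹) v =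
      v + ((star t * t' - star t' * t) * h v b) • b + κ • a := fun w hw => by
    obtain ⟨v, rfl⟩ := (k * g).surjective w
    rw [l.pa e1.mem] at hw
    obtain ⟨α, β, γ, h1⟩ := l.nl e v (by simp [hw])
    obtain ⟨α', β', γ', h2⟩ := l.nl e' v (by simp [hw])
    refine ⟨γ' * s - γ * s' + (star t * r' - star t' * r) * h v b, ?_⟩
    rw [H5.U.mul_app, inv_apply_apply, l.pb e1, H5.U.mul_app, H5.U.mul_app]
    conv_lhs => rw [h2]
    conv_rhs => rw [h1]
    simp only [map_add, map_sub, map_smul, e.gb, e.gc, e.gu, e'.gb, e'.gc, e'.gu, l.fa _ e.mem, l.fa _ e'.mem,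
      h1, h2, hw]
    match_scalars <;> ring
  generalize g * k * (k * g)⁻¹ = σ at e2 h1
  obtain ⟨m2, k2⟩ := h1 f2 l.a2
  obtain ⟨m3, k3⟩ := h1 f3 l.a3
  obtain ⟨m1, m4, m6, k1⟩ := l.nl e2 f1 (zero_mul _)
  refine ⟨σ, m1, m2, m3, m4, m6, e2.mem, fun v => ?_⟩
  obtain ⟨w, hw⟩ : ∃ w, w = v - h v a • f1 - h v b • f2 - h v c • f3 := ⟨_, rfl⟩
  obtain ⟨α, β, γ, k0⟩ := l.dim (w - h w u • u) (by simp [hw, l.a1, l.a2, l.a3, l.ua])
    (by simp [hw, l.b1, l.b2, l.b3, l.ub]) (by simp [hw, l.c1, l.c2, l.c3, l.uc]) (by simp [l.uu])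
  have k4 : σ w = w := by
    rw [sub_eq_iff_eq_add.1 k0]
    simp [e2.gb, e2.gc, e2.gu, l.fa _ e2.mem]
  rw [hw] at k4
  simp only [map_sub, map_smul, k1, k2, k3, l.b2, l.b3, star_zero, sub_eq_iff_eq_add] at k4
  rw [k4]
  match_scalars <;> ring

theorem Fl.cm {σ : V ≃ₗ[F] V} {m1 m2 m3 m4 m5 m6 : F} (e : Co U a b c u g x y s z t r)
    (e' : Sg h U a b c σ m1 m2 m3 m4 m5 m6) : Sg h U a b c (g * σ * g⁻¹ * σ⁻¹)
      (m2 * star x + m3 * star s + (m4 + m5 * star x) * x + m6 * s) (m3 * star y + m5 * x) 0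
      (m5 * star x + m6 * y) 0 0 := by
  refine ⟨mul_mem (mul_mem (mul_mem e.mem e'.1) (inv_mem e.mem)) (inv_mem e'.1), fun w => ?_⟩
  obtain ⟨v, rfl⟩ := σ.surjective w
  rw [H5.U.mul_app, inv_apply_apply, H5.U.mul_app, H5.U.mul_app, e'.2, e'.2]
  simp only [map_add, map_smul, apply_inv_apply, ← GU_right (l.gu e.mem), l.fa _ e.mem, e.gb, e.gc, add_left,
    add_right, smul_left, smul_right, l.aa, l.ba, l.ca, l.bb, l.cb, symm0 l.ba]
  match_scalars <;> ring

theorem Fl.skew {σ : V ≃ₗ[F] V} {m1 m2 m4 : F} (e : Sg h U a b c σ m1 m2 0 m4 0 0) : m4 = -star m2 := by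
  have := l.gu e.1 f1 f2
  simp [e.2, l.a1, l.a2, l.b1, l.b2, l.aa, l.ba, symm0 l.a2, symm1 l.b2] at this
  linear_combination this

theorem Fl.final (hq : Fintype.card F = q ^ 2) (hst : ∀ t : F, star t = t ^ q)
    (surj : ∀ z t r, ∃ x y s g, Co U a b c u g x y s z t r) : ∃ e, e ≠ 0 ∧ h e e = 0 ∧ h.XIn U e := by
  have a0 : a ≠ 0 := ne_zero_right (by rw [l.a1]; exact one_ne_zero)
  rcases Qs.cases (Q := fun x y s z t r => ∃ g, Co U a b c u g x y s z t r)
    ⟨fun ⟨_, e⟩ ⟨_, e'⟩ => ⟨_, l.mul e e'⟩, fun ⟨_, e⟩ => ⟨_, l.inv e⟩, surj⟩ hq hst with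
    ⟨t, r, h0, H⟩ | H | ⟨H1, ⟨y, s, z, t, r, y0, g, e⟩, H3⟩ | ⟨h2, κ, k0, H⟩
  · refine ⟨t • b + r • a, fun e => h0 ⟨?_, ?_⟩, by simp [l.aa, l.bb, l.ba, symm0 l.ba], fun d hd => ?_⟩
    · simpa [l.a2, l.b2] using congrArg (h f2) e
    · simpa [l.a1, l.b1] using congrArg (h f1) e
    obtain ⟨x, rfl⟩ := exists_alt hd one_ne_zero
    exact (H 1).elim fun g e => (H x).elim fun k e' => l.tm e e'
  · refine ⟨a, a0, l.aa, fun d hd => (alt hq
      { carrier := {d | d + star d = 0 ∧ h.T a d ∈ U}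
        add_mem' := fun {c d} hc hd => ⟨by rw [star_add]; linear_combination hc.1 + hd.1,
          T_mul l.aa hc.1 hd.1 ▸ mul_mem hc.2 hd.2⟩
        zero_mem' := ⟨by simp, by simp [T_zero]⟩
        neg_mem' := fun {c} hc => ⟨by rw [star_neg]; linear_combination -hc.1,
          T_inv l.aa hc.1 ▸ inv_mem hc.2⟩ }
      { carrier := {r | ∃ g, Co U a b c u g 0 0 0 0 0 r}
        add_mem' := fun ⟨_, e⟩ ⟨_, e'⟩ => ⟨_, by simpa using l.mul e e'⟩
        zero_mem' := ⟨1, one_mem _, by simp, by simp, by simp⟩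
        neg_mem' := fun ⟨_, e⟩ => ⟨_, by simpa using l.inv e⟩ } H
      (fun r ⟨g, e⟩ r' ⟨k, e'⟩ => ⟨by simp [mul_comm], by
        simpa using l.tm (t := 0) (r := 1) (x := r) (y := r') (by simpa using e) (by simpa using e')⟩) hd).2⟩
  · obtain ⟨s1, r1, g1, e1⟩ := H3 1
    obtain ⟨x, hx⟩ := exists_alt (del_tr (F := F)) one_ne_zero
    obtain ⟨s2, r2, g2, e2⟩ := H3 x
    obtain ⟨σ, m1, m2, m3, m4, m6, hσ⟩ := l.sg e1 e2
    obtain ⟨σ', n1, n2, n4, n0, hσ'⟩ : ∃ σ n1 n2 n4, n2 ≠ 0 ∧ Sg h U a b c σ n1 n2 0 n4 0 0 := by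
      by_cases m0 : m3 = 0
      · obtain ⟨_, _, _, _, _, _, e⟩ := H1 1
        exact ⟨_, _, _, _, by rw [hx]; simpa [m0] using del_ne (F := F), l.cm e hσ⟩
      · exact ⟨_, _, _, _, by simp [m0, y0], l.cm e hσ⟩
    obtain rfl := l.skew hσ'
    refine ⟨a, a0, l.aa, fun d hd => ?_⟩
    obtain ⟨x, rfl⟩ := exists_alt (d := -d) (by rw [star_neg]; linear_combination -hd) n0 |>.imp
      fun x e => (neg_eq_iff_eq_neg.1 e.symm).symm
    obtain ⟨_, _, _, _, _, _, e⟩ := H1 x
    have := l.cm e hσ'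
    convert this.1 using 1
    ext v
    rw [T_apply l.aa hd, this.2]
    match_scalars <;> ring
  · refine ⟨a, a0, l.aa, fun d hd => ?_⟩
    have := star_ne_zero' k0
    obtain ⟨k, hk⟩ := FiniteField.isSquare_of_char_two (F := F)
      (CharP.ringChar_of_prime_eq_zero Nat.prime_two (by exact_mod_cast h2)) (d / (star κ * κ))
    have k1 := congrArg star hk
    rw [star_div₀, star_mul', star_mul', star_star, show star d = d by linear_combination hd - d * h2,
      mul_comm κ, hk] at k1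
    have k2 : star k = k := sub_eq_zero.1 (pow_eq_zero_iff two_ne_zero |>.1 (by
      linear_combination -k1 + (k * k - k * star k) * h2))
    obtain ⟨g, e⟩ := H k k2
    convert l.sq h2 e using 2
    rw [star_mul', k2]
    field_simp at hk
    linear_combination hk

end Cfsg.Agent.H6.U7
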