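import Cfsg.Agent.H5.U.Bridge

/-! Elements of prime order dividing `q² + q + 1` in `GU₇(q)`. -/

set_option autoImplicit false
set_option linter.unusedSectionVars false

namespace Cfsg.Agent.H6.U7.TT

open Module H5.U Matrix
open scoped Classical

/-- the permutation of the eigenvalues -/
def pi7 : Fin 7 → Fin 7 := ![0, 2, 3, 4, 5, 6, 1]

theorem zm {q r : ℕ} (hr : r.Prime) (r3 : r ≠ 3) (dvd : r ∣ q ^ 2 + q + 1) :
    (q : ZMod r) ^ 2 + q + 1 = 0 ∧ (2 : ZMod r) ≠ 0 ∧ (3 : ZMod r) ≠ 0 := by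
  refine ⟨by exact_mod_cast (ZMod.natCast_eq_zero_iff _ _).2 dvd, fun e => ?_, fun e => r3 ?_⟩
  · obtain rfl := (Nat.prime_dvd_prime_iff_eq hr Nat.prime_two).1
      ((ZMod.natCast_eq_zero_iff 2 r).1 (by exact_mod_cast e))
    have := Nat.even_mul_succ_self q
    rw [show q ^ 2 + q + 1 = q * (q + 1) + 1 by ring, ← even_iff_two_dvd] at dvd
    exact Nat.not_even_one ((Nat.even_add.1 dvd).1 this)
  · exact (Nat.prime_dvd_prime_iff_eq hr Nat.prime_three).1
      ((ZMod.natCast_eq_zero_iff 3 r).1 (by exact_mod_cast e))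

theorem mdiag {Ω ι : Type*} [Field Ω] [IsAlgClosed Ω] [Fintype ι] [DecidableEq ι] (hι : Fintype.card ι = 7) {q r : ℕ}
    (fr : Ω →+* Ω) (hfr : ∀ x, fr x = x ^ q) (hr : r.Prime) (r3 : r ≠ 3) (dvd : r ∣ q ^ 2 + q + 1)
    (rp : (r : Ω) ≠ 0) {S : Matrix ι ι Ω} (hS : Sᵀ * S.map fr = 1) (S1 : S ≠ 1) (Sr : S ^ r = 1)
    {v0 : ι → Ω} (h0 : v0 ≠ 0) (h1 : S *ᵥ v0 = v0) : ∃ (v : Basis (Fin 7) Ω (ι → Ω)) (μ : Fin 7 → Ω),
      μ 0 = 1 ∧ (∀ y c, y ≠ 0 → S *ᵥ y = c • y → ∃ j, c = μ j) ∧ ∀ G, G * S = S * G →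
        ∃ d : Fin 7 → Ω, (∀ j, G *ᵥ v j = d j • v j) ∧
          (Gᵀ * G.map fr = 1 → ∀ j, d (pi7 j) * d j ^ q = 1) := by
  have := Fact.mk hr
  obtain ⟨x0, x2, x3⟩ := zm hr r3 dvd
  have fm : ∀ (G : Matrix ι ι Ω) y, fr ∘ (G *ᵥ y) = G.map fr *ᵥ (fr ∘ y) := fun G y =>
    funext (fr.map_mulVec G y)
  have fs : ∀ (c : Ω) (y : ι → Ω), fr ∘ (c • y) = c ^ q • (fr ∘ y) := fun c y => funext fun i => by
    simp [hfr, mul_pow]
  have f0 : ∀ y : ι → Ω, y ≠ 0 → fr ∘ y ≠ 0 := fun y e k => e (funext fun i => by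
    simpa using congrFun k i)
  have T : ∀ c c' : Ω, (∃ y ≠ 0, S *ᵥ y = c • y) → c' * c ^ q = 1 → ∃ y ≠ 0, S *ᵥ y = c' • y := by
    rintro c c' ⟨y, y0, e⟩ k
    have e' := congrArg (fun z => c' • Sᵀ *ᵥ (fr ∘ z)) e
    simp only [fm, fs, mulVec_mulVec, hS, one_mulVec, mulVec_smul, smul_smul, k, one_smul] at e'
    obtain ⟨z, z0, hz⟩ := exists_mulVec_eq_zero_iff.2 ((det_transpose (S - c' • 1)).symm.trans
      (exists_mulVec_eq_zero_iff.1 ⟨_, f0 y y0, by simp [sub_mulVec, smul_mulVec, e']⟩))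
    exact ⟨z, z0, by simpa [sub_mulVec, smul_mulVec, sub_eq_zero] using hz⟩
  obtain ⟨m, m1, y, y0, hy⟩ : ∃ m ≠ (1 : Ω), ∃ y ≠ 0, S *ᵥ y = m • y := by
    have hW : ∀ x ∈ LinearMap.range (toLin' (S - 1)), toLin' S x ∈ LinearMap.range (toLin' (S - 1)) := by
      rintro _ ⟨x, rfl⟩
      exact ⟨S *ᵥ x, by simp [mulVec_sub]⟩
    have : Nontrivial (LinearMap.range (toLin' (S - 1))) := Submodule.nontrivial_iff_ne_bot.2 fun e =>
      S1 (sub_eq_zero.1 (toLin'.map_eq_zero_iff.1 (LinearMap.range_eq_bot.1 e)))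
    obtain ⟨m, hm⟩ := End.exists_eigenvalue ((toLin' S).restrict hW)
    obtain ⟨⟨_, w, rfl⟩, h2⟩ := hm.exists_hasEigenvector
    have h3 : S *ᵥ (toLin' (S - 1) w) = m • toLin' (S - 1) w := congrArg Subtype.val h2.apply_eq_smul
    have h4 : toLin' (S - 1) w ≠ 0 := fun e => h2.2 (Subtype.ext e)
    refine ⟨m, ?_, _, h4, h3⟩
    rintro rfl
    have h5 : S *ᵥ w = w + toLin' (S - 1) w := by simp
    generalize toLin' (S - 1) w = y at h3 h4 h5
    have h6 : ∀ n : ℕ, S ^ n *ᵥ w = w + (n : Ω) • y := fun n => by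
      induction n with
      | zero => simp
      | succ n ih => rw [pow_succ', ← mulVec_mulVec, ih, mulVec_add, mulVec_smul, h3, h5]; push_cast; module
    simpa [Sr, rp, h4] using h6 r
  have mr : m ^ r = 1 := by
    have : ∀ n : ℕ, S ^ n *ᵥ y = m ^ n • y := fun n => by
      induction n with
      | zero => simp
      | succ n ih => rw [pow_succ', ← mulVec_mulVec, ih, mulVec_smul, hy, smul_smul, pow_succ]
    have := this r
    rw [Sr, one_mulVec] at this
    exact (smul_left_injective Ω y0 ((one_smul _ _).trans this)).symm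
  have m0 : m ≠ 0 := by rintro rfl; simp [hr.ne_zero] at mr
  have key : ∀ a b : ℤ, m ^ a = m ^ b ↔ (a : ZMod r) = b := fun a b => by
    have : orderOf (Units.mk0 m m0) = r := orderOf_eq_prime (Units.ext (by simpa using mr))
      fun e => m1 (congrArg Units.val e)
    rw [ZMod.intCast_eq_intCast_iff, ← this, ← zpow_eq_zpow_iff_modEq, Units.ext_iff]
    simp
  let a : Fin 7 → ℤ := ![0, 1, 0, -1, -1, 0, 1]
  let b : Fin 7 → ℤ := ![0, 0, -1, -1, 0, 1, 1]
  let μ : Fin 7 → Ω := fun i => m ^ (a i + b i * q)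
  have inj : Function.Injective μ := fun i j e => by
    by_contra k
    have h2 : ∀ i j, i ≠ j → (a i - a j) ^ 2 - (a i - a j) * (b i - b j) + (b i - b j) ^ 2 ∈ ({1, 3, 4} : Finset ℤ) := by
      decide
    have h3 : (((a i - a j) ^ 2 - (a i - a j) * (b i - b j) + (b i - b j) ^ 2 : ℤ) : ZMod r) = 0 := by
      have := (key _ _).1 e
      push_cast at this ⊢
      linear_combination (a i - a j - (b i - b j) * (q + 1) : ZMod r) * this + ((b i : ZMod r) - b j) ^ 2 * x0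
    have h4 := h2 i j k
    simp only [Finset.mem_insert, Finset.mem_singleton] at h4
    rcases h4 with h4 | h4 | h4 <;> rw [h4] at h3
    · simp at h3
    · exact x3 (by exact_mod_cast h3)
    · exact mul_ne_zero x2 x2 (by push_cast at h3; linear_combination h3)
  have hπ : ∀ j, μ (pi7 j) * μ j ^ q = 1 := fun j => by
    have h2 : ∀ j, a (pi7 j) = b j ∧ b (pi7 j) = b j - a j := by decide
    simp only [μ]
    rw [← zpow_natCast, ← _root_.zpow_mul, ← zpow_add₀ m0, ← zpow_zero m, key, (h2 j).1, (h2 j).2]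
    push_cast
    linear_combination (b j : ZMod r) * x0
  have e1 : ∃ y ≠ 0, S *ᵥ y = μ 1 • y := ⟨y, y0, by simpa [μ, a, b] using hy⟩
  have e2 := T _ _ e1 (hπ 1)
  have e3 := T _ _ e2 (hπ _)
  have e4 := T _ _ e3 (hπ _)
  have e5 := T _ _ e4 (hπ _)
  have e6 := T _ _ e5 (hπ _)
  have μ0 : μ 0 = 1 := by simp [μ, a, b]
  choose v hv0 hv using show ∀ j, ∃ y ≠ 0, S *ᵥ y = μ j • y from fun j => by
    fin_cases j
    exacts [⟨v0, h0, h1.trans (by simp [μ0])⟩, e1, e2, e3, e4, e5, e6]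
  let B := basisOfLinearIndependentOfCardEqFinrank (End.eigenvectors_linearIndependent' (toLin' S) μ inj v
    fun i => ⟨End.mem_eigenspace_iff.2 (hv i), hv0 i⟩) (by simp [hι])
  have hB : ∀ i, B i = v i := by simp [B]
  have eig : ∀ y c, S *ᵥ y = c • y → ∀ i, c ≠ μ i → B.repr y i = 0 := fun y c e i k => by
    have h2 : S *ᵥ y = ∑ j, (B.repr y j * μ j) • B j := by
      conv_lhs => rw [← B.sum_repr y]
      simp [mulVec_sum, mulVec_smul, hB, hv, smul_smul]
    have h3 := congrArg (B.repr · i) (e.symm.trans h2)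
    simp only [map_smul, Finsupp.smul_apply, smul_eq_mul, B.repr_sum_self] at h3
    exact (mul_eq_zero.1 (show (c - μ i) * _ = 0 by linear_combination h3)).resolve_left (sub_ne_zero.2 k)
  refine ⟨B, μ, μ0, fun y c y0 e => by_contra fun k => y0 (B.repr.map_eq_zero_iff.1 (Finsupp.ext fun i =>
    eig y c e i fun e => k ⟨i, e⟩)), fun G hG => ?_⟩
  have h2 : ∀ j, G *ᵥ B j = B.repr (G *ᵥ B j) j • B j := fun j => by
    conv_lhs => rw [← B.sum_repr (G *ᵥ B j)]
    exact Finset.sum_eq_single j (fun i _ k => by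
      rw [eig _ (μ j) (by rw [mulVec_mulVec, ← hG, ← mulVec_mulVec, hB, hv, mulVec_smul]) i
        fun e => k (inj e).symm, zero_smul]) (by simp)
  refine ⟨_, h2, fun u j => ?_⟩
  obtain ⟨i, hi⟩ : ∃ i, B i ⬝ᵥ (fr ∘ B j) ≠ 0 := by
    by_contra! k
    refine f0 _ (B.ne_zero j) (funext fun l => ?_)
    have : Pi.single l 1 ⬝ᵥ (fr ∘ B j) = 0 := by
      rw [← B.sum_repr (Pi.single l 1)]
      simp only [sum_dotProduct, smul_dotProduct, k, smul_zero, Finset.sum_const_zero]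
    simpa using this
  have h3 : ∀ (G : Matrix ι ι Ω) (c c' : Ω), Gᵀ * G.map fr = 1 → G *ᵥ B i = c • B i → G *ᵥ B j = c' • B j →
      c * c' ^ q = 1 := fun G c c' u e e' => by
    have : (G *ᵥ B i) ⬝ᵥ (fr ∘ (G *ᵥ B j)) = B i ⬝ᵥ (fr ∘ B j) := by
      rw [fm, ← vecMul_transpose, ← dotProduct_mulVec, mulVec_mulVec, u, one_mulVec]
    rw [e, e', fs, smul_dotProduct, dotProduct_smul, smul_smul] at this
    exact mul_right_cancel₀ hi (this.trans (one_mul _).symm)
  obtain rfl : i = pi7 j := inj (mul_right_cancel₀ (right_ne_zero_of_mul_eq_one (hπ j))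
    ((h3 S _ _ hS (by rw [hB, hv]) (by rw [hB, hv])).trans (hπ j).symm))
  exact h3 G _ _ u (h2 _) (h2 _)

variable {F V : Type*} [Field F] [StarRing F] [NStar F] [Fintype F] [AddCommGroup V] [Module F V]
  {h : HF F V} {q r : ℕ} {s : V ≃ₗ[F] V}

theorem diag (hV : finrank F V = 7) (hq : Fintype.card F = q ^ 2) (hst : ∀ t : F, star t = t ^ q)
    (hr : r.Prime) (r3 : r ≠ 3) (dvd : r ∣ q ^ 2 + q + 1) (hs : s ∈ h.GU) (ho : orderOf s = r) :
    ∃ (D : (V ≃ₗ[F] V) → AlgebraicClosure F) (Y : Finset (AlgebraicClosure F)), Y.card ≤ 6 ∧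
      (∀ g g', Commute g s → Commute g' s → Commute g g' ∧ D (g * g') = D g * D g') ∧
      (∀ g ∈ h.GU, Commute g s → D g ^ (q ^ 6 - 1) = 1 ∧ ∀ k, g ^ r ^ k = 1 → D g = 1 → g = 1) ∧
      ∀ x ∈ h.GU, Commute (x * s * x⁻¹) s → D (x * s * x⁻¹) ∈ Y := by
  have := Fact.mk hr
  have := Module.finite_of_finrank_pos (R := F) (M := V) (by omega)
  have : Finite V := Module.finite_of_finite F
  have := Fintype.ofFinite V
  obtain ⟨x0, x2, x3⟩ := zm hr r3 dvd
  obtain ⟨p, j, hp, _, e⟩ := exists_q_pow hq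
  have := Fact.mk hp
  have q0 : q ≠ 0 := e ▸ pow_ne_zero _ hp.ne_zero
  obtain ⟨b, hb⟩ := h.exists_ONB
  let φ := algebraMap F (AlgebraicClosure F)
  let vec : V → _ := fun x i => φ (h x (b i))
  let M : (V ≃ₗ[F] V) → Matrix _ _ _ := fun g => of fun i j => φ (h (g (b j)) (b i))
  have v0 : ∀ x y, vec x = vec y → x = y := fun x y e => hb.ext fun i => φ.injective (congrFun e i)
  have v1 : ∀ x, x ≠ 0 → vec x ≠ 0 := fun x e k => e (v0 x 0 (k.trans (by ext; simp [vec])))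
  have Mv : ∀ g x, M g *ᵥ vec x = vec (g x) := fun g x => funext fun i => by
    conv_rhs => rw [hb.span x]
    simp [M, vec, mulVec, dotProduct, h.sum_left, mul_comm]
  have Mm : ∀ g g', M (g * g') = M g * M g' := fun g g' => Matrix.ext fun i j =>
    (congrFun (Mv g (g' (b j))) i).symm
  have M1 : M 1 = 1 := Matrix.ext fun i j => by simp [M, hb.on j i, one_apply, eq_comm]
  have Mp : ∀ g (n : ℕ), M (g ^ n) = M g ^ n := fun g n => by
    induction n with
    | zero => simp [M1]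
    | succ n ih => rw [pow_succ, pow_succ, Mm, ih]
  have Mi : ∀ g g', M g = M g' → g = g' := fun g g' e => LinearEquiv.ext fun x => v0 _ _ (by rw [← Mv, ← Mv, e])
  have Mu : ∀ g ∈ h.GU, (M g)ᵀ * (M g).map (iterateFrobenius _ p j) = 1 := fun g hg => Matrix.ext fun i l => by
    have := congrArg φ ((hb.map hg).on i l)
    rw [hb.form] at this
    simpa [M, mul_apply, iterateFrobenius_def, ← e, ← map_pow, ← hst, one_apply] using this
  have sr : s ^ r = 1 := ho ▸ pow_orderOf_eq_one s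
  obtain ⟨⟨w, w0⟩, hw⟩ := Equiv.Perm.exists_fixed_point_of_prime (p := r) (n := 1) (α := {x : V // x ≠ 0})
    (σ := (MulAction.toPermHom (V ≃ₗ[F] V) V s).subtypePerm (by simp)) (hα := by
      rw [← ZMod.natCast_eq_zero_iff, Fintype.card_subtype_compl, Module.card_eq_pow_finrank (K := F), hq, hV, Fintype.card_unique,
        Nat.cast_sub (Nat.one_le_pow _ _ (by positivity))]
      push_cast
      intro k
      have : (q : ZMod r) ^ 2 = 1 := by
        linear_combination k - (q : ZMod r) ^ 2 * (q - 1) * (q ^ 9 + q ^ 6 + q ^ 3 + 1) * x0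
      exact x3 (by linear_combination this - ((q : ZMod r) - 2) * (x0 - this)))
    (hσ := by
      rw [pow_one, Equiv.Perm.subtypePerm_pow]
      ext x
      change (MulAction.toPermHom (V ≃ₗ[F] V) V s ^ r) x.1 = x.1
      rw [← map_pow, sr, map_one]
      rfl)
  obtain ⟨v, μ, μ0, h1, h2⟩ := mdiag (by simp [hV]) (iterateFrobenius _ p j) (fun x => e ▸ rfl) hr r3 dvd
    (fun k => by
      obtain rfl := (Nat.prime_dvd_prime_iff_eq hp hr).1 ((CharP.cast_eq_zero_iff _ p r).1 k)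
      obtain rfl | j0 := eq_or_ne j 0
      · exact Fintype.one_lt_card.ne' (hq.trans (by simp [e]))
      simp [e, j0] at x0)
    (Mu s hs) (fun k => hr.one_lt.ne' (by rw [← ho, Mi s 1 (k.trans M1.symm), orderOf_one])) (by rw [← Mp, sr, M1])
    (v1 w w0) ((Mv s w).trans (congrArg vec (congrArg Subtype.val hw)))
  choose! d d1 d2 using h2
  have c1 : ∀ g, Commute g s → M g * M s = M s * M g := fun g c => by rw [← Mm, c.eq, Mm]
  have ex : ∀ {g g'}, (∀ j, M g *ᵥ v j = M g' *ᵥ v j) → M g = M g' := fun e =>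
    toLin'.injective (v.ext e)
  have un : ∀ {c c' : AlgebraicClosure F} {j}, c • v j = c' • v j → c = c' := fun e =>
    smul_left_injective _ (v.ne_zero _) e
  have h3 : ∀ g ∈ h.GU, Commute g s → d (M g) 1 ^ (q ^ 6 - 1) = 1 ∧
      ∀ k, g ^ r ^ k = 1 → d (M g) 1 = 1 → g = 1 := fun g hg c => by
    have k := d2 _ (c1 g c) (Mu g hg)
    have k' := fun j => eq_inv_of_mul_eq_one_left (k j)
    refine ⟨?_, fun n e e' => Mi _ _ (ex fun j => ?_)⟩
    · have a : d _ 1 = _ := k' 6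
      rw [show d _ 6 = _ from k' 5, show d _ 5 = _ from k' 4, show d _ 4 = _ from k' 3, show d _ 3 = _ from k' 2,
        show d _ 2 = _ from k' 1] at a
      simp only [inv_pow, inv_inv, ← pow_mul] at a
      refine mul_right_cancel₀ (left_ne_zero_of_mul_eq_one (k 6) : d _ 1 ≠ 0) ?_
      rw [one_mul, ← pow_succ, Nat.sub_add_cancel (Nat.one_le_pow _ _ (by positivity))]
      exact (congrArg _ (by ring)).trans a.symm
    have a0 : d (M g) 0 = 1 := by
      refine (pow_eq_one_iff_of_coprime (m := r ^ n) (n := q + 1) (Nat.Coprime.pow_left _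
        (hr.coprime_iff_not_dvd.2 fun e => ?_))).1 ⟨un (j := 0) ?_, (pow_succ' _ _).trans (k 0)⟩
      · have := (ZMod.natCast_eq_zero_iff _ _).2 e
        push_cast at this
        exact one_ne_zero (α := ZMod r) (by linear_combination x0 - q * this)
      · have : ∀ n : ℕ, M (g ^ n) *ᵥ v 0 = d (M g) 0 ^ n • v 0 := fun n => by
          induction n with
          | zero => simp [M1]
          | succ n ih => rw [pow_succ', Mm, ← mulVec_mulVec, ih, mulVec_smul, d1 _ (c1 g c), smul_smul, pow_succ]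
        rw [← this, e, M1, one_mulVec, one_smul]
    have a2 : d (M g) 2 = 1 := by simpa [e', pi7] using k 1
    have a3 : d (M g) 3 = 1 := by simpa [a2, pi7] using k 2
    have a4 : d (M g) 4 = 1 := by simpa [a3, pi7] using k 3
    have a5 : d (M g) 5 = 1 := by simpa [a4, pi7] using k 4
    have a6 : d (M g) 6 = 1 := by simpa [a5, pi7] using k 5
    rw [d1 _ (c1 g c), M1, one_mulVec, show d (M g) j = 1 by fin_cases j <;> assumption, one_smul]
  refine ⟨fun g => d (M g) 1, (Finset.univ.erase 0).image μ, Finset.card_image_le.trans (by simp),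
    fun g g' c c' => ⟨Mi _ _ (ex fun j => ?_), un (j := 1) ?_⟩, h3, fun x hx c => ?_⟩
  · simp only [Mm, ← mulVec_mulVec, d1 _ (c1 g c), d1 _ (c1 g' c'), mulVec_smul, smul_smul, mul_comm]
  · rw [← d1 _ (c1 _ (c.mul_left c')), Mm, ← mulVec_mulVec, d1 _ (c1 g' c'), mulVec_smul, d1 _ (c1 g c),
      smul_smul, mul_comm]
  obtain ⟨j, hj⟩ := h1 (M x⁻¹ *ᵥ v 1) (d (M (x * s * x⁻¹)) 1) (fun e => v.ne_zero 1 (by
    simpa [← Mm, M1] using congrArg (M x *ᵥ ·) e)) (by
      rw [← mulVec_smul, ← d1 _ (c1 _ c), mulVec_mulVec, mulVec_mulVec, ← Mm, ← Mm]; group)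
  refine Finset.mem_image.2 ⟨j, Finset.mem_erase.2 ⟨?_, Finset.mem_univ _⟩, hj.symm⟩
  rintro rfl
  have := (h3 _ (mul_mem (mul_mem hx hs) (inv_mem hx)) c).2 1 (by simp [conj_pow, sr]) (hj.trans μ0)
  exact hr.one_lt.ne' (by rw [← ho, conj_eq_one_iff.1 this, orderOf_one])

end Cfsg.Agent.H6.U7.TT
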